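import Mathlib

set_option autoImplicit false

/-!
Abstract Golay codes: self-dual binary codes of length 24 and minimum weight at least 8.
-/

namespace Cfsg.Agent.Lib.ThreeT.AbsGolay

open Finset

abbrev V24 := Fin 24 → ZMod 2

/-- Support of a word. -/
def supp (v : V24) : Finset (Fin 24) := univ.filter fun i => v i ≠ 0

theorem hammingNorm_eq (v : V24) : hammingNorm v = (supp v).card := rfl

@[simp] theorem mem_supp {v : V24} {i : Fin 24} : i ∈ supp v ↔ v i ≠ 0 := by simp [supp]

theorem zmod2_cases (x : ZMod 2) : x = 0 ∨ x = 1 := by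
  revert x; decide

theorem eq_one_of_ne_zero {x : ZMod 2} (h : x ≠ 0) : x = 1 := (zmod2_cases x).resolve_left h

/-- The characteristic word of a set. -/
def chi (S : Finset (Fin 24)) : V24 := fun i => if i ∈ S then 1 else 0

@[simp] theorem supp_chi (S : Finset (Fin 24)) : supp (chi S) = S := by
  ext i
  by_cases h : i ∈ S <;> simp [chi, h]

@[simp] theorem chi_supp (v : V24) : chi (supp v) = v := by
  funext i
  by_cases h : v i = 0
  · simp [chi, h]
  · simp [chi, h, eq_one_of_ne_zero h]

theorem supp_injective : Function.Injective supp := by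
  intro v w h
  rw [← chi_supp v, h, chi_supp]

theorem add_ne_zero_iff (x y : ZMod 2) : x + y ≠ 0 ↔ ¬ (x ≠ 0 ↔ y ≠ 0) := by
  revert x y; decide

theorem mem_supp_add {v w : V24} {i : Fin 24} :
    i ∈ supp (v + w) ↔ ¬ (i ∈ supp v ↔ i ∈ supp w) := by
  simp only [mem_supp, Pi.add_apply, add_ne_zero_iff]

theorem sub_eq_add' (v w : V24) : v - w = v + w := by
  funext i
  simp only [Pi.sub_apply, Pi.add_apply]
  generalize v i = x
  generalize w i = y
  revert x y; decide

theorem self_add (v : V24) : v + v = 0 := by
  funext i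
  simp only [Pi.add_apply, Pi.zero_apply]
  generalize v i = x
  revert x; decide

/-- `wt (v+w) + 2 |v∩w| = wt v + wt w`. -/
theorem card_supp_add (v w : V24) :
    (supp (v + w)).card + 2 * (supp v ∩ supp w).card = (supp v).card + (supp w).card := by
  have h1 : supp (v + w) = (supp v \ supp w) ∪ (supp w \ supp v) := by
    ext i
    rw [mem_supp_add, mem_union, mem_sdiff, mem_sdiff]
    tauto
  have h2 : Disjoint (supp v \ supp w) (supp w \ supp v) := by
    rw [Finset.disjoint_left]
    intro i hi hi'
    rw [mem_sdiff] at hi hi'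
    exact hi.2 hi'.1
  have h3 := Finset.card_sdiff_add_card_inter (supp v) (supp w)
  have h4 := Finset.card_sdiff_add_card_inter (supp w) (supp v)
  rw [inter_comm] at h4
  rw [h1, card_union_of_disjoint h2]
  omega

/-- The mod 2 inner product counts the intersection. -/
theorem sum_mul_eq (v w : V24) : ∑ i, v i * w i = ((supp v ∩ supp w).card : ZMod 2) := by
  have : ∀ i, v i * w i = if i ∈ supp v ∩ supp w then 1 else 0 := by
    intro i
    have h : (i ∈ supp v ∩ supp w) ↔ (v i ≠ 0 ∧ w i ≠ 0) := by simp
    have key : ∀ x y : ZMod 2, x * y = if (x ≠ 0 ∧ y ≠ 0) then 1 else 0 := by decide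
    rw [key]
    simp only [h]
  simp_rw [this]
  rw [Finset.sum_ite_mem]
  simp

theorem card_filter_norm (k : ℕ) :
    (univ.filter fun v : V24 => hammingNorm v = k).card = Nat.choose 24 k := by
  have h : (powersetCard k (univ : Finset (Fin 24))).card = Nat.choose 24 k := by
    rw [card_powersetCard]; simp
  rw [← h]
  apply Finset.card_nbij' supp chi
  · intro v hv
    simp only [coe_filter, mem_univ, true_and, Set.mem_ofPred_eq] at hv
    simp only [mem_coe, mem_powersetCard]
    exact ⟨subset_univ _, hv⟩
  · intro S hS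
    simp only [mem_coe, mem_powersetCard] at hS
    simp only [coe_filter, mem_univ, true_and, Set.mem_ofPred_eq]
    rw [hammingNorm_eq, supp_chi]; exact hS.2
  · intro v _; exact chi_supp v
  · intro S _; exact supp_chi S

/-- The hypotheses on the code. -/
structure IsAbs (C : Submodule (ZMod 2) V24) : Prop where
  hdim : Module.finrank (ZMod 2) C = 12
  horth : ∀ v ∈ C, ∀ w ∈ C, ∑ i, v i * w i = 0
  hmin : ∀ w ∈ C, w ≠ 0 → 8 ≤ hammingNorm w

variable {C : Submodule (ZMod 2) V24} (hC : IsAbs C)
include hC

theorem card_quot : Nat.card (V24 ⧸ C) = 4096 := by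
  have h1 : Nat.card C = 2 ^ 12 := by
    have := Module.natCard_eq_pow_finrank (K := ZMod 2) (V := C)
    rw [this, hC.hdim, Nat.card_zmod]
  have h2 : Nat.card V24 = 2 ^ 24 := by
    simp [Nat.card_eq_fintype_card]
  have h3 := Submodule.card_eq_card_quotient_mul_card C
  rw [h1, h2] at h3
  omega

/-- Two words of weight at most 4 in one coset. -/
theorem close_words {u v : V24} (huv : u - v ∈ C) (hne : u ≠ v) :
    8 ≤ hammingNorm u + hammingNorm v := by
  have h1 : u + v ≠ 0 := by
    intro h
    apply hne
    have := congrArg (· + v) h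
    simp only [zero_add, add_assoc, self_add, add_zero] at this
    exact this
  rw [sub_eq_add'] at huv
  have h2 := hC.hmin _ huv h1
  have h3 := card_supp_add u v
  rw [hammingNorm_eq] at h2
  rw [hammingNorm_eq, hammingNorm_eq]
  omega

theorem close_words_disjoint {u v : V24} (huv : u - v ∈ C) (hne : u ≠ v)
    (hu : hammingNorm u ≤ 4) (hv : hammingNorm v ≤ 4) : Disjoint (supp u) (supp v) ∧
      hammingNorm u = 4 ∧ hammingNorm v = 4 := by
  have h1 : u + v ≠ 0 := by
    intro h
    apply hne
    have := congrArg (· + v) h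
    simp only [zero_add, add_assoc, self_add, add_zero] at this
    exact this
  have h0 := close_words hC huv hne
  rw [sub_eq_add'] at huv
  have h2 := hC.hmin _ huv h1
  have h3 := card_supp_add u v
  simp only [hammingNorm_eq] at h2 hu hv h0 ⊢
  have h4 : (supp u ∩ supp v).card = 0 := by omega
  refine ⟨?_, by omega, by omega⟩
  rw [Finset.card_eq_zero] at h4
  exact Finset.disjoint_iff_inter_eq_empty.2 h4


/-- The words of weight at most four in a coset. -/
noncomputable def fib (C : Submodule (ZMod 2) V24) (w : V24) : Finset V24 :=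
  by
    classical
    exact univ.filter fun u => u - w ∈ C ∧ hammingNorm u ≤ 4

omit hC in
theorem mem_fib {w u : V24} : u ∈ fib C w ↔ u - w ∈ C ∧ hammingNorm u ≤ 4 := by
  classical
  simp [fib]

omit hC in
theorem sub_comm_mem {u v : V24} (h : u - v ∈ C) : v - u ∈ C := by
  rw [← neg_sub]; exact C.neg_mem h

omit hC in
theorem sub_trans_mem {u v w : V24} (h : u - v ∈ C) (h' : v - w ∈ C) : u - w ∈ C := by
  have := C.add_mem h h'
  simpa using this

/-- A family of pairwise disjoint 4-sets in the fibre has at most six members. -/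
theorem card_le_six (F : Finset V24) (hF : ∀ u ∈ F, hammingNorm u = 4)
    (hd : ∀ u ∈ F, ∀ v ∈ F, u ≠ v → Disjoint (supp u) (supp v)) : F.card ≤ 6 := by
  have h1 : (F.biUnion supp).card = ∑ u ∈ F, (supp u).card :=
    Finset.card_biUnion (fun u hu v hv hne => hd u hu v hv hne)
  have h2 : ∑ u ∈ F, (supp u).card = F.card * 4 := by
    rw [Finset.sum_const_nat]
    intro u hu
    exact hF u hu
  have h3 : (F.biUnion supp).card ≤ 24 := by
    calc _ ≤ (univ : Finset (Fin 24)).card := card_le_card (subset_univ _)
      _ = 24 := by simp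
  omega

/-- The main counting result: every coset either contains a word of weight at most three or
six words of weight exactly 4. -/
theorem coset_count (w : V24) :
    (∃ u, u - w ∈ C ∧ hammingNorm u ≤ 3) ∨
      (∃ F : Finset V24, F.card = 6 ∧ ∀ u ∈ F, u - w ∈ C ∧ hammingNorm u = 4) := by
  classical
  let π : V24 → V24 ⧸ C := Submodule.Quotient.mk
  have hπ : ∀ u v : V24, π u = π v ↔ u - v ∈ C := fun u v => Submodule.Quotient.eq C
  let T3 : Finset V24 := univ.filter fun u => hammingNorm u ≤ 3
  let T4 : Finset V24 := univ.filter fun u => hammingNorm u = 4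
  have hT3 : T3.card = 2325 := by
    have : T3 = (univ.filter fun v : V24 => hammingNorm v = 0) ∪
        (univ.filter fun v : V24 => hammingNorm v = 1) ∪
        (univ.filter fun v : V24 => hammingNorm v = 2) ∪
        (univ.filter fun v : V24 => hammingNorm v = 3) := by
      ext u
      simp only [T3, mem_filter, mem_univ, true_and, mem_union]
      omega
    rw [this, card_union_of_disjoint, card_union_of_disjoint, card_union_of_disjoint]
    · simp only [card_filter_norm]; decide
    all_goals
      rw [Finset.disjoint_left]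
      intro u hu hu'
      simp only [mem_filter, mem_univ, true_and, mem_union] at hu hu'
      omega
  have hT4 : T4.card = 10626 := by
    rw [card_filter_norm]; decide
  letI : Fintype (V24 ⧸ C) := Fintype.ofFinite _
  have hQ : Fintype.card (V24 ⧸ C) = 4096 := by
    rw [← Nat.card_eq_fintype_card]; exact card_quot hC
  have hinj3 : Set.InjOn π T3 := by
    intro u hu v hv huv
    by_contra hne
    have h1 := close_words hC ((hπ u v).1 huv) hne
    simp only [T3, coe_filter, mem_univ, true_and, Set.mem_ofPred_eq] at hu hv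
    omega
  have hP3 : (T3.image π).card = 2325 := by
    rw [card_image_of_injOn hinj3, hT3]
  have hdisj : Disjoint (T3.image π) (T4.image π) := by
    rw [Finset.disjoint_left]
    intro q hq hq'
    rw [mem_image] at hq hq'
    obtain ⟨u, hu, rfl⟩ := hq
    obtain ⟨v, hv, huv⟩ := hq'
    have hne : u ≠ v := by
      rintro rfl
      simp only [T3, T4, mem_filter, mem_univ, true_and] at hu hv
      omega
    have h1 := close_words hC ((hπ u v).1 huv.symm) hne
    simp only [T3, T4, mem_filter, mem_univ, true_and] at hu hv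
    omega
  have hle : (T3.image π).card + (T4.image π).card ≤ 4096 := by
    rw [← card_union_of_disjoint hdisj, ← hQ]
    exact card_le_univ _
  -- fibres
  have hfib : ∀ q ∈ T4.image π, (T4.filter fun u => π u = q).card ≤ 6 := by
    intro q _
    apply card_le_six hC
    · intro u hu
      simp only [T4, mem_filter, mem_univ, true_and] at hu
      exact hu.1
    · intro u hu v hv hne
      simp only [T4, mem_filter, mem_univ, true_and] at hu hv
      exact (close_words_disjoint hC ((hπ u v).1 (hu.2.trans hv.2.symm)) hne (by omega) (by omega)).1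
  have hsum : T4.card = ∑ q ∈ T4.image π, (T4.filter fun u => π u = q).card :=
    Finset.card_eq_sum_card_image π T4
  have hsum2 : ∑ q ∈ T4.image π, (T4.filter fun u => π u = q).card ≤ (T4.image π).card * 6 := by
    rw [← smul_eq_mul]
    exact Finset.sum_le_card_nsmul _ _ _ hfib
  have hP4 : (T4.image π).card = 1771 := by omega
  have hunion : (T3.image π) ∪ (T4.image π) = univ := by
    apply Finset.eq_univ_of_card
    rw [card_union_of_disjoint hdisj, hP3, hP4, hQ]
  have hq : π w ∈ (T3.image π) ∪ (T4.image π) := by rw [hunion]; exact mem_univ _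
  rcases mem_union.1 hq with hq | hq
  · left
    rw [mem_image] at hq
    obtain ⟨u, hu, huw⟩ := hq
    simp only [T3, mem_filter, mem_univ, true_and] at hu
    exact ⟨u, (hπ u w).1 huw, hu⟩
  · right
    refine ⟨T4.filter fun u => π u = π w, ?_, ?_⟩
    · -- all fibres have exactly six elements
      by_contra hne
      have hlt : (T4.filter fun u => π u = π w).card < 6 := lt_of_le_of_ne (hfib _ hq) hne
      have : ∑ q ∈ T4.image π, (T4.filter fun u => π u = q).card < ∑ q ∈ T4.image π, 6 :=
        Finset.sum_lt_sum (fun q hq => hfib q hq) ⟨_, hq, hlt⟩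
      rw [Finset.sum_const, smul_eq_mul, ← hsum, hP4, hT4] at this
      omega
    · intro u hu
      simp only [T4, mem_filter, mem_univ, true_and] at hu
      exact ⟨(hπ u w).1 hu.2, hu.1⟩


/-- The sextet of a word of weight four covers all coordinates. -/
theorem sextet_cover {v : V24} (hv : hammingNorm v = 4) {x : Fin 24} (hx : x ∉ supp v) :
    ∃ u, u - v ∈ C ∧ hammingNorm u = 4 ∧ x ∈ supp u := by
  classical
  rcases coset_count hC v with ⟨u, huv, hu⟩ | ⟨F, hF, hFm⟩
  · exfalso
    by_cases h : u = v
    · subst h; omega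
    · have := close_words hC huv h
      omega
  · have hd : ∀ a ∈ F, ∀ b ∈ F, a ≠ b → Disjoint (supp a) (supp b) := by
      intro a ha b hb hne
      have ha' := hFm a ha
      have hb' := hFm b hb
      exact (close_words_disjoint hC (sub_trans_mem ha'.1 (sub_comm_mem hb'.1)) hne
        (by omega) (by omega)).1
    have h1 : (F.biUnion supp).card = ∑ u ∈ F, (supp u).card :=
      Finset.card_biUnion (fun u hu v hv hne => hd u hu v hv hne)
    have h2 : ∑ u ∈ F, (supp u).card = F.card * 4 := by
      rw [Finset.sum_const_nat]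
      intro u hu
      exact (hFm u hu).2
    have h3 : F.biUnion supp = univ := by
      apply Finset.eq_univ_of_card
      rw [h1, h2, hF]; simp
    have hxm : x ∈ F.biUnion supp := by rw [h3]; exact mem_univ _
    rw [mem_biUnion] at hxm
    obtain ⟨u, hu, hxu⟩ := hxm
    exact ⟨u, (hFm u hu).1, (hFm u hu).2, hxu⟩

/-- Every 5-set lies in the support of a word of weight 8. -/
theorem exists_octad {S : Finset (Fin 24)} (hS : S.card = 5) :
    ∃ o ∈ C, hammingNorm o = 8 ∧ S ⊆ supp o := by
  classical
  obtain ⟨x, hx⟩ : S.Nonempty := by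
    rw [← Finset.card_pos]; omega
  obtain ⟨T, hT⟩ : ∃ T, T = S.erase x := ⟨_, rfl⟩
  have hTc : T.card = 4 := by
    rw [hT, card_erase_of_mem hx, hS]
  have hxT : x ∉ supp (chi T) := by
    rw [supp_chi, hT]; simp
  have hv : hammingNorm (chi T) = 4 := by
    rw [hammingNorm_eq, supp_chi, hTc]
  obtain ⟨u, huv, hu, hxu⟩ := sextet_cover hC hv hxT
  have hne : u ≠ chi T := by
    rintro rfl
    exact hxT hxu
  obtain ⟨hd, -, -⟩ := close_words_disjoint hC huv hne (by omega) (by omega)
  rw [sub_eq_add'] at huv
  refine ⟨_, huv, ?_, ?_⟩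
  · have := card_supp_add u (chi T)
    rw [Finset.disjoint_iff_inter_eq_empty.1 hd] at this
    simp only [hammingNorm_eq] at hu hv ⊢
    simp only [card_empty] at this
    omega
  · intro y hy
    by_cases hyx : y = x
    · subst hyx
      rw [mem_supp_add]
      tauto
    · have hyT : y ∈ supp (chi T) := by
        rw [supp_chi, hT]; simp [hyx, hy]
      rw [mem_supp_add]
      have : y ∉ supp u := fun h => (Finset.disjoint_left.1 hd h) hyT
      tauto

theorem octad_unique {o o' : V24} (ho : o ∈ C) (ho' : o' ∈ C) (h8 : hammingNorm o = 8)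
    (h8' : hammingNorm o' = 8) {S : Finset (Fin 24)} (hS : S.card = 5) (hSo : S ⊆ supp o)
    (hSo' : S ⊆ supp o') : o = o' := by
  classical
  by_contra hne
  have h1 : o + o' ≠ 0 := by
    intro h
    apply hne
    have := congrArg (· + o') h
    simp only [zero_add, add_assoc, self_add, add_zero] at this
    exact this
  have h2 := hC.hmin _ (C.add_mem ho ho') h1
  have h3 := card_supp_add o o'
  have h4 : S.card ≤ (supp o ∩ supp o').card := card_le_card (subset_inter hSo hSo')
  simp only [hammingNorm_eq] at h2 h8 h8'
  omega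

/-- Reduction of weight by an octad. -/
theorem exists_reduce {w : V24} (hw : w ∈ C) (hne : w ≠ 0) :
    ∃ o ∈ C, hammingNorm o = 8 ∧ hammingNorm (w + o) < hammingNorm w := by
  classical
  have h8 := hC.hmin w hw hne
  rw [hammingNorm_eq] at h8
  obtain ⟨S, hS, hSc⟩ := Finset.exists_subset_card_eq (s := supp w) (n := 5) (by omega)
  obtain ⟨o, ho, ho8, hSo⟩ := exists_octad hC hSc
  refine ⟨o, ho, ho8, ?_⟩
  have h3 := card_supp_add w o
  have h4 : S.card ≤ (supp w ∩ supp o).card := card_le_card (subset_inter hS hSo)
  simp only [hammingNorm_eq] at ho8 ⊢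
  omega

/-- The code is spanned by its octads. -/
theorem span_octads :
    Submodule.span (ZMod 2) {w : V24 | w ∈ C ∧ hammingNorm w = 8} = C := by
  apply le_antisymm
  · rw [Submodule.span_le]
    rintro w ⟨hw, -⟩
    exact hw
  · intro w hw
    induction' h : hammingNorm w using Nat.strong_induction_on with n ih generalizing w
    by_cases h0 : w = 0
    · rw [h0]; exact Submodule.zero_mem _
    · obtain ⟨o, ho, ho8, hlt⟩ := exists_reduce hC hw h0
      have h1 := ih _ (h ▸ hlt) (C.add_mem hw ho) rfl
      have h2 : o ∈ Submodule.span (ZMod 2) {w : V24 | w ∈ C ∧ hammingNorm w = 8} :=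
        Submodule.subset_span ⟨ho, ho8⟩
      have h3 : w = (w + o) + o := by
        rw [add_assoc, self_add, add_zero]
      rw [h3]
      exact Submodule.add_mem _ h1 h2

/-- The code is doubly even. -/
theorem doubly_even : ∀ w ∈ C, 4 ∣ hammingNorm w := by
  intro w hw
  induction' h : hammingNorm w using Nat.strong_induction_on with n ih generalizing w
  by_cases h0 : w = 0
  · subst h0
    have : hammingNorm (0 : V24) = 0 := hammingNorm_zero
    rw [this] at h
    omega
  · obtain ⟨o, ho, ho8, hlt⟩ := exists_reduce hC hw h0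
    have h1 := ih _ (h ▸ hlt) (w + o) (C.add_mem hw ho) rfl
    have h2 := hC.horth w hw o ho
    rw [sum_mul_eq, ZMod.natCast_eq_zero_iff] at h2
    have h3 := card_supp_add w o
    simp only [hammingNorm_eq] at h h1 ho8
    omega

/-- The Steiner system. -/
theorem steiner_words :
    (∃ w ∈ C, hammingNorm w = 8) ∧ ∀ s : Finset (Fin 24), s.card = 5 →
      ∃! w : V24, (w ∈ C ∧ hammingNorm w = 8) ∧ s ⊆ supp w := by
  constructor
  · obtain ⟨o, ho, ho8, -⟩ := exists_octad hC (S := (univ : Finset (Fin 24)).filter (fun i => i.val < 5))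
      (by decide)
    exact ⟨o, ho, ho8⟩
  · intro s hs
    obtain ⟨o, ho, ho8, hso⟩ := exists_octad hC hs
    refine ⟨o, ⟨⟨ho, ho8⟩, hso⟩, ?_⟩
    rintro o' ⟨⟨ho', ho8'⟩, hso'⟩
    exact octad_unique hC ho' ho ho8' ho8 hs hso' hso

/-- Coset dichotomy. -/
theorem coset_dichotomy (w : V24) :
    (∃ u : V24, {u : V24 | u - w ∈ C ∧ hammingNorm u ≤ 4} = {u} ∧ hammingNorm u ≤ 3) ∨
    ({u : V24 | u - w ∈ C ∧ hammingNorm u ≤ 4}.ncard = 6 ∧
      ∀ u ∈ {u : V24 | u - w ∈ C ∧ hammingNorm u ≤ 4}, hammingNorm u = 4 ∧
        ∀ u' ∈ {u : V24 | u - w ∈ C ∧ hammingNorm u ≤ 4}, u ≠ u' →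
          Disjoint (univ.filter fun i => u i ≠ 0) (univ.filter fun i => u' i ≠ 0)) := by
  classical
  rcases coset_count hC w with ⟨u, huw, hu⟩ | ⟨F, hF, hFm⟩
  · left
    refine ⟨u, ?_, hu⟩
    ext u'
    simp only [Set.mem_ofPred_eq, Set.mem_singleton_iff]
    constructor
    · rintro ⟨h1, h2⟩
      by_contra hne
      have := close_words hC (sub_trans_mem h1 (sub_comm_mem huw)) hne
      omega
    · rintro rfl
      exact ⟨huw, by omega⟩
  · right
    have hFd : ∀ a ∈ F, ∀ b ∈ F, a ≠ b → Disjoint (supp a) (supp b) := by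
      intro a ha b hb hne
      have ha' := hFm a ha
      have hb' := hFm b hb
      exact (close_words_disjoint hC (sub_trans_mem ha'.1 (sub_comm_mem hb'.1)) hne
        (by omega) (by omega)).1
    have hset : {u : V24 | u - w ∈ C ∧ hammingNorm u ≤ 4} = (F : Set V24) := by
      ext u
      simp only [Set.mem_ofPred_eq, mem_coe]
      constructor
      · rintro ⟨h1, h2⟩
        by_contra hnF
        have hu4 : ∀ b ∈ F, u ≠ b ∧ Disjoint (supp u) (supp b) ∧ hammingNorm u = 4 := by
          intro b hb
          have hub : u ≠ b := by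
            rintro rfl
            exact hnF hb
          have hb' := hFm b hb
          have := close_words_disjoint hC (sub_trans_mem h1 (sub_comm_mem hb'.1)) hub h2 (by omega)
          exact ⟨hub, this.1, this.2.1⟩
        have hFne : F.Nonempty := by
          rw [← Finset.card_pos]; omega
        obtain ⟨b₀, hb₀⟩ := hFne
        have huw4 := (hu4 b₀ hb₀).2.2
        have := card_le_six hC (insert u F) (by
          intro a ha
          rcases mem_insert.1 ha with rfl | ha
          · exact huw4
          · exact (hFm a ha).2) (by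
          intro a ha b hb hne
          rcases mem_insert.1 ha with rfl | ha'
          · rcases mem_insert.1 hb with rfl | hb'
            · exact absurd rfl hne
            · exact (hu4 b hb').2.1
          · rcases mem_insert.1 hb with rfl | hb'
            · exact ((hu4 a ha').2.1).symm
            · exact hFd a ha' b hb' hne)
        rw [card_insert_of_notMem hnF, hF] at this
        omega
      · intro hu
        have := hFm u hu
        exact ⟨this.1, by omega⟩
    rw [hset]
    refine ⟨by rw [Set.ncard_coe_finset]; exact hF, ?_⟩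
    intro u hu
    refine ⟨(hFm u hu).2, ?_⟩
    intro u' hu' hne
    exact hFd u hu u' hu' hne

end Cfsg.Agent.Lib.ThreeT.AbsGolay
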