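import Cfsg.Agent.Lib.ThreeT.Elem

set_option autoImplicit false

/-!
The central involution of a dihedral group generated by two involutions whose product has even order.
-/

namespace Cfsg.Agent.Lib.ThreeT

variable {G : Type*} [Group G]

/-- For involutions `a`, `b` with `a b` of order `2 m`, `m > 0`, the element `w = (a b) ^ m` is a non-trivial
involution commuting with `a` and `b`, and `a w` is conjugate to `a` or to `b`. -/
theorem dihedral_central {a b : G} (haa : a * a = 1) (hbb : b * b = 1) {m : ℕ}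
    (hm : orderOf (a * b) = m + m) (hmpos : 0 < m) :
    (a * b) ^ m ≠ 1 ∧ (a * b) ^ m * (a * b) ^ m = 1 ∧ a * (a * b) ^ m = (a * b) ^ m * a ∧
      b * (a * b) ^ m = (a * b) ^ m * b ∧ (IsConj a (a * (a * b) ^ m) ∨ IsConj b (a * (a * b) ^ m)) := by
  have hai : a⁻¹ = a := inv_eq_of_mul_eq_one_left haa
  have hbi : b⁻¹ = b := inv_eq_of_mul_eq_one_left hbb
  obtain ⟨r, hr⟩ : ∃ r, r = a * b := ⟨_, rfl⟩
  rw [← hr] at hm ⊢
  obtain ⟨w, hw⟩ : ∃ w, w = r ^ m := ⟨_, rfl⟩
  rw [← hw]
  have hw1 : w ≠ 1 := by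
    rw [hw]
    exact pow_ne_one_of_lt_orderOf (by omega) (by omega)
  have hww : w * w = 1 := by
    rw [hw, ← pow_add, ← hm, pow_orderOf_eq_one]
  have hwi : w⁻¹ = w := inv_eq_of_mul_eq_one_left hww
  have har : a * r * a = r⁻¹ := by
    rw [hr, mul_inv_rev, hai, hbi]
    calc a * (a * b) * a = (a * a) * b * a := by group
      _ = b * a := by rw [haa, one_mul]
  have hbr : b * r * b = r⁻¹ := by
    rw [hr, mul_inv_rev, hai, hbi]
    calc b * (a * b) * b = b * a * (b * b) := by group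
      _ = b * a := by rw [hbb, mul_one]
  have haw : a * w = w * a := by
    have h1 := inv_pow_of_inv haa har m
    rw [← hw, hwi] at h1
    calc a * w = a * w * a * a := by rw [mul_assoc (a * w), haa, mul_one]
      _ = w * a := by rw [h1]
  have hbw : b * w = w * b := by
    have h1 := inv_pow_of_inv hbb hbr m
    rw [← hw, hwi] at h1
    calc b * w = b * w * b * b := by rw [mul_assoc (b * w), hbb, mul_one]
      _ = w * b := by rw [h1]
  refine ⟨hw1, hww, haw, hbw, ?_⟩
  rcases Nat.even_or_odd' m with ⟨s, hs | hs⟩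
  · left
    have h1 := inv_pow_of_inv haa har s
    have h2 : a * r ^ s = (r ^ s)⁻¹ * a := by
      calc a * r ^ s = a * r ^ s * a * a := by rw [mul_assoc (a * r ^ s), haa, mul_one]
        _ = _ := by rw [h1]
    have : a * w = (r ^ s)⁻¹ * a * ((r ^ s)⁻¹)⁻¹ := by
      rw [hw, hs, two_mul, pow_add, ← mul_assoc, h2, inv_inv]
    rw [this]
    exact isConj_iff.2 ⟨_, rfl⟩
  · right
    have h1 := inv_pow_of_inv hbb hbr s
    have h2 : b * r ^ s = (r ^ s)⁻¹ * b := by
      calc b * r ^ s = b * r ^ s * b * b := by rw [mul_assoc (b * r ^ s), hbb, mul_one]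
        _ = _ := by rw [h1]
    have h3 : a * r = b := by rw [hr, ← mul_assoc, haa, one_mul]
    have : a * w = (r ^ s)⁻¹ * b * ((r ^ s)⁻¹)⁻¹ := by
      rw [hw, hs, pow_succ', two_mul, pow_add, ← mul_assoc, ← mul_assoc, h3, h2, inv_inv]
    rw [this]
    exact isConj_iff.2 ⟨_, rfl⟩

end Cfsg.Agent.Lib.ThreeT
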