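import Mathlib
import Cfsg.Prelude.Def_FischerSpaces

/-!
# Fischer spaces from involutory quandles with the 3-transposition property
-/

set_option autoImplicit false

namespace Cfsg.Agent.Lib.ThreeT.FischerFQ

open Cfsg Cfsg.LineSystem

/-- The general identification lemma: a subspace isomorphic to a model. -/
theorem model_iso {X P : Type*} {L : Set (Set X)} {M : Set (Set P)} (hpl : IsPartialLinear L)
    (h2pts : ∀ l ∈ L, ∃ a ∈ l, ∃ b ∈ l, a ≠ b) (r : P → X) (hr : Function.Injective r)
    (h1 : ∀ m ∈ M, r '' m ∈ L) (h2 : ∀ p q, p ≠ q → (∃ l ∈ L, r p ∈ l ∧ r q ∈ l) → ∃ m ∈ M, p ∈ m ∧ q ∈ m)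
    (A : Set X) (hA : A ⊆ Set.range r) (hgen : ∀ T, A ⊆ T → IsSubspace L T → Set.range r ⊆ T) :
    Isomorphic (restrict L (span L A)) M := by
  have hsub : IsSubspace L (Set.range r) := by
    rintro l hl _ ⟨p, rfl⟩ _ ⟨q, rfl⟩ hne hpl' hql
    have hpq : p ≠ q := fun h => hne (by rw [h])
    obtain ⟨m, hm, hpm, hqm⟩ := h2 p q hpq ⟨l, hl, hpl', hql⟩
    have := hpl _ hl _ (h1 m hm) _ _ hne hpl' hql ⟨p, hpm, rfl⟩ ⟨q, hqm, rfl⟩
    rw [this]
    exact Set.image_subset_range _ _
  have hspan : span L A = Set.range r := by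
    apply Set.Subset.antisymm
    · intro x hx
      exact hx _ ⟨hA, hsub⟩
    · intro x hx T hT
      exact hgen T hT.1 hT.2 hx
  rw [hspan]
  refine ⟨(Equiv.ofInjective r hr).symm, ?_⟩
  intro l'
  have hmemimg : ∀ (l' : Set ↥(Set.range r)) (p : P),
      p ∈ (Equiv.ofInjective r hr).symm '' l' ↔ (⟨r p, p, rfl⟩ : ↥(Set.range r)) ∈ l' := by
    intro l' p
    constructor
    · rintro ⟨a, ha, rfl⟩
      have : (⟨r ((Equiv.ofInjective r hr).symm a), _, rfl⟩ : ↥(Set.range r)) = a := by
        apply Subtype.ext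
        exact Equiv.apply_ofInjective_symm hr a
      rwa [this]
    · intro h
      refine ⟨_, h, ?_⟩
      exact Equiv.ofInjective_symm_apply hr p
  constructor
  · rintro ⟨l, hl, hlS, rfl⟩
    obtain ⟨a, ha, b, hb, hab⟩ := h2pts l hl
    obtain ⟨p, rfl⟩ := hlS ha
    obtain ⟨q, rfl⟩ := hlS hb
    have hpq : p ≠ q := fun h => hab (by rw [h])
    obtain ⟨m, hm, hpm, hqm⟩ := h2 p q hpq ⟨l, hl, ha, hb⟩
    have hlm := hpl _ hl _ (h1 m hm) _ _ hab ha hb ⟨p, hpm, rfl⟩ ⟨q, hqm, rfl⟩
    have : (Equiv.ofInjective r hr).symm '' {x : ↥(Set.range r) | (x : X) ∈ l} = m := by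
      ext t
      rw [hmemimg]
      simp only [Set.mem_ofPred_eq]
      rw [hlm]
      exact hr.mem_set_image
    rw [this]
    exact hm
  · intro hm
    refine ⟨_, h1 _ hm, Set.image_subset_range _ _, ?_⟩
    ext x
    obtain ⟨_, p, rfl⟩ := x
    simp only [Set.mem_ofPred_eq]
    rw [hr.mem_set_image, hmemimg]

/-- Involutory quandles with the 3-transposition property. -/
structure IsFQ {X : Type*} (s : X → X → X) : Prop where
  idem : ∀ x, s x x = x
  invol : ∀ x y, s x (s x y) = y
  dist : ∀ x y z, s x (s y z) = s (s x y) (s x z)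
  alt : ∀ x y, s x y = y ∨ s x y = s y x
  comm : ∀ x y, s x y = y → s y x = x

variable {X : Type*} {s : X → X → X}

/-- Lines of the quandle. -/
def fqLines (s : X → X → X) : Set (Set X) :=
  {l | ∃ x y, s y x ≠ x ∧ l = {z | z = x ∨ z = y ∨ z = s y x}}

/-- A line triple. -/
def T (s : X → X → X) (x y z : X) : Prop := s x y ≠ y ∧ s x y = z

/-- The line of a triple. -/
def tLine (x y z : X) : Set X := {w | w = x ∨ w = y ∨ w = z}

namespace IsFQ

variable (h : IsFQ s)
include h

theorem nc_symm {x y : X} (hn : s x y ≠ y) : s y x ≠ x := fun e => hn (h.comm _ _ e)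

theorem T.symm {x y z : X} (ht : T s x y z) : T s y x z := by
  obtain ⟨h1, rfl⟩ := ht
  refine ⟨nc_symm h h1, ?_⟩
  rcases h.alt x y with e | e
  · exact absurd e h1
  · exact e.symm

theorem T.swap {x y z : X} (ht : T s x y z) : T s x z y := by
  obtain ⟨h1, rfl⟩ := ht
  refine ⟨?_, h.invol x y⟩
  rw [h.invol]
  exact h1.symm

theorem T.rot {x y z : X} (ht : T s x y z) : T s z x y := T.symm h (T.swap h ht)

theorem T.conj {x y z : X} (g : X) (ht : T s x y z) : T s (s g x) (s g y) (s g z) := by
  obtain ⟨h1, rfl⟩ := ht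
  refine ⟨?_, (h.dist _ _ _).symm⟩
  rw [← h.dist]
  intro e
  apply h1
  have := congrArg (s g) e
  rwa [h.invol, h.invol] at this

theorem T.ne {x y z : X} (ht : T s x y z) : x ≠ y := by
  rintro rfl
  exact ht.1 (h.idem _)

theorem T.ne' {x y z : X} (ht : T s x y z) : y ≠ z := (T.ne h (T.swap h (T.symm h ht)))

theorem T.ne'' {x y z : X} (ht : T s x y z) : x ≠ z := (T.ne h (T.swap h ht))

theorem comm_conj {x y : X} (g : X) (hc : s x y = y) : s (s g x) (s g y) = s g y := by
  rw [← h.dist, hc]

theorem ne_conj {x y : X} (g : X) (hne : x ≠ y) : s g x ≠ s g y := by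
  intro e
  apply hne
  have := congrArg (s g) e
  rwa [h.invol, h.invol] at this

theorem tLine_mem {x y z : X} (ht : T s x y z) : tLine x y z ∈ fqLines s := by
  refine ⟨x, y, nc_symm h ht.1, ?_⟩
  have := T.symm h ht
  rw [this.2]
  rfl

theorem exists_T {l : Set X} (hl : l ∈ fqLines s) : ∃ x y z, T s x y z ∧ l = tLine x y z := by
  obtain ⟨x, y, hn, rfl⟩ := hl
  exact ⟨y, x, s y x, ⟨hn, rfl⟩, by
    ext t
    simp only [tLine, Set.mem_ofPred_eq]
    tauto⟩

/-- Two different points on a line determine it. -/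
theorem T_of_mem {x y z p q : X} (ht : T s x y z) (hp : p ∈ tLine x y z) (hq : q ∈ tLine x y z) (hpq : p ≠ q) :
    T s p q (s p q) ∧ tLine x y z = tLine p q (s p q) := by
  have hset1 : tLine x y z = tLine y x z := by
    ext t; simp only [tLine, Set.mem_ofPred_eq]; tauto
  have hset2 : tLine x y z = tLine x z y := by
    ext t; simp only [tLine, Set.mem_ofPred_eq]; tauto
  have hset3 : tLine x y z = tLine y z x := by
    ext t; simp only [tLine, Set.mem_ofPred_eq]; tauto
  have hset4 : tLine x y z = tLine z x y := by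
    ext t; simp only [tLine, Set.mem_ofPred_eq]; tauto
  have hset5 : tLine x y z = tLine z y x := by
    ext t; simp only [tLine, Set.mem_ofPred_eq]; tauto
  have t1 := T.symm h ht
  have t2 := T.swap h ht
  have t3 := T.swap h t1
  have t4 := T.symm h t2
  have t5 := T.symm h t3
  rcases hp with rfl | rfl | rfl <;> rcases hq with rfl | rfl | rfl
  · exact absurd rfl hpq
  · rw [ht.2]; exact ⟨ht, rfl⟩
  · rw [t2.2]; exact ⟨t2, hset2⟩
  · rw [t1.2]; exact ⟨t1, hset1⟩
  · exact absurd rfl hpq
  · rw [t3.2]; exact ⟨t3, hset3⟩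
  · rw [t4.2]; exact ⟨t4, hset4⟩
  · rw [t5.2]; exact ⟨t5, hset5⟩
  · exact absurd rfl hpq

theorem partialLinear : IsPartialLinear (fqLines s) := by
  intro l hl m hm p q hpq hpl hql hpm hqm
  obtain ⟨x, y, z, ht, rfl⟩ := exists_T h hl
  obtain ⟨x', y', z', ht', rfl⟩ := exists_T h hm
  rw [(T_of_mem h ht hpl hql hpq).2, (T_of_mem h ht' hpm hqm hpq).2]

theorem line_ncard {l : Set X} (hl : l ∈ fqLines s) : l.ncard = 3 := by
  obtain ⟨x, y, z, ht, rfl⟩ := exists_T h hl
  have : tLine x y z = {x, y, z} := by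
    ext t
    simp [tLine]
  rw [this]
  exact Set.ncard_eq_three.2 ⟨x, y, z, T.ne h ht, T.ne'' h ht, T.ne' h ht, rfl⟩

theorem two_pts : ∀ l ∈ fqLines s, ∃ a ∈ l, ∃ b ∈ l, a ≠ b := by
  intro l hl
  obtain ⟨x, y, z, ht, rfl⟩ := exists_T h hl
  exact ⟨x, Or.inl rfl, y, Or.inr (Or.inl rfl), T.ne h ht⟩

/-- Points of a common line do not commute. -/
theorem nc_of_mem_line {l : Set X} (hl : l ∈ fqLines s) {p q : X} (hp : p ∈ l) (hq : q ∈ l) (hpq : p ≠ q) :
    s p q ≠ q := by
  obtain ⟨x, y, z, ht, rfl⟩ := exists_T h hl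
  exact (T_of_mem h ht hp hq hpq).1.1

/-! ### The dual affine plane -/

/-- Coding of the six points of the dual affine plane. -/
def dCode (t : DualAffinePoint) : Fin 6 :=
  if (0 : Fin 4) ∈ t.val then (if (1 : Fin 4) ∈ t.val then 0 else if (2 : Fin 4) ∈ t.val then 3 else 5)
  else if (1 : Fin 4) ∈ t.val then (if (2 : Fin 4) ∈ t.val then 1 else 4)
  else 2

omit h in
theorem dCode_inj : Function.Injective dCode := by
  unfold Function.Injective
  decide +kernel

/-- The six points as a function, in the order `y x u z v w`. -/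
def dVals (y x u z v w : X) : Fin 6 → X := ![y, x, u, z, v, w]

omit h in
theorem dual_lines_data : ∀ (i : Fin 4) (t : DualAffinePoint),
    i ∉ t.val ↔ (dCode t = (![1,3,0,0] : Fin 4 → Fin 6) i ∨ dCode t = (![2,2,4,1] : Fin 4 → Fin 6) i ∨
      dCode t = (![4,5,5,3] : Fin 4 → Fin 6) i) := by
  decide +kernel

omit h in
theorem dual_surj : ∀ d : Fin 6, ∃ t : DualAffinePoint, dCode t = d := by
  decide +kernel

omit h in
theorem dual_pairs : ∀ p q : DualAffinePoint, p ≠ q → (∃ i : Fin 4, i ∉ p.val ∧ i ∉ q.val) ∨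
    (dCode p = 0 ∧ dCode q = 2) ∨ (dCode p = 2 ∧ dCode q = 0) ∨ (dCode p = 3 ∧ dCode q = 4) ∨
    (dCode p = 4 ∧ dCode q = 3) ∨ (dCode p = 1 ∧ dCode q = 5) ∨ (dCode p = 5 ∧ dCode q = 1) := by
  decide +kernel

/-- The subspace generated by two lines, one cross pair of which commutes. -/
theorem dual_case {x y z u v : X} (h1 : T s x y z) (h2 : T s x u v) (hyu : s y u = u) (hne : y ≠ u) :
    Isomorphic (restrict (fqLines s) (span (fqLines s) (tLine x y z ∪ tLine x u v))) dualAffinePlaneTwo := by
  -- the sixth point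
  set w := s y v with hw
  have hzdef : s y x = z := (T.symm h h1).2
  have hvdef : s x u = v := h2.2
  have t1 : T s y x z := T.symm h h1
  have t2 : T s u v x := T.swap h (T.symm h h2)
  -- `y` and `v` do not commute
  have hyv : s y v ≠ v := by
    intro e
    have hx : s y x = x := by
      have e2 := t2.2
      rw [← e2, h.dist, hyu, e]
    exact t1.1 hx
  have t3 : T s y v w := ⟨hyv, rfl⟩
  have hwz : s z u = w := by
    rw [hw, ← hvdef, h.dist, hzdef, hyu]
  have hzu : s z u ≠ u := by
    rw [hwz, hw]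
    intro e
    apply T.ne' h h2
    have := congrArg (s y) e
    rw [h.invol, hyu] at this
    exact this.symm
  have t4 : T s z u w := ⟨hzu, hwz⟩
  have hzy : s z y = x := by
    exact (T.swap h (T.rot h h1)).2
  have hcw : s x w = w := by
    have := comm_conj h z hyu
    rwa [hzy, hwz] at this
  have hxw : x ≠ w := by
    have := ne_conj h z hne
    rwa [hzy, hwz] at this
  have hxy : s x y = z := h1.2
  have hzv : s z v = v := by
    have := comm_conj h x hyu
    rwa [hxy, hvdef] at this
  have hzv' : z ≠ v := by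
    have := ne_conj h x hne
    rwa [hxy, hvdef] at this
  -- the map
  let r : DualAffinePoint → X := fun t => dVals y x u z v w (dCode t)
  have hr0 : ∀ t, dCode t = 0 → r t = y := fun t ht => by simp [r, ht, dVals]
  have hr1 : ∀ t, dCode t = 1 → r t = x := fun t ht => by simp [r, ht, dVals]
  have hr2 : ∀ t, dCode t = 2 → r t = u := fun t ht => by simp [r, ht, dVals]
  have hr3 : ∀ t, dCode t = 3 → r t = z := fun t ht => by simp [r, ht, dVals]
  have hr4 : ∀ t, dCode t = 4 → r t = v := fun t ht => by simp [r, ht, dVals]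
  have hr5 : ∀ t, dCode t = 5 → r t = w := fun t ht => by simp [r, ht, dVals]
  have hsurj : ∀ d : Fin 6, ∃ t : DualAffinePoint, dCode t = d := dual_surj
  have hvalsinj : Function.Injective (dVals y x u z v w) := by
    have d1 : y ≠ x := (T.ne h h1).symm
    have d2 : y ≠ z := T.ne' h h1
    have d3 : y ≠ v := T.ne h t3
    have d4 : y ≠ w := T.ne'' h t3
    have d5 : x ≠ u := T.ne h h2
    have d6 : x ≠ z := T.ne'' h h1
    have d7 : x ≠ v := T.ne'' h h2
    have d8 : u ≠ z := (T.ne h t4).symm
    have d9 : u ≠ v := T.ne' h h2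
    have d10 : u ≠ w := T.ne' h t4
    have d11 : z ≠ w := T.ne'' h t4
    have d12 : v ≠ w := T.ne' h t3
    intro a b hab
    simp only [dVals] at hab
    revert hab
    fin_cases a <;> fin_cases b <;> simp <;> first | exact d1 | exact d2 | exact d3 | exact d4 | exact d5 | exact d6 | exact d7 | exact d8 | exact d9 | exact d10 | exact d11 | exact d12 | exact hne | exact hzv' | exact hxw | exact d1.symm | exact d2.symm | exact d3.symm | exact d4.symm | exact d5.symm | exact d6.symm | exact d7.symm | exact d8.symm | exact d9.symm | exact d10.symm | exact d11.symm | exact d12.symm | exact hne.symm | exact hzv'.symm | exact hxw.symm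
  have hrinj : Function.Injective r := hvalsinj.comp dCode_inj
  have himg : ∀ i : Fin 4, ∀ m : Set DualAffinePoint, m = {t | i ∉ t.val} → r '' m ∈ fqLines s := by
    rintro i m rfl
    have hiff := dual_lines_data i
    generalize ha : (![1,3,0,0] : Fin 4 → Fin 6) i = a at hiff
    generalize hb : (![2,2,4,1] : Fin 4 → Fin 6) i = b at hiff
    generalize hc : (![4,5,5,3] : Fin 4 → Fin 6) i = c at hiff
    have hcases : (a = 0 ∧ b = 1 ∧ c = 3) ∨ (a = 1 ∧ b = 2 ∧ c = 4) ∨ (a = 0 ∧ b = 4 ∧ c = 5) ∨ (a = 3 ∧ b = 2 ∧ c = 5) := by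
      subst ha hb hc
      revert i
      decide
    have hform : r '' {t : DualAffinePoint | i ∉ t.val} = tLine (dVals y x u z v w a) (dVals y x u z v w b) (dVals y x u z v w c) := by
      ext t
      simp only [Set.mem_image, Set.mem_ofPred_eq, tLine]
      constructor
      · rintro ⟨t', ht', rfl⟩
        rcases (hiff t').1 ht' with e | e | e <;> simp only [r, e] <;> simp
      · rintro (rfl | rfl | rfl)
        · obtain ⟨t', ht'⟩ := hsurj a
          exact ⟨t', (hiff t').2 (Or.inl ht'), by simp only [r, ht']⟩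
        · obtain ⟨t', ht'⟩ := hsurj b
          exact ⟨t', (hiff t').2 (Or.inr (Or.inl ht')), by simp only [r, ht']⟩
        · obtain ⟨t', ht'⟩ := hsurj c
          exact ⟨t', (hiff t').2 (Or.inr (Or.inr ht')), by simp only [r, ht']⟩
    rw [hform]
    apply tLine_mem h
    rcases hcases with ⟨rfl, rfl, rfl⟩ | ⟨rfl, rfl, rfl⟩ | ⟨rfl, rfl, rfl⟩ | ⟨rfl, rfl, rfl⟩
    · exact T.symm h h1
    · exact h2
    · exact t3
    · exact t4
  refine model_iso (partialLinear h) (two_pts h) r hrinj ?_ ?_ _ ?_ ?_
  · rintro m ⟨i, rfl⟩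
    exact himg i _ rfl
  · intro p q hpq hl
    have hrpq : r p ≠ r q := hrinj.ne hpq
    obtain ⟨l, hl, hpl, hql⟩ := hl
    have hnc := nc_of_mem_line h hl hpl hql hrpq
    rcases dual_pairs p q hpq with ⟨i, h1', h2'⟩ | ⟨e1, e2⟩ | ⟨e1, e2⟩ | ⟨e1, e2⟩ | ⟨e1, e2⟩ | ⟨e1, e2⟩ | ⟨e1, e2⟩
    · exact ⟨_, ⟨i, rfl⟩, h1', h2'⟩
    · rw [hr0 p e1, hr2 q e2] at hnc
      exact absurd hyu hnc
    · rw [hr2 p e1, hr0 q e2] at hnc
      exact absurd (h.comm _ _ hyu) hnc
    · rw [hr3 p e1, hr4 q e2] at hnc
      exact absurd hzv hnc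
    · rw [hr4 p e1, hr3 q e2] at hnc
      exact absurd (h.comm _ _ hzv) hnc
    · rw [hr1 p e1, hr5 q e2] at hnc
      exact absurd hcw hnc
    · rw [hr5 p e1, hr1 q e2] at hnc
      exact absurd (h.comm _ _ hcw) hnc
  · have hrng : ∀ d : Fin 6, dVals y x u z v w d ∈ Set.range r := by
      intro d
      obtain ⟨t, ht⟩ := hsurj d
      exact ⟨t, by simp only [r, ht]⟩
    rintro t (ht | ht)
    · rcases ht with rfl | rfl | rfl
      · exact hrng 1
      · exact hrng 0
      · exact hrng 3
    · rcases ht with rfl | rfl | rfl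
      · exact hrng 1
      · exact hrng 2
      · exact hrng 4
  · rintro A hA hsub _ ⟨t, rfl⟩
    have hy : y ∈ A := hA (Or.inl (Or.inr (Or.inl rfl)))
    have hv : v ∈ A := hA (Or.inr (Or.inr (Or.inr rfl)))
    have hw' : w ∈ A := hsub _ (tLine_mem h t3) y hy v hv (T.ne h t3) (Or.inl rfl) (Or.inr (Or.inl rfl)) (Or.inr (Or.inr rfl))
    have : dVals y x u z v w (dCode t) ∈ A := by
      generalize dCode t = d
      fin_cases d
      · exact hy
      · exact hA (Or.inl (Or.inl rfl))
      · exact hA (Or.inr (Or.inr (Or.inl rfl)))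
      · exact hA (Or.inl (Or.inr (Or.inr rfl)))
      · exact hv
      · exact hw'
    exact this

/-! ### The affine plane -/

/-- One of the lines of the affine plane. -/
theorem frame_d2 {x y z u v : X} (h1 : T s x y z) (h2 : T s x u v) (hyu : s y u ≠ u) (hyv : s y v ≠ v)
    (hzv : s z v ≠ v) : T s u (s z v) (s y v) := by
  have hxz : s x y = z := h1.2
  have hxv : s x u = v := h2.2
  have e1 : s z v = s x (s y u) := by
    rw [h.dist, hxz, hxv]
  have e2 : s y u = s u y := by
    rcases h.alt y u with e | e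
    · exact absurd e hyu
    · exact e
  have e3 : s u x = v := (T.symm h h2).2
  have e4 : s v y = s y v := by
    rcases h.alt y v with e | e
    · exact absurd e hyv
    · exact e.symm
  have key : s u (s z v) = s y v := by
    rw [e1, e2, h.dist, h.invol, e3, e4]
  refine ⟨?_, key⟩
  intro e
  rw [key] at e
  -- `s y v = s z v` forces `y = z`
  apply T.ne' h h1
  have e5 : s z v = s v z := by
    rcases h.alt z v with e' | e'
    · exact absurd e' hzv
    · exact e'
  have := congrArg (s v) e
  rw [e5, h.invol, ← e4, h.invol] at this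
  exact this

theorem affine_case {x y z u v : X} (h1 : T s x y z) (h2 : T s x u v) (hyu : s y u ≠ u) (hyv : s y v ≠ v)
    (hzu : s z u ≠ u) (hzv : s z v ≠ v) :
    Isomorphic (restrict (fqLines s) (span (fqLines s) (tLine x y z ∪ tLine x u v))) affinePlaneThree := by
  have hxy : s x y = z := h1.2
  have hxu : s x u = v := h2.2
  have hxv : s x v = u := (T.swap h h2).2
  have hyx : s y x = z := (T.symm h h1).2
  have hyz : s y z = x := (T.swap h (T.symm h h1)).2
  have hzy : s z y = x := (T.swap h (T.rot h h1)).2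
  have hxz : s x z = y := (T.swap h h1).2
  set p22 := s y u with hp22
  set p11 := s z v with hp11
  set p21 := s y v with hp21
  set p12 := s z u with hp12
  have d1 : T s x y z := h1
  have e1 : T s x u v := h2
  have g2 : T s y u p22 := ⟨hyu, rfl⟩
  have f2 : T s y v p21 := ⟨hyv, rfl⟩
  have f3 : T s z u p12 := ⟨hzu, rfl⟩
  have g3 : T s z v p11 := ⟨hzv, rfl⟩
  have ex1 : s x p22 = p11 := by rw [hp22, h.dist, hxy, hxu]
  have ex2 : s x p21 = p12 := by rw [hp21, h.dist, hxy, hxv]
  have hv_nc : s x v ≠ v := (T.swap h h2).1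
  have f1 : T s x p22 p11 := by
    refine ⟨?_, ex1⟩
    intro e
    have := comm_conj h y e
    rw [hyx, hp22, h.invol] at this
    exact hzu this
  have g1 : T s x p21 p12 := by
    refine ⟨?_, ex2⟩
    intro e
    have := comm_conj h y e
    rw [hyx, hp21, h.invol] at this
    exact hzv this
  have e2 : T s y p11 p12 := by
    have key : s y p11 = p12 := by
      rw [hp11, h.dist, hyz, ← hp21, ex2]
    refine ⟨?_, key⟩
    intro e
    have := comm_conj h z e
    rw [hzy, hp11, h.invol] at this
    exact hv_nc this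
  have e3 : T s z p21 p22 := by
    have key : s z p21 = p22 := by
      rw [hp21, h.dist, hzy, ← hp11, ← ex1, h.invol]
    refine ⟨?_, key⟩
    intro e
    have := comm_conj h y e
    rw [hyz, hp21, h.invol] at this
    exact hv_nc this
  have d2 : T s u p11 p21 := frame_d2 h h1 h2 hyu hyv hzv
  have d3 : T s v p12 p22 := frame_d2 h h1 (T.swap h h2) hyv hyu hzu
  let tbl : ZMod 3 → ZMod 3 → X := fun a b =>
    (![![x, u, v], ![y, p11, p12], ![z, p21, p22]] : Fin 3 → Fin 3 → X) a b
  have cases3 : ∀ c : ZMod 3, c = 0 ∨ c = 1 ∨ c = 2 := by decide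
  have hT : ∀ a b c d : ZMod 3, (a ≠ c ∨ b ≠ d) → T s (tbl a b) (tbl c d) (tbl (-(a + c)) (-(b + d))) := by
    intro a b c d hne
    rcases cases3 a with rfl | rfl | rfl <;> rcases cases3 b with rfl | rfl | rfl <;>
      rcases cases3 c with rfl | rfl | rfl <;> rcases cases3 d with rfl | rfl | rfl
    · exact absurd hne (by decide)
    · exact e1
    · exact T.swap h e1
    · exact d1
    · exact T.swap h f1
    · exact T.swap h g1
    · exact T.swap h d1
    · exact g1
    · exact f1
    · exact T.symm h e1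
    · exact absurd hne (by decide)
    · exact T.swap h (T.symm h e1)
    · exact T.symm h g2
    · exact d2
    · exact T.swap h (T.symm h f3)
    · exact T.symm h f3
    · exact T.swap h d2
    · exact T.swap h (T.symm h g2)
    · exact T.rot h e1
    · exact T.swap h (T.rot h e1)
    · exact absurd hne (by decide)
    · exact T.symm h f2
    · exact T.swap h (T.symm h g3)
    · exact d3
    · exact T.symm h g3
    · exact T.swap h (T.symm h f2)
    · exact T.swap h d3
    · exact T.symm h d1
    · exact g2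
    · exact f2
    · exact absurd hne (by decide)
    · exact e2
    · exact T.swap h e2
    · exact T.swap h (T.symm h d1)
    · exact T.swap h f2
    · exact T.swap h g2
    · exact T.rot h f1
    · exact T.symm h d2
    · exact T.swap h (T.rot h g3)
    · exact T.symm h e2
    · exact absurd hne (by decide)
    · exact T.swap h (T.symm h e2)
    · exact T.rot h g3
    · exact T.swap h (T.symm h d2)
    · exact T.swap h (T.rot h f1)
    · exact T.rot h g1
    · exact T.swap h (T.rot h f3)
    · exact T.symm h d3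
    · exact T.rot h e2
    · exact T.swap h (T.rot h e2)
    · exact absurd hne (by decide)
    · exact T.rot h f3
    · exact T.swap h (T.rot h g1)
    · exact T.swap h (T.symm h d3)
    · exact T.rot h d1
    · exact f3
    · exact g3
    · exact T.swap h (T.rot h d1)
    · exact T.swap h g3
    · exact T.swap h f3
    · exact absurd hne (by decide)
    · exact e3
    · exact T.swap h e3
    · exact T.symm h g1
    · exact T.rot h d2
    · exact T.swap h (T.rot h f2)
    · exact T.rot h f2
    · exact T.swap h (T.rot h d2)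
    · exact T.swap h (T.symm h g1)
    · exact T.symm h e3
    · exact absurd hne (by decide)
    · exact T.swap h (T.symm h e3)
    · exact T.symm h f1
    · exact T.swap h (T.rot h g2)
    · exact T.rot h d3
    · exact T.rot h g2
    · exact T.swap h (T.symm h f1)
    · exact T.swap h (T.rot h d3)
    · exact T.rot h e3
    · exact T.swap h (T.rot h e3)
    · exact absurd hne (by decide)
  let r : (Fin 2 → ZMod 3) → X := fun P => tbl (P 0) (P 1)
  have k3 : ∀ t : ZMod 3, t + t + t = 0 := by decide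
  have hT' : ∀ P Q : Fin 2 → ZMod 3, P ≠ Q → T s (r P) (r Q) (r (-P - Q)) := by
    intro P Q hPQ
    have hne : P 0 ≠ Q 0 ∨ P 1 ≠ Q 1 := by
      by_contra hcon
      push Not at hcon
      apply hPQ
      funext i
      fin_cases i
      · exact hcon.1
      · exact hcon.2
    have := hT _ _ _ _ hne
    have e1 : -(P 0 + Q 0) = (-P - Q) 0 := by
      simp only [Pi.sub_apply, Pi.neg_apply]
      ring
    have e2 : -(P 1 + Q 1) = (-P - Q) 1 := by
      simp only [Pi.sub_apply, Pi.neg_apply]
      ring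
    rw [e1, e2] at this
    exact this
  have hrinj : Function.Injective r := by
    intro P Q hPQ
    by_contra hne
    exact T.ne h (hT' P Q hne) hPQ
  have himg : ∀ (v w : Fin 2 → ZMod 3), w ≠ 0 → r '' {t | ∃ c : ZMod 3, t = v + c • w} ∈ fqLines s := by
    intro v w hw
    have hvw : v ≠ v + w := by
      intro e
      apply hw
      funext i
      have := congrFun e i
      simp only [Pi.add_apply, Pi.zero_apply] at this ⊢
      linear_combination -this
    have hform : r '' {t | ∃ c : ZMod 3, t = v + c • w} = tLine (r v) (r (v + w)) (r (-v - (v + w))) := by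
      have e3 : -v - (v + w) = v + (2 : ZMod 3) • w := by
        funext i
        simp only [Pi.sub_apply, Pi.neg_apply, Pi.add_apply, Pi.smul_apply, smul_eq_mul]
        linear_combination -(k3 (v i)) - (k3 (w i))
      rw [e3]
      ext t
      simp only [Set.mem_image, Set.mem_ofPred_eq, tLine]
      constructor
      · rintro ⟨_, ⟨c, rfl⟩, rfl⟩
        rcases cases3 c with rfl | rfl | rfl
        · left; simp
        · right; left; simp
        · right; right; rfl
      · rintro (rfl | rfl | rfl)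
        · exact ⟨v, ⟨0, by simp⟩, rfl⟩
        · exact ⟨v + w, ⟨1, by simp⟩, rfl⟩
        · exact ⟨_, ⟨2, rfl⟩, rfl⟩
    rw [hform]
    exact tLine_mem h (hT' _ _ hvw)
  refine model_iso (partialLinear h) (two_pts h) r hrinj ?_ ?_ _ ?_ ?_
  · rintro m ⟨v, w, hw, rfl⟩
    exact himg v w hw
  · intro p q hpq _
    refine ⟨_, ⟨p, q - p, sub_ne_zero.2 hpq.symm, rfl⟩, ⟨0, by simp⟩, ⟨1, by simp⟩⟩
  · have hval : ∀ a b : ZMod 3, tbl a b ∈ Set.range r := by
      intro a b
      exact ⟨![a, b], rfl⟩
    rintro t (ht | ht)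
    · rcases ht with rfl | rfl | rfl
      · exact hval 0 0
      · exact hval 1 0
      · exact hval 2 0
    · rcases ht with rfl | rfl | rfl
      · exact hval 0 0
      · exact hval 0 1
      · exact hval 0 2
  · rintro A hA hsub _ ⟨P, rfl⟩
    have hx : x ∈ A := hA (Or.inl (Or.inl rfl))
    have hy : y ∈ A := hA (Or.inl (Or.inr (Or.inl rfl)))
    have hz : z ∈ A := hA (Or.inl (Or.inr (Or.inr rfl)))
    have hu : u ∈ A := hA (Or.inr (Or.inr (Or.inl rfl)))
    have hv : v ∈ A := hA (Or.inr (Or.inr (Or.inr rfl)))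
    have third : ∀ {a b c : X}, T s a b c → a ∈ A → b ∈ A → c ∈ A := by
      intro a b c ht ha hb
      exact hsub _ (tLine_mem h ht) a ha b hb (T.ne h ht) (Or.inl rfl) (Or.inr (Or.inl rfl)) (Or.inr (Or.inr rfl))
    have h22 : p22 ∈ A := third g2 hy hu
    have h11 : p11 ∈ A := third g3 hz hv
    have h21 : p21 ∈ A := third f2 hy hv
    have h12 : p12 ∈ A := third f3 hz hu
    show tbl (P 0) (P 1) ∈ A
    rcases cases3 (P 0) with e | e | e <;> rcases cases3 (P 1) with e' | e' | e' <;> rw [e, e'] <;>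
      first
      | exact hx
      | exact hy
      | exact hz
      | exact hu
      | exact hv
      | exact h11
      | exact h12
      | exact h21
      | exact h22

/-- The main theorem on quandles. -/
theorem isFischerSpace : IsFischerSpace (fqLines s) := by
  refine ⟨partialLinear h, fun l hl => line_ncard h hl, ?_⟩
  intro l hl m hm hne hmeet
  obtain ⟨w, hwl, hwm⟩ := hmeet
  obtain ⟨a, b, c, ht, rfl⟩ := exists_T h hl
  obtain ⟨a', b', c', ht', rfl⟩ := exists_T h hm
  -- another point on each line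
  have hother : ∀ {a b c w : X}, T s a b c → w ∈ tLine a b c → ∃ p ∈ tLine a b c, p ≠ w := by
    intro a b c w ht hw
    by_cases e : a = w
    · exact ⟨b, Or.inr (Or.inl rfl), fun e' => T.ne h ht (e.trans e'.symm)⟩
    · exact ⟨a, Or.inl rfl, e⟩
  obtain ⟨p, hp, hpw⟩ := hother ht hwl
  obtain ⟨q, hq, hqw⟩ := hother ht' hwm
  obtain ⟨t1, e1⟩ := T_of_mem h ht hwl hp hpw.symm
  obtain ⟨t2, e2⟩ := T_of_mem h ht' hwm hq hqw.symm
  rw [e1, e2] at hne ⊢
  set y := p
  set z := s w p with hz
  set u := q
  set v := s w q with hv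
  have hset : tLine w u v = tLine w v u := by
    ext t
    simp only [tLine, Set.mem_ofPred_eq]
    tauto
  have hset' : tLine w y z = tLine w z y := by
    ext t
    simp only [tLine, Set.mem_ofPred_eq]
    tauto
  have hdist : ∀ {y' z' u' v' : X}, T s w y' z' → T s w u' v' → tLine w y' z' ≠ tLine w u' v' → y' ≠ u' := by
    rintro y' z' u' v' a1 a2 hn rfl
    apply hn
    have : z' = v' := a1.2.symm.trans a2.2
    rw [this]
  have t1' := T.swap h t1
  have t2' := T.swap h t2
  by_cases c1 : s y u = u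
  · left
    exact dual_case h t1 t2 c1 (hdist t1 t2 hne)
  by_cases c2 : s y v = v
  · left
    rw [hset]
    exact dual_case h t1 t2' c2 (hdist t1 t2' (by rw [← hset]; exact hne))
  by_cases c3 : s z u = u
  · left
    rw [hset']
    exact dual_case h t1' t2 c3 (hdist t1' t2 (by rw [← hset']; exact hne))
  by_cases c4 : s z v = v
  · left
    rw [hset, hset']
    exact dual_case h t1' t2' c4 (hdist t1' t2' (by rw [← hset, ← hset']; exact hne))
  right
  exact affine_case h t1 t2 c1 c2 c3 c4

end IsFQ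

end Cfsg.Agent.Lib.ThreeT.FischerFQ
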