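import Mathlib
import Cfsg.Prelude.Def_FischerSpaces

/-!
# Fischer spaces: the maps `t(x)`
-/

set_option autoImplicit false

namespace Cfsg.Agent.Lib.ThreeT.FischerSpace

open Cfsg Cfsg.LineSystem

variable {X : Type*} {L : Set (Set X)}

/-- `z` is the third point on a line through `x`, `y`. -/
def Third (L : Set (Set X)) (x y z : X) : Prop :=
  x ≠ y ∧ z ≠ x ∧ z ≠ y ∧ ({x, y, z} : Set X) ∈ L

theorem Third.symm {x y z : X} (h : Third L x y z) : Third L y x z := by
  refine ⟨h.1.symm, h.2.2.1, h.2.1, ?_⟩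
  have : ({y, x, z} : Set X) = {x, y, z} := Set.insert_comm _ _ _
  rw [this]
  exact h.2.2.2

theorem Third.swap {x y z : X} (h : Third L x y z) : Third L x z y := by
  refine ⟨h.2.1.symm, h.1.symm, h.2.2.1.symm, ?_⟩
  have : ({x, z, y} : Set X) = {x, y, z} := by
    ext t
    simp only [Set.mem_insert_iff, Set.mem_singleton_iff]
    tauto
  rw [this]
  exact h.2.2.2

theorem third_unique (hp : IsPartialLinear L) {x y z z' : X} (h : Third L x y z) (h' : Third L x y z') :
    z = z' := by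
  have e := hp _ h.2.2.2 _ h'.2.2.2 x y h.1 (by simp) (by simp) (by simp) (by simp)
  have hz : z ∈ ({x, y, z'} : Set X) := by
    rw [← e]
    simp
  simp only [Set.mem_insert_iff, Set.mem_singleton_iff] at hz
  rcases hz with rfl | rfl | rfl
  · exact absurd rfl h.2.1
  · exact absurd rfl h.2.2.1
  · rfl

theorem lineMap_of_third (hp : IsPartialLinear L) {x y z : X} (h : Third L x y z) : lineMap L x y = z := by
  have hex : ∃ z : X, z ≠ x ∧ z ≠ y ∧ x ≠ y ∧ ({x, y, z} : Set X) ∈ L :=
    ⟨z, h.2.1, h.2.2.1, h.1, h.2.2.2⟩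
  unfold lineMap
  simp only [dif_pos hex]
  obtain ⟨h1, h2, h3, h4⟩ := hex.choose_spec
  exact third_unique hp ⟨h3, h1, h2, h4⟩ h

theorem lineMap_of_not {x y : X} (h : ¬ ∃ z, Third L x y z) : lineMap L x y = y := by
  have hex : ¬ ∃ z : X, z ≠ x ∧ z ≠ y ∧ x ≠ y ∧ ({x, y, z} : Set X) ∈ L := by
    rintro ⟨z, h1, h2, h3, h4⟩
    exact h ⟨z, h3, h1, h2, h4⟩
  unfold lineMap
  simp only [dif_neg hex]

theorem lineMap_invol (hp : IsPartialLinear L) (x : X) : Function.Involutive (lineMap L x) := by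
  intro y
  by_cases h : ∃ z, Third L x y z
  · obtain ⟨z, hz⟩ := h
    rw [lineMap_of_third hp hz, lineMap_of_third hp hz.swap]
  · rw [lineMap_of_not h, lineMap_of_not h]

/-- Every line containing `x` is `{x, y, z}`. -/
theorem line_through {l : Set X} (h3 : l.ncard = 3) {x : X} (hx : x ∈ l) :
    ∃ y z, x ≠ y ∧ x ≠ z ∧ y ≠ z ∧ l = {x, y, z} := by
  obtain ⟨a, b, c, hab, hac, hbc, rfl⟩ := Set.ncard_eq_three.1 h3
  simp only [Set.mem_insert_iff, Set.mem_singleton_iff] at hx
  rcases hx with rfl | rfl | rfl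
  · exact ⟨b, c, hab, hac, hbc, rfl⟩
  · refine ⟨a, c, hab.symm, hbc, hac, ?_⟩
    exact Set.insert_comm _ _ _
  · refine ⟨a, b, hac.symm, hbc.symm, hab, ?_⟩
    ext t
    simp only [Set.mem_insert_iff, Set.mem_singleton_iff]
    tauto

/-! ### The local situation -/

theorem isSubspace_span (S : Set X) : IsSubspace L (span L S) := by
  intro l hl x hx y hy hxy hxl hyl t ht T hT
  exact hT.2 l hl x (hx T hT) y (hy T hT) hxy hxl hyl ht

theorem subset_span (S : Set X) : S ⊆ span L S := fun _ hx _ hT => hT.1 hx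

/-- A map on a line system `N` behaves like the line map at `ξ`. -/
def IsT {Q : Type*} (N : Set (Set Q)) (ξ : Q) (Φ : Q → Q) : Prop :=
  ∀ π, (∀ ζ, Third N ξ π ζ → Φ π = ζ) ∧ ((¬ ∃ ζ, Third N ξ π ζ) → Φ π = π)

/-- The model property. -/
def ModelProp {Q : Type*} (N : Set (Set Q)) : Prop :=
  ∀ (ξ : Q) (Φ : Q → Q), IsT N ξ Φ → ∀ n ∈ N, Φ '' n ∈ N

theorem Third.mem_subspace {S : Set X} (hS : IsSubspace L S) {x y z : X} (h : Third L x y z)
    (hx : x ∈ S) (hy : y ∈ S) : z ∈ S :=
  hS _ h.2.2.2 x hx y hy h.1 (by simp) (by simp) (by simp)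

/-- Transfer of `Third` through an isomorphism. -/
theorem third_iso_mp {Q : Type*} {N : Set (Set Q)} {S : Set X} {e : ↥S ≃ Q}
    (he : IsIso (restrict L S) N e) {x y z : ↥S} (h : Third L (x : X) (y : X) (z : X)) : Third N (e x) (e y) (e z) := by
  refine ⟨e.injective.ne fun h' => h.1 (by rw [h']),
    e.injective.ne fun h' => h.2.1 (by rw [h']), e.injective.ne fun h' => h.2.2.1 (by rw [h']), ?_⟩
  have : ({e x, e y, e z} : Set Q) = e '' {t : ↥S | (t : X) ∈ ({(x : X), (y : X), (z : X)} : Set X)} := by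
    ext t
    simp only [Set.mem_insert_iff, Set.mem_singleton_iff, Set.mem_image, Set.mem_ofPred_eq]
    constructor
    · rintro (rfl | rfl | rfl)
      · exact ⟨x, by simp, rfl⟩
      · exact ⟨y, by simp, rfl⟩
      · exact ⟨z, by simp, rfl⟩
    · rintro ⟨a, ha, rfl⟩
      rcases ha with ha | ha | ha
      · left; rw [Subtype.ext ha]
      · right; left; rw [Subtype.ext ha]
      · right; right; rw [Subtype.ext ha]
  rw [this, ← he]
  refine ⟨_, h.2.2.2, ?_, rfl⟩
  intro t ht
  simp only [Set.mem_insert_iff, Set.mem_singleton_iff] at ht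
  rcases ht with rfl | rfl | rfl
  · exact x.2
  · exact y.2
  · exact z.2

theorem third_iso_mpr {Q : Type*} {N : Set (Set Q)} {S : Set X} {e : ↥S ≃ Q}
    (he : IsIso (restrict L S) N e) {x y z : ↥S} (h : Third N (e x) (e y) (e z)) : Third L (x : X) (y : X) (z : X) := by
  refine ⟨fun h' => h.1 (by rw [Subtype.ext h']), fun h' => h.2.1 (by rw [Subtype.ext h']),
    fun h' => h.2.2.1 (by rw [Subtype.ext h']), ?_⟩
  have : ({e x, e y, e z} : Set Q) = e '' {t : ↥S | t = x ∨ t = y ∨ t = z} := by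
    ext t
    simp only [Set.mem_insert_iff, Set.mem_singleton_iff, Set.mem_image, Set.mem_ofPred_eq]
    constructor
    · rintro (rfl | rfl | rfl)
      · exact ⟨x, by simp, rfl⟩
      · exact ⟨y, by simp, rfl⟩
      · exact ⟨z, by simp, rfl⟩
    · rintro ⟨a, ha, rfl⟩
      rcases ha with rfl | rfl | rfl
      · simp
      · simp
      · simp
  have h1 := h.2.2.2
  rw [this, ← he] at h1
  obtain ⟨l, hl, hlS, hm⟩ := h1
  have hset : ({(x : X), (y : X), (z : X)} : Set X) = l := by
    ext t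
    simp only [Set.mem_insert_iff, Set.mem_singleton_iff]
    have hm' : ∀ a : ↥S, (a = x ∨ a = y ∨ a = z) ↔ (a : X) ∈ l := by
      intro a
      have := Set.ext_iff.1 hm a
      simpa using this
    constructor
    · rintro (rfl | rfl | rfl)
      · exact (hm' x).1 (by simp)
      · exact (hm' y).1 (by simp)
      · exact (hm' z).1 (by simp)
    · intro ht
      have := (hm' ⟨t, hlS ht⟩).2 ht
      rcases this with h | h | h
      · left; exact congrArg Subtype.val h
      · right; left; exact congrArg Subtype.val h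
      · right; right; exact congrArg Subtype.val h
  rw [hset]
  exact hl

/-- The local lemma: the image of a line inside a plane under a line map. -/
theorem image_line_of_model {Q : Type*} {N : Set (Set Q)} (hN : ModelProp N) (hp : IsPartialLinear L)
    {S : Set X} (hS : IsSubspace L S) {e : ↥S ≃ Q} (he : IsIso (restrict L S) N e) {x : X} (hx : x ∈ S)
    {l : Set X} (hl : l ∈ L) (hlS : l ⊆ S) : lineMap L x '' l ∈ L := by
  have hmaps : ∀ y : ↥S, lineMap L x y ∈ S := by
    intro y
    by_cases h : ∃ z, Third L x y z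
    · obtain ⟨z, hz⟩ := h
      rw [lineMap_of_third hp hz]
      exact hz.mem_subspace hS hx y.2
    · rw [lineMap_of_not h]
      exact y.2
  let tS : ↥S → ↥S := fun y => ⟨lineMap L x y, hmaps y⟩
  let Φ : Q → Q := fun π => e (tS (e.symm π))
  have hΦ : IsT N (e ⟨x, hx⟩) Φ := by
    intro π
    constructor
    · intro ζ hζ
      have h1 : Third N (e ⟨x, hx⟩) (e (e.symm π)) (e (e.symm ζ)) := by
        simpa using hζ
      have h2 := third_iso_mpr he h1
      have h3 : tS (e.symm π) = e.symm ζ := Subtype.ext (lineMap_of_third hp h2)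
      show e (tS (e.symm π)) = ζ
      rw [h3]
      simp
    · intro hno
      have h3 : tS (e.symm π) = e.symm π := by
        apply Subtype.ext
        show lineMap L x (e.symm π) = e.symm π
        apply lineMap_of_not
        rintro ⟨z, hz⟩
        have hzS : z ∈ S := hz.mem_subspace hS hx (e.symm π).2
        have h4 := third_iso_mp he (x := ⟨x, hx⟩) (y := e.symm π) (z := ⟨z, hzS⟩) hz
        rw [Equiv.apply_symm_apply] at h4
        exact hno ⟨_, h4⟩
      show e (tS (e.symm π)) = π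
      rw [h3]
      simp
  -- the line in the model
  have hl' : (e '' {t : ↥S | (t : X) ∈ l}) ∈ N := by
    rw [← he]
    exact ⟨l, hl, hlS, rfl⟩
  have himg := hN _ Φ hΦ _ hl'
  have hset : Φ '' (e '' {t : ↥S | (t : X) ∈ l}) = e '' (tS '' {t : ↥S | (t : X) ∈ l}) := by
    ext t
    simp only [Set.mem_image, Set.mem_ofPred_eq]
    constructor
    · rintro ⟨_, ⟨a, ha, rfl⟩, rfl⟩
      refine ⟨tS a, ⟨a, ha, rfl⟩, ?_⟩
      simp [Φ]
    · rintro ⟨_, ⟨a, ha, rfl⟩, rfl⟩
      refine ⟨e a, ⟨a, ha, rfl⟩, ?_⟩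
      simp [Φ]
  rw [hset, ← he] at himg
  obtain ⟨l'', hl'', hlS'', hm⟩ := himg
  have hfinal : lineMap L x '' l = l'' := by
    have hm' : ∀ a : ↥S, (a ∈ tS '' {t : ↥S | (t : X) ∈ l}) ↔ (a : X) ∈ l'' := by
      intro a
      have := Set.ext_iff.1 hm a
      simpa using this
    ext t
    constructor
    · rintro ⟨a, ha, rfl⟩
      exact (hm' (tS ⟨a, hlS ha⟩)).1 ⟨_, ha, rfl⟩
    · intro ht
      obtain ⟨a, ha, h⟩ := (hm' ⟨t, hlS'' ht⟩).2 ht
      exact ⟨a, ha, congrArg Subtype.val h⟩
  rw [hfinal]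
  exact hl''

/-! ### The two models -/

theorem affine_third {ξ π ζ : Fin 2 → ZMod 3} (h : Third affinePlaneThree ξ π ζ) : ζ = -ξ - π := by
  obtain ⟨h1, h2, h3, v, w, hw, hl⟩ := h
  have memξ : ξ ∈ {x : Fin 2 → ZMod 3 | ∃ c : ZMod 3, x = v + c • w} := by
    rw [← hl]
    simp
  have memπ : π ∈ {x : Fin 2 → ZMod 3 | ∃ c : ZMod 3, x = v + c • w} := by
    rw [← hl]
    simp
  have memζ : ζ ∈ {x : Fin 2 → ZMod 3 | ∃ c : ZMod 3, x = v + c • w} := by
    rw [← hl]
    simp
  obtain ⟨a, rfl⟩ := memξ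
  obtain ⟨b, rfl⟩ := memπ
  obtain ⟨c, rfl⟩ := memζ
  have hab : a ≠ b := fun h => h1 (by rw [h])
  have hca : c ≠ a := fun h => h2 (by rw [h])
  have hcb : c ≠ b := fun h => h3 (by rw [h])
  have key : ∀ a b c : ZMod 3, a ≠ b → c ≠ a → c ≠ b → a + b + c = 0 := by decide
  have k3 : ∀ t : ZMod 3, t + t + t = 0 := by decide
  have hk := key a b c hab hca hcb
  have hc : c = -a - b := by
    linear_combination hk
  subst hc
  funext i
  simp only [Pi.add_apply, Pi.smul_apply, smul_eq_mul, Pi.sub_apply, Pi.neg_apply]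
  linear_combination k3 (v i)

theorem affine_third_of_ne {ξ π : Fin 2 → ZMod 3} (h : ξ ≠ π) : Third affinePlaneThree ξ π (-ξ - π) := by
  have k3 : ∀ t : ZMod 3, t + t + t = 0 := by decide
  have hwne : π - ξ ≠ 0 := sub_ne_zero.2 h.symm
  have h1 : -ξ - π ≠ ξ := by
    intro h'
    apply hwne
    funext i
    have := congrFun h' i
    simp only [Pi.sub_apply, Pi.neg_apply, Pi.zero_apply] at this ⊢
    linear_combination (-this) - (k3 (ξ i))
  have h2 : -ξ - π ≠ π := by
    intro h'
    apply hwne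
    funext i
    have := congrFun h' i
    simp only [Pi.sub_apply, Pi.neg_apply, Pi.zero_apply] at this ⊢
    linear_combination this + k3 (π i)
  refine ⟨h, h1, h2, ξ, π - ξ, hwne, ?_⟩
  ext x
  simp only [Set.mem_insert_iff, Set.mem_singleton_iff, Set.mem_ofPred_eq]
  have cases3 : ∀ c : ZMod 3, c = 0 ∨ c = 1 ∨ c = 2 := by decide
  constructor
  · rintro (rfl | rfl | rfl)
    · exact ⟨0, by simp⟩
    · exact ⟨1, by simp⟩
    · refine ⟨2, ?_⟩
      funext i
      simp only [Pi.sub_apply, Pi.neg_apply, Pi.add_apply, Pi.smul_apply, smul_eq_mul]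
      linear_combination (-(k3 (π i)))
  · rintro ⟨c, rfl⟩
    rcases cases3 c with rfl | rfl | rfl
    · left; simp
    · right; left; simp
    · right; right
      funext i
      simp only [Pi.sub_apply, Pi.neg_apply, Pi.add_apply, Pi.smul_apply, smul_eq_mul]
      linear_combination (k3 (π i))

theorem modelProp_affine : ModelProp affinePlaneThree := by
  intro ξ Φ hΦ n hn
  have k3 : ∀ t : ZMod 3, t + t + t = 0 := by decide
  have hΦ' : ∀ π, Φ π = -ξ - π := by
    intro π
    by_cases h : ξ = π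
    · subst h
      have : ¬ ∃ ζ, Third affinePlaneThree ξ ξ ζ := by
        rintro ⟨ζ, hζ⟩
        exact hζ.1 rfl
      rw [(hΦ ξ).2 this]
      funext i
      simp only [Pi.sub_apply, Pi.neg_apply]
      linear_combination (k3 (ξ i))
    · exact (hΦ π).1 _ (affine_third_of_ne h)
  obtain ⟨v, w, hw, rfl⟩ := hn
  refine ⟨-ξ - v, -w, neg_ne_zero.2 hw, ?_⟩
  ext x
  simp only [Set.mem_image, Set.mem_ofPred_eq]
  constructor
  · rintro ⟨_, ⟨c, rfl⟩, rfl⟩
    refine ⟨c, ?_⟩
    rw [hΦ']
    funext i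
    simp only [Pi.sub_apply, Pi.neg_apply, Pi.add_apply, Pi.smul_apply, smul_eq_mul]
    ring
  · rintro ⟨c, rfl⟩
    refine ⟨v + c • w, ⟨c, rfl⟩, ?_⟩
    rw [hΦ']
    funext i
    simp only [Pi.sub_apply, Pi.neg_apply, Pi.add_apply, Pi.smul_apply, smul_eq_mul]
    ring

/-- The line map of the dual affine plane. -/
def dualT (ξ π : DualAffinePoint) : DualAffinePoint :=
  if h : (ξ.val ∩ π.val).card = 1 then ⟨symmDiff ξ.val π.val, by
    revert ξ π
    decide +kernel⟩ else π

theorem dual_third_of : ∀ ξ π : DualAffinePoint, (ξ.val ∩ π.val).card = 1 →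
    ξ ≠ π ∧ dualT ξ π ≠ ξ ∧ dualT ξ π ≠ π ∧ ∃ i : Fin 4, ∀ s : DualAffinePoint,
      (s = ξ ∨ s = π ∨ s = dualT ξ π) ↔ i ∉ s.val := by
  decide +kernel

theorem dual_third_not : ∀ (ξ π ζ : DualAffinePoint) (i : Fin 4), (ξ.val ∩ π.val).card ≠ 1 → ξ ≠ π → ζ ≠ ξ → ζ ≠ π →
    ¬ ∀ s : DualAffinePoint, (s = ξ ∨ s = π ∨ s = ζ) ↔ i ∉ s.val := by
  decide +kernel

theorem dual_image : ∀ (ξ : DualAffinePoint) (i : Fin 4), ∃ i' : Fin 4, ∀ s : DualAffinePoint,
    (∃ s' : DualAffinePoint, i ∉ s'.val ∧ dualT ξ s' = s) ↔ i' ∉ s.val := by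
  decide +kernel

theorem modelProp_dual : ModelProp dualAffinePlaneTwo := by
  intro ξ Φ hΦ n hn
  have hΦ' : ∀ π, Φ π = dualT ξ π := by
    intro π
    by_cases h : (ξ.val ∩ π.val).card = 1
    · obtain ⟨h1, h2, h3, i, hi⟩ := dual_third_of ξ π h
      refine (hΦ π).1 _ ⟨h1, h2, h3, i, ?_⟩
      ext s
      simpa using hi s
    · have hdT : dualT ξ π = π := by
        unfold dualT
        rw [dif_neg h]
      rw [hdT]
      apply (hΦ π).2
      rintro ⟨ζ, h1, h2, h3, i, hi⟩
      apply dual_third_not ξ π ζ i h h1 h2 h3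
      intro s
      have := Set.ext_iff.1 hi s
      simpa using this
  obtain ⟨i, rfl⟩ := hn
  obtain ⟨i', hi'⟩ := dual_image ξ i
  refine ⟨i', ?_⟩
  ext s
  simp only [Set.mem_image, Set.mem_ofPred_eq]
  rw [← hi' s]
  constructor
  · rintro ⟨s', h1, rfl⟩
    exact ⟨s', h1, (hΦ' s').symm⟩
  · rintro ⟨s', h1, rfl⟩
    exact ⟨s', h1, hΦ' s'⟩

/-! ### Main theorem -/

/-- The image of a line under a line map is a line. -/
theorem image_line (hL : IsFischerSpace L) (x : X) {l : Set X} (hl : l ∈ L) : lineMap L x '' l ∈ L := by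
  obtain ⟨hp, h3, hF⟩ := hL
  by_cases hxl : x ∈ l
  · obtain ⟨y, z, hxy, hxz, hyz, rfl⟩ := line_through (h3 l hl) hxl
    have hT : Third L x y z := ⟨hxy, hxz.symm, hyz.symm, hl⟩
    have : lineMap L x '' {x, y, z} = {x, y, z} := by
      have hxx : lineMap L x x = x := by
        apply lineMap_of_not
        rintro ⟨ζ, hζ⟩
        exact hζ.1 rfl
      simp only [Set.image_insert_eq, Set.image_singleton, hxx, lineMap_of_third hp hT,
        lineMap_of_third hp hT.swap]
      ext t
      simp only [Set.mem_insert_iff, Set.mem_singleton_iff]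
      tauto
    rw [this]
    exact hl
  by_cases hcol : ∃ p ∈ l, ∃ q, Third L x p q
  · obtain ⟨p, hpl, q, hq⟩ := hcol
    have hne : l ≠ {x, p, q} := by
      rintro rfl
      exact hxl (by simp)
    have hmeet : (l ∩ {x, p, q}).Nonempty := ⟨p, hpl, by simp⟩
    have hsp : IsSubspace L (span L (l ∪ {x, p, q})) := isSubspace_span _
    have hxS : x ∈ span L (l ∪ {x, p, q}) := subset_span _ (Or.inr (by simp))
    have hlS : l ⊆ span L (l ∪ {x, p, q}) := fun t ht => subset_span _ (Or.inl ht)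
    rcases hF l hl _ hq.2.2.2 hne hmeet with ⟨e, he⟩ | ⟨e, he⟩
    · exact image_line_of_model modelProp_dual hp hsp he hxS hl hlS
    · exact image_line_of_model modelProp_affine hp hsp he hxS hl hlS
  · push Not at hcol
    have : lineMap L x '' l = l := by
      ext t
      constructor
      · rintro ⟨a, ha, rfl⟩
        rw [lineMap_of_not (by
          rintro ⟨z, hz⟩
          exact hcol a ha z hz)]
        exact ha
      · intro ht
        refine ⟨t, ht, ?_⟩
        exact lineMap_of_not (by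
          rintro ⟨z, hz⟩
          exact hcol t ht z hz)
    rw [this]
    exact hl

/-- The permutation `t(x)`. -/
noncomputable def tPerm (hp : IsPartialLinear L) (x : X) : Equiv.Perm X :=
  (lineMap_invol hp x).toPerm

theorem tPerm_apply (hp : IsPartialLinear L) (x y : X) : tPerm hp x y = lineMap L x y := rfl

theorem isIso_tPerm (hL : IsFischerSpace L) (x : X) : IsIso L L (tPerm hL.1 x) := by
  intro l
  constructor
  · intro hl
    exact image_line hL x hl
  · intro hl
    have := image_line hL x hl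
    have e : (lineMap L x '' (tPerm hL.1 x '' l)) = l := by
      ext t
      constructor
      · rintro ⟨_, ⟨a, ha, rfl⟩, rfl⟩
        rw [tPerm_apply, lineMap_invol hL.1 x a]
        exact ha
      · intro ht
        exact ⟨tPerm hL.1 x t, ⟨t, ht, rfl⟩, lineMap_invol hL.1 x t⟩
    rwa [e] at this

theorem third_image (hL : IsFischerSpace L) (x : X) {a b c : X} (h : Third L a b c) :
    Third L (lineMap L x a) (lineMap L x b) (lineMap L x c) := by
  have hinj := (lineMap_invol hL.1 x).injective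
  refine ⟨hinj.ne h.1, hinj.ne h.2.1, hinj.ne h.2.2.1, ?_⟩
  have := image_line hL x h.2.2.2
  simpa [Set.image_insert_eq] using this

/-- Conjugation formula. -/
theorem lineMap_conj (hL : IsFischerSpace L) (x y a : X) :
    lineMap L x (lineMap L y (lineMap L x a)) = lineMap L (lineMap L x y) a := by
  have hp := hL.1
  have hinv := lineMap_invol hp x
  by_cases h : ∃ z, Third L y (lineMap L x a) z
  · obtain ⟨z, hz⟩ := h
    rw [lineMap_of_third hp hz]
    have := third_image hL x hz
    rw [hinv a] at this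
    rw [lineMap_of_third hp this]
  · rw [lineMap_of_not h, hinv a]
    symm
    apply lineMap_of_not
    rintro ⟨z, hz⟩
    apply h
    have := third_image hL x hz
    rw [hinv y] at this
    exact ⟨_, this⟩

theorem tPerm_mul_three (hL : IsFischerSpace L) (x y : X) :
    (tPerm hL.1 x * tPerm hL.1 y) ^ 2 = 1 ∨ (tPerm hL.1 x * tPerm hL.1 y) ^ 3 = 1 := by
  have hp := hL.1
  set s := tPerm hp x with hs
  set t := tPerm hp y with ht
  have hss : s * s = 1 := by
    ext a
    simp [hs, tPerm_apply, lineMap_invol hp x a]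
  have htt : t * t = 1 := by
    ext a
    simp [ht, tPerm_apply, lineMap_invol hp y a]
  have hconj1 : ∀ a, s (t (s a)) = lineMap L (lineMap L x y) a := fun a => lineMap_conj hL x y a
  have hconj2 : ∀ a, t (s (t a)) = lineMap L (lineMap L y x) a := fun a => lineMap_conj hL y x a
  by_cases h : ∃ z, Third L x y z
  · obtain ⟨z, hz⟩ := h
    right
    have e1 : s * t * s = t * s * t := by
      ext a
      have h1 := hconj1 a
      have h2 := hconj2 a
      rw [lineMap_of_third hp hz] at h1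
      rw [lineMap_of_third hp hz.symm] at h2
      simp only [Equiv.Perm.coe_mul, Function.comp_apply]
      rw [h1, h2]
    calc (s * t) ^ 3 = (s * t * s) * (t * (s * t)) := by
          simp only [pow_succ, pow_zero, one_mul, mul_assoc]
      _ = (t * s * t) * (t * (s * t)) := by rw [e1]
      _ = t * s * (t * t) * (s * t) := by simp only [mul_assoc]
      _ = t * (s * s) * t := by rw [htt]; simp only [mul_one, mul_assoc]
      _ = 1 := by rw [hss, mul_one, htt]
  · left
    have hy : lineMap L x y = y := lineMap_of_not h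
    have e1 : s * t * s = t := by
      ext a
      have h1 := hconj1 a
      rw [hy] at h1
      exact h1
    calc (s * t) ^ 2 = (s * t * s) * t := by
          simp only [pow_succ, pow_zero, one_mul, mul_assoc]
      _ = t * t := by rw [e1]
      _ = 1 := htt

theorem tPerm_ne_one (hL : IsFischerSpace L) (hnd : IsNondegenerate L) (x : X) : tPerm hL.1 x ≠ 1 := by
  obtain ⟨l, hl, hx⟩ := hnd x
  obtain ⟨y, z, hxy, hxz, hyz, rfl⟩ := line_through (hL.2.1 l hl) hx
  have hT : Third L x y z := ⟨hxy, hxz.symm, hyz.symm, hl⟩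
  intro h
  have := congrArg (fun σ : Equiv.Perm X => σ y) h
  simp only [Equiv.Perm.coe_one, id_eq, tPerm_apply, lineMap_of_third hL.1 hT] at this
  exact hyz this.symm

theorem orderOf_tPerm (hL : IsFischerSpace L) (hnd : IsNondegenerate L) (x : X) : orderOf (tPerm hL.1 x) = 2 := by
  apply orderOf_eq_prime
  · ext a
    simp [pow_two, tPerm_apply, lineMap_invol hL.1 x a]
  · exact tPerm_ne_one hL hnd x

theorem main (hL : IsFischerSpace L) (hnd : IsNondegenerate L) :
    (∀ x : X, ∃ σ : Equiv.Perm X, ⇑σ = lineMap L x ∧ orderOf σ = 2 ∧ IsIso L L σ) ∧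
      IsThreeTranspositionSet {σ : Equiv.Perm X | ∃ x : X, ⇑σ = lineMap L x} := by
  refine ⟨fun x => ⟨tPerm hL.1 x, rfl, orderOf_tPerm hL hnd x, isIso_tPerm hL x⟩, ?_, ?_⟩
  · rintro σ ⟨x, hx⟩
    have : σ = tPerm hL.1 x := Equiv.ext fun a => congrFun hx a
    rw [this]
    exact orderOf_tPerm hL hnd x
  · rintro σ ⟨x, hx⟩ τ ⟨y, hy⟩
    have e1 : σ = tPerm hL.1 x := Equiv.ext fun a => congrFun hx a
    have e2 : τ = tPerm hL.1 y := Equiv.ext fun a => congrFun hy a
    rw [e1, e2]
    exact tPerm_mul_three hL x y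

end Cfsg.Agent.Lib.ThreeT.FischerSpace
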