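import Cfsg.Agent.Lib.ThreeT.H1Omega

/-!
# A certificate for the vanishing of crossed homomorphisms

Vectors are coded by natural numbers and transvections act by bit operations; chains of elements
with `τ² + τ + 1 = 0` joining all the nonsingular vectors are checked by the kernel.
-/

set_option autoImplicit false
set_option linter.unusedSectionVars false

open scoped Matrix commutatorElement
open Matrix

namespace Cfsg.Agent.Lib.ThreeT.H1

open Cfsg.Agent.Lib.Classical Cfsg.Agent.Lib.Classical.Witt Cfsg.Agent.Lib.Classical.Abs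
open Cfsg.Agent.Lib.Classical.Orth Cfsg.Agent.Lib.ThreeT.OrthTv Cfsg.Agent.Lib.Compute

variable {ι : Type} [Fintype ι] [DecidableEq ι]

local notation "Vv" => (ι → ZMod 2)

/-- The vector with a given code. -/
def dec (ix : ι → ℕ) (m : ℕ) : ι → ZMod 2 := fun i => if m.testBit (ix i) = true then 1 else 0

omit [Fintype ι] [DecidableEq ι] in
theorem dec_xor (ix : ι → ℕ) (a b : ℕ) : dec ix (Nat.xor a b) = dec ix a + dec ix b := by
  funext i
  have h : (Nat.xor a b).testBit (ix i) = (a ^^^ b).testBit (ix i) := rfl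
  simp only [dec, Pi.add_apply, h, Nat.testBit_xor]
  cases a.testBit (ix i) <;> cases b.testBit (ix i) <;> decide

omit [Fintype ι] [DecidableEq ι] in
theorem dec_zero (ix : ι → ℕ) : dec ix 0 = 0 := by
  funext i
  simp [dec]

/-- The coding of vectors. -/
structure Coding (Q : QuadraticForm (ZMod 2) (ι → ZMod 2)) (ix : ι → ℕ) (d qm : ℕ) : Prop where
  hq : ∀ m, m < 2 ^ d → Q (dec ix m) = if tb qm m = true then 1 else 0
  hsurj : ∀ v : ι → ZMod 2, ∃ m, m < 2 ^ d ∧ dec ix m = v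

/-- The polar form on codes. -/
def Bn (qm u x : ℕ) : Bool := xor (tb qm (Nat.xor u x)) (xor (tb qm u) (tb qm x))

/-- The transvection on codes. -/
def tN (qm u x : ℕ) : ℕ := bcond (Bn qm u x) (Nat.xor x u) x

theorem xor_lt {d a b : ℕ} (ha : a < 2 ^ d) (hb : b < 2 ^ d) : Nat.xor a b < 2 ^ d :=
  Nat.xor_lt_two_pow ha hb

theorem tN_lt {d qm u x : ℕ} (hu : u < 2 ^ d) (hx : x < 2 ^ d) : tN qm u x < 2 ^ d := by
  unfold tN
  cases Bn qm u x
  · exact hx
  · exact xor_lt hx hu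

section

variable {Q : QuadraticForm (ZMod 2) (ι → ZMod 2)} {ix : ι → ℕ} {d qm : ℕ}

theorem polar_dec (C : Coding Q ix d qm) {u x : ℕ} (hu : u < 2 ^ d) (hx : x < 2 ^ d) :
    QuadraticMap.polar (⇑Q) (dec ix u) (dec ix x) = if Bn qm u x = true then 1 else 0 := by
  rw [QuadraticMap.polar, ← dec_xor, C.hq _ (xor_lt hu hx), C.hq _ hu, C.hq _ hx]
  unfold Bn
  cases tb qm (Nat.xor u x) <;> cases tb qm u <;> cases tb qm x <;> decide

theorem t_dec (C : Coding Q ix d qm) {u x : ℕ} (hu : u < 2 ^ d) (hx : x < 2 ^ d) (hnu : Q (dec ix u) ≠ 0) :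
    mat Q (t Q (dec ix u) hnu) *ᵥ dec ix x = dec ix (tN qm u x) := by
  rw [t_apply, polar_dec C hu hx]
  unfold tN
  cases Bn qm u x
  · simp
  · simp only [if_true, bcond_true, one_smul]
    exact (dec_xor ix x u).symm

/-- The transvection, as a total function. -/
noncomputable def TT (Q : QuadraticForm (ZMod 2) (ι → ZMod 2)) (v : ι → ZMod 2) : Cfsg.isometryGroup (ZMod 2) (⇑Q) :=
  if hv : Q v ≠ 0 then t Q v hv else 1

theorem TT_eq {v : ι → ZMod 2} (hv : Q v ≠ 0) : TT Q v = t Q v hv := dif_pos hv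

/-- The product of the rotations in a list of pairs. -/
noncomputable def tauP (Q : QuadraticForm (ZMod 2) (ι → ZMod 2)) (ix : ι → ℕ) (p : List (ℕ × ℕ)) :
    Cfsg.isometryGroup (ZMod 2) (⇑Q) :=
  (p.map fun ab => TT Q (dec ix ab.1) * TT Q (dec ix ab.2)).prod

/-- The same on codes. -/
def wP (qm : ℕ) (p : List (ℕ × ℕ)) (x : ℕ) : ℕ :=
  List.rec x (fun ab _ ih => tN qm ab.1 (tN qm ab.2 ih)) p

@[simp] theorem wP_nil (x : ℕ) : wP qm [] x = x := rfl
@[simp] theorem wP_cons (ab : ℕ × ℕ) (p : List (ℕ × ℕ)) (x : ℕ) :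
    wP qm (ab :: p) x = tN qm ab.1 (tN qm ab.2 (wP qm p x)) := rfl

/-- Validity of pairs. -/
def validP (d qm : ℕ) (p : List (ℕ × ℕ)) : Bool :=
  p.all fun ab => Nat.blt ab.1 (2 ^ d) && Nat.blt ab.2 (2 ^ d) && tb qm ab.1 && tb qm ab.2

theorem validP_spec {p : List (ℕ × ℕ)} (h : validP d qm p = true) {ab : ℕ × ℕ} (hab : ab ∈ p) :
    ab.1 < 2 ^ d ∧ ab.2 < 2 ^ d ∧ tb qm ab.1 = true ∧ tb qm ab.2 = true := by
  have h1 := List.all_eq_true.1 h ab hab
  simp only [Bool.and_eq_true] at h1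
  obtain ⟨⟨⟨h2, h3⟩, h4⟩, h5⟩ := h1
  refine ⟨?_, ?_, h4, h5⟩
  · simpa using h2
  · simpa using h3

theorem ns_of_tb (C : Coding Q ix d qm) {m : ℕ} (hm : m < 2 ^ d) (h : tb qm m = true) : Q (dec ix m) ≠ 0 := by
  rw [C.hq m hm, h]
  simp

theorem tb_of_ns (C : Coding Q ix d qm) {m : ℕ} (hm : m < 2 ^ d) (h : Q (dec ix m) ≠ 0) : tb qm m = true := by
  rw [C.hq m hm] at h
  by_contra h2
  simp [h2] at h

theorem wP_lt {p : List (ℕ × ℕ)} (h : validP d qm p = true) {x : ℕ} (hx : x < 2 ^ d) : wP qm p x < 2 ^ d := by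
  induction p with
  | nil => exact hx
  | cons ab p ih =>
    have h1 := validP_spec h (List.mem_cons_self)
    have h2 : validP d qm p = true := List.all_eq_true.2 fun c hc =>
      List.all_eq_true.1 h c (List.mem_cons_of_mem _ hc)
    exact tN_lt h1.1 (tN_lt h1.2.1 (ih h2))

theorem tauP_apply (C : Coding Q ix d qm) {p : List (ℕ × ℕ)} (h : validP d qm p = true) {x : ℕ} (hx : x < 2 ^ d) :
    mat Q (tauP Q ix p) *ᵥ dec ix x = dec ix (wP qm p x) := by
  induction p with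
  | nil =>
    show (1 : Matrix ι ι (ZMod 2)) *ᵥ dec ix x = _
    rw [Matrix.one_mulVec]
    rfl
  | cons ab p ih =>
    have h1 := validP_spec h (List.mem_cons_self)
    have h2 : validP d qm p = true := List.all_eq_true.2 fun c hc =>
      List.all_eq_true.1 h c (List.mem_cons_of_mem _ hc)
    have e : tauP Q ix (ab :: p) = TT Q (dec ix ab.1) * TT Q (dec ix ab.2) * tauP Q ix p := by
      simp [tauP]
    rw [e, mat_mul, mat_mul, ← Matrix.mulVec_mulVec, ← Matrix.mulVec_mulVec, ih h2,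
      TT_eq (ns_of_tb C h1.1 h1.2.2.1), TT_eq (ns_of_tb C h1.2.1 h1.2.2.2), t_dec C h1.2.1 (wP_lt h2 hx),
      t_dec C h1.1 (tN_lt h1.2.1 (wP_lt h2 hx))]
    rfl

theorem tauP_mem {L : Subgroup (Cfsg.isometryGroup (ZMod 2) (⇑Q))} {p : List (ℕ × ℕ)}
    (h : ∀ ab ∈ p, EE L (dec ix ab.1) (dec ix ab.2)) : tauP Q ix p ∈ L := by
  apply Subgroup.list_prod_mem
  intro x hx
  obtain ⟨ab, hab, rfl⟩ := List.mem_map.1 hx
  obtain ⟨h1, h2, h3⟩ := h ab hab
  rw [TT_eq h1, TT_eq h2]
  exact h3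

/-- The check of `τ² + τ + 1 = 0`. -/
noncomputable def Jcheck (d qm : ℕ) (p : List (ℕ × ℕ)) : Bool :=
  allBelow (fun x => Nat.beq (Nat.xor (Nat.xor (wP qm p (wP qm p x)) (wP qm p x)) x) 0) (2 ^ d)

theorem isJ_tauP (C : Coding Q ix d qm) {p : List (ℕ × ℕ)} (h : validP d qm p = true) (hJ : Jcheck d qm p = true) :
    IsJ (tauP Q ix p) := by
  intro v
  obtain ⟨m, hm, rfl⟩ := C.hsurj v
  have h1 := (allBelow_iff _ _).1 hJ m hm
  have h2 := Nat.eq_of_beq_eq_true h1
  rw [tauP_apply C h hm, tauP_apply C h (wP_lt h hm), ← dec_xor, ← dec_xor, h2, dec_zero]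

/-- Connectivity along an element. -/
def Conn (Q : QuadraticForm (ZMod 2) (ι → ZMod 2)) (ix : ι → ℕ) (d qm : ℕ)
    (L : Subgroup (Cfsg.isometryGroup (ZMod 2) (⇑Q))) (p : List (ℕ × ℕ)) : Prop :=
  ∀ m, m < 2 ^ d → tb qm m = true → EE L (dec ix m) (dec ix (wP qm p m))

/-- Forcing the evaluation of a number. -/
def frc (x : ℕ) (k : ℕ → ℕ) : ℕ := Nat.rec (k 0) (fun n _ => k (Nat.succ n)) x

theorem frc_eq (x : ℕ) (k : ℕ → ℕ) : frc x k = k x := by
  cases x <;> rfl

/-- The end of a path. -/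
def evalP (qm : ℕ) (kn : List (List (ℕ × ℕ))) (path : List ℕ) (x : ℕ) : ℕ :=
  List.rec (motive := fun _ => ℕ → ℕ) (fun y => y)
    (fun j _ ih y => ih (frc y (wP qm (kn.getD j [])))) path x

@[simp] theorem evalP_nil (kn : List (List (ℕ × ℕ))) (x : ℕ) : evalP qm kn [] x = x := rfl
theorem evalP_cons (kn : List (List (ℕ × ℕ))) (j : ℕ) (path : List ℕ) (x : ℕ) :
    evalP qm kn (j :: path) x = evalP qm kn path (wP qm (kn.getD j []) x) := by
  show evalP qm kn path (frc x _) = _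
  rw [frc_eq]

theorem validP_nil : validP d qm [] = true := rfl

theorem Conn_nil (L : Subgroup (Cfsg.isometryGroup (ZMod 2) (⇑Q))) (C : Coding Q ix d qm) : Conn Q ix d qm L [] := by
  intro m hm h
  exact EE.refl (ns_of_tb C hm h)

/-- Following a path. -/
theorem EE_path (C : Coding Q ix d qm) {L : Subgroup (Cfsg.isometryGroup (ZMod 2) (⇑Q))}
    {kn : List (List (ℕ × ℕ))} (hkn : ∀ p ∈ kn, validP d qm p = true ∧ Conn Q ix d qm L p)
    (path : List ℕ) {x : ℕ} (hx : x < 2 ^ d) (hq : tb qm x = true) :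
    evalP qm kn path x < 2 ^ d ∧ EE L (dec ix x) (dec ix (evalP qm kn path x)) := by
  have hgd : ∀ j, validP d qm (kn.getD j []) = true ∧ Conn Q ix d qm L (kn.getD j []) := by
    intro j
    by_cases hj : j < kn.length
    · rw [List.getD_eq_getElem _ _ hj]
      exact hkn _ (List.getElem_mem hj)
    · rw [List.getD_eq_default _ _ (by omega)]
      exact ⟨validP_nil, Conn_nil L C⟩
  induction path generalizing x with
  | nil => exact ⟨hx, EE.refl (ns_of_tb C hx hq)⟩
  | cons j path ih =>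
    rw [evalP_cons]
    have h1 := (hgd j).2 x hx hq
    have hy := wP_lt (hgd j).1 hx
    obtain ⟨_, h3, _⟩ := h1
    have hqy := tb_of_ns C hy h3
    obtain ⟨h4, h5⟩ := ih hy hqy
    exact ⟨h4, EE.trans ((hgd j).2 x hx hq) h5⟩

/-- Check of the pairs of an element. -/
def checkPairs (qm : ℕ) (kn : List (List (ℕ × ℕ))) : List (ℕ × ℕ) → List (List ℕ) → Bool
  | [], [] => true
  | ab :: p, pa :: ps => Nat.beq (evalP qm kn pa ab.1) ab.2 && checkPairs qm kn p ps
  | _, _ => false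

theorem checkPairs_spec {kn : List (List (ℕ × ℕ))} {p : List (ℕ × ℕ)} {ps : List (List ℕ)}
    (h : checkPairs qm kn p ps = true) : ∀ ab ∈ p, ∃ pa, evalP qm kn pa ab.1 = ab.2 := by
  induction p generalizing ps with
  | nil => simp
  | cons ab p ih =>
    cases ps with
    | nil => simp [checkPairs] at h
    | cons pa ps =>
      simp only [checkPairs, Bool.and_eq_true] at h
      intro c hc
      rcases List.mem_cons.1 hc with rfl | hc
      · exact ⟨pa, Nat.eq_of_beq_eq_true h.1⟩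
      · exact ih h.2 c hc

/-- Check of a chain. -/
noncomputable def chainOK (d qm : ℕ) : List (List (ℕ × ℕ)) → List (List (ℕ × ℕ) × List (List ℕ)) → Bool
  | _, [] => true
  | kn, s :: r => validP d qm s.1 && Jcheck d qm s.1 && checkPairs qm kn s.1 s.2 && chainOK d qm (kn ++ [s.1]) r

/-- The check of connectivity. -/
noncomputable def finalOK (d qm : ℕ) (kn : List (List (ℕ × ℕ))) (x0 : ℕ) (tab : List (List ℕ)) : Bool :=
  allBelow (fun m => !tb qm m || Nat.beq (evalP qm kn (tab.getD m []) x0) m) (2 ^ d)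

/-- The whole check. -/
noncomputable def fullOK (d qm : ℕ) (p0 : List (ℕ × ℕ)) (rest : List (List (ℕ × ℕ) × List (List ℕ))) (x0 : ℕ)
    (tab : List (List ℕ)) : Bool :=
  validP d qm p0 && Jcheck d qm p0 && chainOK d qm [p0] rest && Nat.blt x0 (2 ^ d) && tb qm x0 &&
    finalOK d qm (p0 :: rest.map Prod.fst) x0 tab

variable {f : ↥(Cfsg.Omega (ZMod 2) (⇑Q)) → ι → ZMod 2}

/-- The chain gives connectivity. -/
theorem chain_conn (C : Coding Q ix d qm) (hnd : (QuadraticMap.polarBilin Q).Nondegenerate) (hf : IsCrossed Q f)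
    (rest : List (List (ℕ × ℕ) × List (List ℕ))) {kn : List (List (ℕ × ℕ))}
    (hkn : ∀ p ∈ kn, validP d qm p = true ∧ Conn Q ix d qm (Lf hf) p)
    (hc : chainOK d qm kn rest = true) :
    ∀ p ∈ kn ++ rest.map Prod.fst, validP d qm p = true ∧ Conn Q ix d qm (Lf hf) p := by
  induction rest generalizing kn with
  | nil => simpa using hkn
  | cons s r ih =>
    simp only [chainOK, Bool.and_eq_true] at hc
    obtain ⟨⟨⟨h1, h2⟩, h3⟩, h4⟩ := hc
    have hs : Conn Q ix d qm (Lf hf) s.1 := by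
      have hmem : tauP Q ix s.1 ∈ Lf hf := by
        apply tauP_mem
        intro ab hab
        obtain ⟨pa, hpa⟩ := checkPairs_spec h3 ab hab
        have hv := validP_spec h1 hab
        have := (EE_path C hkn pa hv.1 hv.2.2.1).2
        rwa [hpa] at this
      intro m hm hqm
      have := EE_of_J hnd hf hmem (isJ_tauP C h1 h2) (ns_of_tb C hm hqm)
      rwa [tauP_apply C h1 hm] at this
    have := ih (kn := kn ++ [s.1]) (by
      intro p hp
      rcases List.mem_append.1 hp with hp | hp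
      · exact hkn p hp
      · have : p = s.1 := by simpa using hp
        rw [this]
        exact ⟨h1, hs⟩) h4
    intro p hp
    apply this
    simpa using hp

/-- The main theorem of the certificate. -/
theorem vanish_of_cert (C : Coding Q ix d qm) (hnd : (QuadraticMap.polarBilin Q).Nondegenerate) (hRf : Rf Q = ⊤)
    {p0 : List (ℕ × ℕ)} {rest : List (List (ℕ × ℕ) × List (List ℕ))} {x0 : ℕ} {tab : List (List ℕ)}
    (hc : fullOK d qm p0 rest x0 tab = true) (hf : IsCrossed Q f) :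
    ∃ v, ∀ g : ↥(Cfsg.Omega (ZMod 2) (⇑Q)), f g = mat Q g.1 *ᵥ v - v := by
  simp only [fullOK, Bool.and_eq_true] at hc
  obtain ⟨⟨⟨⟨⟨h1, h2⟩, h3⟩, h4⟩, h5⟩, h6⟩ := hc
  have hx0 : x0 < 2 ^ d := by simpa using h4
  have hJ := isJ_tauP C (Q := Q) h1 h2
  have hΩ : tauP Q ix p0 ∈ Cfsg.Omega (ZMod 2) (⇑Q) := by
    apply tauP_mem
    intro ab hab
    have hv := validP_spec h1 hab
    have h7 := ns_of_tb C hv.1 hv.2.2.1
    have h8 := ns_of_tb C hv.2.1 hv.2.2.2
    exact ⟨h7, h8, tt_mem hnd h7 h8⟩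
  refine principal_of ⟨tauP Q ix p0, hΩ⟩ hJ.fpf ?_ hf
  intro f' hf' hτ g
  have hmem : tauP Q ix p0 ∈ Lf hf' := (mem_Lf hf').2 ⟨hΩ, hτ⟩
  have hs : Conn Q ix d qm (Lf hf') p0 := by
    intro m hm hqm
    have := EE_of_J hnd hf' hmem hJ (ns_of_tb C hm hqm)
    rwa [tauP_apply C h1 hm] at this
  have hall := chain_conn C hnd hf' rest (kn := [p0]) (by
    intro p hp
    have : p = p0 := by simpa using hp
    rw [this]
    exact ⟨h1, hs⟩) h3
  have hbase : ∀ a, Q a ≠ 0 → EE (Lf hf') (dec ix x0) a := by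
    intro a ha
    obtain ⟨m, hm, rfl⟩ := C.hsurj a
    have h7 := tb_of_ns C hm ha
    have h8 := (allBelow_iff _ _).1 h6 m hm
    simp only [h7, Bool.not_true, Bool.false_or] at h8
    have h9 := EE_path C (kn := p0 :: rest.map Prod.fst) (by simpa using hall) (tab.getD m []) hx0 h5
    rw [Nat.eq_of_beq_eq_true h8] at h9
    exact h9.2
  exact vanish_of_EE hnd hRf hf' (fun a b ha hb => EE.trans (EE.symm (hbase a ha)) (hbase b hb))
    (ns_of_tb C hx0 h5) g

end

end Cfsg.Agent.Lib.ThreeT.H1
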