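import Cfsg.Agent.Lib.ThreeT.H1Data
import Cfsg.Agent.Lib.Classical.OrderMinus
import Cfsg.Agent.Lib.Classical.OrderForms

/-!
# Vanishing of crossed homomorphisms in dimensions 4, 6 and 8
-/

set_option autoImplicit false
set_option linter.unusedSectionVars false

open scoped Matrix commutatorElement
open Matrix

namespace Cfsg.Agent.Lib.ThreeT.H1

open Cfsg.Agent.Lib.Classical Cfsg.Agent.Lib.Classical.Witt Cfsg.Agent.Lib.Classical.Abs
open Cfsg.Agent.Lib.Classical.Orth Cfsg.Agent.Lib.ThreeT.OrthTv Cfsg.Agent.Lib.Compute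

section gen

variable {ι : Type} [Fintype ι] [DecidableEq ι]

/-- Injectivity of the coding. -/
theorem dec_inj {ix : ι → ℕ} {d : ℕ} (hix : ∀ i, i < d → ∃ j, ix j = i) {a b : ℕ} (ha : a < 2 ^ d) (hb : b < 2 ^ d)
    (h : dec ix a = dec ix b) : a = b := by
  apply Nat.eq_of_testBit_eq
  intro i
  by_cases hi : i < d
  · obtain ⟨j, rfl⟩ := hix i hi
    have := congrFun h j
    simp only [dec] at this
    cases ha' : a.testBit (ix j) <;> cases hb' : b.testBit (ix j) <;> simp_all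
  · have hi' : d ≤ i := Nat.le_of_not_lt hi
    rw [Nat.testBit_lt_two_pow (lt_of_lt_of_le ha (Nat.pow_le_pow_right (by norm_num) hi')),
      Nat.testBit_lt_two_pow (lt_of_lt_of_le hb (Nat.pow_le_pow_right (by norm_num) hi'))]

/-- Surjectivity of the coding. -/
theorem dec_surj {ix : ι → ℕ} {d : ℕ} (hd : Fintype.card ι = d) (hix : ∀ i, i < d → ∃ j, ix j = i)
    (v : ι → ZMod 2) : ∃ m, m < 2 ^ d ∧ dec ix m = v := by
  let φ : Fin (2 ^ d) → (ι → ZMod 2) := fun m => dec ix m.1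
  have hinj : Function.Injective φ := fun a b h => Fin.ext (dec_inj hix a.2 b.2 h)
  have hcard : Fintype.card (Fin (2 ^ d)) = Fintype.card (ι → ZMod 2) := by
    simp [ZMod.card, hd]
  have hbij := (Fintype.bijective_iff_injective_and_card φ).2 ⟨hinj, hcard⟩
  obtain ⟨m, hm⟩ := hbij.2 v
  exact ⟨m.1, m.2, hm⟩

end gen

/-! ### Dimension 8 -/

/-- Coordinates in dimension 8. -/
def ixP : Fin 4 ⊕ Fin 4 → ℕ := Sum.elim (fun k => 2 * k.1) (fun k => 2 * k.1 + 1)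

/-- Coordinates in dimension 6. -/
def ixM : (Fin 2 ⊕ Fin 2) ⊕ Fin 2 → ℕ :=
  Sum.elim (Sum.elim (fun k => 2 * k.1) (fun k => 2 * k.1 + 1)) (fun k => 4 + k.1)

/-- Coordinates in dimension 4. -/
def ixF : (Fin 1 ⊕ Fin 1) ⊕ Fin 2 → ℕ :=
  Sum.elim (Sum.elim (fun k => 2 * k.1) (fun k => 2 * k.1 + 1)) (fun k => 2 + k.1)

/-- The mask of the form in dimension 4. -/
def qmF : ℕ := 30584

theorem hqP : ∀ m, m < 2 ^ 8 → Cfsg.quadFormPlus 4 (ZMod 2) (dec ixP m) = if tb qmP8 m = true then 1 else 0 := by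
  decide +kernel

theorem hqM : ∀ m, m < 2 ^ 6 → Cfsg.quadFormMinus 2 (ZMod 2) 1 1 (dec ixM m) = if tb qmM6 m = true then 1 else 0 := by
  decide +kernel

theorem hqF : ∀ m, m < 2 ^ 4 → Cfsg.quadFormMinus 1 (ZMod 2) 1 1 (dec ixF m) = if tb qmF m = true then 1 else 0 := by
  decide +kernel

theorem ixP_surj : ∀ i, i < 8 → ∃ j, ixP j = i := by decide +kernel
theorem ixM_surj : ∀ i, i < 6 → ∃ j, ixM j = i := by decide +kernel
theorem ixF_surj : ∀ i, i < 4 → ∃ j, ixF j = i := by decide +kernel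

theorem codingP : Coding (Qplus 4 (ZMod 2)) ixP 8 qmP8 :=
  ⟨fun m hm => by rw [Qplus_apply]; exact hqP m hm,
    dec_surj (by simp) ixP_surj⟩

theorem codingM : Coding (Qminus 2 (ZMod 2) 1 1) ixM 6 qmM6 :=
  ⟨fun m hm => by rw [Qminus_apply]; exact hqM m hm,
    dec_surj (by simp) ixM_surj⟩

theorem codingF : Coding (Qminus 1 (ZMod 2) 1 1) ixF 4 qmF :=
  ⟨fun m hm => by rw [Qminus_apply]; exact hqF m hm,
    dec_surj (by simp) ixF_surj⟩

theorem aniso2 : ∀ z₁ z₂ : ZMod 2, z₁ ^ 2 + 1 * z₁ * z₂ + 1 * z₂ ^ 2 = 0 → z₁ = 0 ∧ z₂ = 0 := by decide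

theorem hndP : (QuadraticMap.polarBilin (Qplus 4 (ZMod 2))).Nondegenerate := Qplus_nondeg 4
theorem hndM : (QuadraticMap.polarBilin (Qminus 2 (ZMod 2) 1 1)).Nondegenerate := Qminus_nondeg aniso2 2
theorem hndF : (QuadraticMap.polarBilin (Qminus 1 (ZMod 2) 1 1)).Nondegenerate := Qminus_nondeg aniso2 1

theorem hRfP : Rf (Qplus 4 (ZMod 2)) = ⊤ :=
  Rf_eq_top hndP (Or.inr (by simp))

theorem hRfM : Rf (Qminus 2 (ZMod 2) 1 1) = ⊤ :=
  Rf_eq_top hndM (Or.inr (by simp))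

/-- Transport of the form of the statement. -/
theorem vanish_general {ι : Type} [Fintype ι] [DecidableEq ι] {Q : QuadraticForm (ZMod 2) (ι → ZMod 2)}
    {q : (ι → ZMod 2) → ZMod 2} (hq : ⇑Q = q)
    (h : ∀ f : ↥(Cfsg.Omega (ZMod 2) (⇑Q)) → ι → ZMod 2, IsCrossed Q f →
      ∃ v, ∀ g : ↥(Cfsg.Omega (ZMod 2) (⇑Q)), f g = mat Q g.1 *ᵥ v - v) :
    ∀ f : ↥(Cfsg.Omega (ZMod 2) q) → ι → ZMod 2,
      (∀ g h : ↥(Cfsg.Omega (ZMod 2) q), f (g * h) = f g +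
        Matrix.mulVec (((g : ↥(Cfsg.isometryGroup (ZMod 2) q)) : Matrix.GeneralLinearGroup ι (ZMod 2)) : Matrix ι ι (ZMod 2)) (f h)) →
      ∃ v : ι → ZMod 2, ∀ g : ↥(Cfsg.Omega (ZMod 2) q), f g =
        Matrix.mulVec (((g : ↥(Cfsg.isometryGroup (ZMod 2) q)) : Matrix.GeneralLinearGroup ι (ZMod 2)) : Matrix ι ι (ZMod 2)) v - v := by
  subst hq
  exact h

theorem vanishP :
    ∀ f : ↥(Cfsg.Omega (ZMod 2) (Cfsg.quadFormPlus 4 (ZMod 2))) → Fin 4 ⊕ Fin 4 → ZMod 2,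
      (∀ g h : ↥(Cfsg.Omega (ZMod 2) (Cfsg.quadFormPlus 4 (ZMod 2))), f (g * h) = f g +
        Matrix.mulVec (((g : ↥(Cfsg.isometryGroup (ZMod 2) (Cfsg.quadFormPlus 4 (ZMod 2)))) : Matrix.GeneralLinearGroup (Fin 4 ⊕ Fin 4) (ZMod 2)) : Matrix (Fin 4 ⊕ Fin 4) (Fin 4 ⊕ Fin 4) (ZMod 2)) (f h)) →
      ∃ v : Fin 4 ⊕ Fin 4 → ZMod 2, ∀ g : ↥(Cfsg.Omega (ZMod 2) (Cfsg.quadFormPlus 4 (ZMod 2))), f g =
        Matrix.mulVec (((g : ↥(Cfsg.isometryGroup (ZMod 2) (Cfsg.quadFormPlus 4 (ZMod 2)))) : Matrix.GeneralLinearGroup (Fin 4 ⊕ Fin 4) (ZMod 2)) : Matrix (Fin 4 ⊕ Fin 4) (Fin 4 ⊕ Fin 4) (ZMod 2)) v - v :=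
  vanish_general (funext (Qplus_apply 4)) fun _ hf =>
    vanish_of_cert codingP hndP hRfP okP8 hf

theorem vanishM :
    ∀ f : ↥(Cfsg.Omega (ZMod 2) (Cfsg.quadFormMinus 2 (ZMod 2) 1 1)) → (Fin 2 ⊕ Fin 2) ⊕ Fin 2 → ZMod 2,
      (∀ g h : ↥(Cfsg.Omega (ZMod 2) (Cfsg.quadFormMinus 2 (ZMod 2) 1 1)), f (g * h) = f g +
        Matrix.mulVec (((g : ↥(Cfsg.isometryGroup (ZMod 2) (Cfsg.quadFormMinus 2 (ZMod 2) 1 1))) : Matrix.GeneralLinearGroup ((Fin 2 ⊕ Fin 2) ⊕ Fin 2) (ZMod 2)) : Matrix ((Fin 2 ⊕ Fin 2) ⊕ Fin 2) ((Fin 2 ⊕ Fin 2) ⊕ Fin 2) (ZMod 2)) (f h)) →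
      ∃ v : (Fin 2 ⊕ Fin 2) ⊕ Fin 2 → ZMod 2, ∀ g : ↥(Cfsg.Omega (ZMod 2) (Cfsg.quadFormMinus 2 (ZMod 2) 1 1)), f g =
        Matrix.mulVec (((g : ↥(Cfsg.isometryGroup (ZMod 2) (Cfsg.quadFormMinus 2 (ZMod 2) 1 1))) : Matrix.GeneralLinearGroup ((Fin 2 ⊕ Fin 2) ⊕ Fin 2) (ZMod 2)) : Matrix ((Fin 2 ⊕ Fin 2) ⊕ Fin 2) ((Fin 2 ⊕ Fin 2) ⊕ Fin 2) (ZMod 2)) v - v :=
  vanish_general (funext (Qminus_apply 2 1 1)) fun _ hf =>
    vanish_of_cert codingM hndM hRfM okM6 hf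

/-! ### Dimension 4 -/

local notation "QF" => Qminus 1 (ZMod 2) 1 1
local notation "VF" => ((Fin 1 ⊕ Fin 1) ⊕ Fin 2 → ZMod 2)

theorem sub_dec (a b : ℕ) : dec ixF a - dec ixF b = dec ixF (Nat.xor a b) := by
  rw [dec_xor]
  funext i
  simp only [Pi.sub_apply, Pi.add_apply]
  generalize dec ixF a i = x
  generalize dec ixF b i = y
  revert x y
  decide

theorem qF_iff {m : ℕ} (hm : m < 2 ^ 4) : QF (dec ixF m) ≠ 0 ↔ tb qmF m = true :=
  ⟨tb_of_ns codingF hm, ns_of_tb codingF hm⟩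

/-- Moves by reflections. -/
theorem moveF_check0 : ∀ m : Fin 16, (tb qmF m.1 = true ∧ m.1 ≠ 3 ∧ tb qmF (Nat.xor m.1 3) = false) →
    ∃ z : Fin 16, tb qmF z.1 = true ∧ tb qmF (Nat.xor z.1 3) = true ∧ tb qmF (Nat.xor m.1 z.1) = true := by
  decide +kernel

theorem moveF_check (m : ℕ) (hm : m < 16) (h1 : tb qmF m = true) (h2 : m ≠ 3) (h3 : tb qmF (Nat.xor m 3) = false) :
    ∃ z : Fin 16, tb qmF z.1 = true ∧ tb qmF (Nat.xor z.1 3) = true ∧ tb qmF (Nat.xor m z.1) = true :=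
  moveF_check0 ⟨m, hm⟩ ⟨h1, h2, h3⟩

theorem hRfF : Rf QF = ⊤ := by
  have h2 : (2 : ZMod 2) = 0 := by decide
  have hsq : ∀ a : ZMod 2, ∃ t, t * t = a := by decide
  have hx : QF (dec ixF 3) ≠ 0 := ns_of_tb codingF (by norm_num) (by decide +kernel)
  rw [eq_top_iff]
  rintro g -
  obtain ⟨m, hm, hgm⟩ := codingF.hsurj (g.1 (dec ixF 3))
  have hQm : QF (dec ixF m) = QF (dec ixF 3) := by
    rw [hgm]
    exact OG_pres g _
  have hmq : tb qmF m = true := tb_of_ns codingF hm (by rw [hQm]; exact hx)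
  obtain ⟨h, hh, hhx⟩ : ∃ h ∈ Rf QF, h.1 (dec ixF m) = dec ixF 3 := by
    by_cases h3 : m = 3
    · subst h3
      exact ⟨1, Subgroup.one_mem _, rfl⟩
    by_cases hd : tb qmF (Nat.xor m 3) = true
    · have hd' : QF (dec ixF m - dec ixF 3) ≠ 0 := by
        rw [sub_dec]
        exact ns_of_tb codingF (xor_lt hm (by norm_num)) hd
      exact ⟨refl QF _ hd', refl_mem_Rf _, refl_move hQm hd'⟩
    · have hd2 : tb qmF (Nat.xor m 3) = false := by simpa using hd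
      obtain ⟨⟨z, hz⟩, hz1, hz2, hz3⟩ := moveF_check m (by simpa using hm) hmq h3 hd2
      simp only at hz1 hz2 hz3
      have hz' : z < 2 ^ 4 := by simpa using hz
      have hQz : QF (dec ixF z) = QF (dec ixF 3) := by
        rw [codingF.hq z hz', codingF.hq 3 (by norm_num), hz1]
        rfl
      have hQ1 : QF (dec ixF z - dec ixF 3) ≠ 0 := by
        rw [sub_dec]
        exact ns_of_tb codingF (xor_lt hz' (by norm_num)) hz2
      have hQ2 : QF (dec ixF m - dec ixF z) ≠ 0 := by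
        rw [sub_dec]
        exact ns_of_tb codingF (xor_lt hm hz') hz3
      refine ⟨refl QF _ hQ1 * refl QF _ hQ2, Subgroup.mul_mem _ (refl_mem_Rf _) (refl_mem_Rf _), ?_⟩
      rw [Orth.mul_apply', refl_move (by rw [hQm, hQz]) hQ2, refl_move hQz hQ1]
  have h1 := even_mem_of_fix h2 hsq hndF hx (h * g) (by rw [Orth.mul_apply', ← hgm, hhx])
  have : g = h⁻¹ * (h * g) := by group
  rw [this]
  exact Subgroup.mul_mem _ (Subgroup.inv_mem _ hh) h1

/-- Fixed-point-free element. -/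
def pc : List (ℕ × ℕ) := [(3, 4), (5, 8)]
/-- Element of order three. -/
def py : List (ℕ × ℕ) := [(3, 10)]

theorem val_pc : validP 4 qmF pc = true := by decide +kernel
theorem val_py : validP 4 qmF py = true := by decide +kernel

theorem c_fpf : ∀ x, x < 16 → wP qmF pc x = x → x = 0 := by decide +kernel
theorem y_three : ∀ x, x < 16 → wP qmF py (wP qmF py (wP qmF py x)) = x := by decide +kernel
theorem cy_two : ∀ x, x < 16 → wP qmF pc (wP qmF py (wP qmF pc (wP qmF py x))) = x := by decide +kernel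
theorem rel_check : ∀ w, w < 16 → Nat.xor w (Nat.xor (wP qmF py w) (wP qmF py (wP qmF py w))) = 0 →
    Nat.xor (wP qmF pc w) (wP qmF pc (wP qmF py (wP qmF pc w))) = 0 → w = 0 := by decide +kernel

/-- Equality of isometries from codes. -/
theorem ext_code {g h : Cfsg.isometryGroup (ZMod 2) (⇑QF)}
    (H : ∀ m, m < 2 ^ 4 → mat QF g *ᵥ dec ixF m = mat QF h *ᵥ dec ixF m) : g = h := by
  apply g_ext
  intro v
  obtain ⟨m, hm, rfl⟩ := codingF.hsurj v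
  exact H m hm

theorem dec_zero_iff {m : ℕ} (hm : m < 2 ^ 4) (h : dec ixF m = 0) : m = 0 := by
  have h0 : dec ixF 0 = 0 := dec_zero ixF
  exact dec_inj ixF_surj hm (by norm_num) (h.trans h0.symm)

theorem apply_c {m : ℕ} (hm : m < 2 ^ 4) : mat QF (tauP QF ixF pc) *ᵥ dec ixF m = dec ixF (wP qmF pc m) :=
  tauP_apply codingF val_pc hm

theorem apply_y {m : ℕ} (hm : m < 2 ^ 4) : mat QF (tauP QF ixF py) *ᵥ dec ixF m = dec ixF (wP qmF py m) :=
  tauP_apply codingF val_py hm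

theorem lt_c {m : ℕ} (hm : m < 2 ^ 4) : wP qmF pc m < 2 ^ 4 := wP_lt val_pc hm
theorem lt_y {m : ℕ} (hm : m < 2 ^ 4) : wP qmF py m < 2 ^ 4 := wP_lt val_py hm

theorem c_fpf' : ∀ x, mat QF (tauP QF ixF pc) *ᵥ x = x → x = 0 := by
  intro v hv
  obtain ⟨m, hm, rfl⟩ := codingF.hsurj v
  rw [apply_c hm] at hv
  have h1 := dec_inj ixF_surj (lt_c hm) hm hv
  rw [c_fpf m (by simpa using hm) h1, dec_zero]

theorem omega_pair {p : List (ℕ × ℕ)} (hv : validP 4 qmF p = true) :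
    tauP QF ixF p ∈ Cfsg.Omega (ZMod 2) (⇑QF) := by
  apply tauP_mem
  intro ab hab
  have h := validP_spec hv hab
  have h7 := ns_of_tb codingF h.1 h.2.2.1
  have h8 := ns_of_tb codingF h.2.1 h.2.2.2
  exact ⟨h7, h8, tt_mem hndF h7 h8⟩

theorem y_cube : tauP QF ixF py * (tauP QF ixF py * tauP QF ixF py) = 1 := by
  apply ext_code
  intro m hm
  have h1 : mat QF (1 : Cfsg.isometryGroup (ZMod 2) (⇑QF)) *ᵥ dec ixF m = dec ixF m := Matrix.one_mulVec _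
  rw [h1, mat_mul, mat_mul, ← Matrix.mulVec_mulVec, ← Matrix.mulVec_mulVec, apply_y hm, apply_y (lt_y hm),
    apply_y (lt_y (lt_y hm)), y_three m (by simpa using hm)]

theorem cy_sq : (tauP QF ixF pc * tauP QF ixF py) * (tauP QF ixF pc * tauP QF ixF py) = 1 := by
  apply ext_code
  intro m hm
  have h1 : mat QF (1 : Cfsg.isometryGroup (ZMod 2) (⇑QF)) *ᵥ dec ixF m = dec ixF m := Matrix.one_mulVec _
  rw [h1]
  simp only [mat_mul]
  simp only [← Matrix.mulVec_mulVec]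
  rw [apply_y hm, apply_c (lt_y hm), apply_y (lt_c (lt_y hm)),
    apply_c (lt_y (lt_c (lt_y hm))), cy_two m (by simpa using hm)]

/-- The main step in dimension 4. -/
theorem y_vanish {f : ↥(Cfsg.Omega (ZMod 2) (⇑QF)) → VF} (hf : IsCrossed QF f)
    (hc : f ⟨_, omega_pair val_pc⟩ = 0) : f ⟨_, omega_pair val_py⟩ = 0 := by
  set y : ↥(Cfsg.Omega (ZMod 2) (⇑QF)) := ⟨_, omega_pair val_py⟩ with hy
  set c : ↥(Cfsg.Omega (ZMod 2) (⇑QF)) := ⟨_, omega_pair val_pc⟩ with hcc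
  have h1 : y * (y * y) = 1 := Subtype.ext y_cube
  have h2 : (c * y) * (c * y) = 1 := Subtype.ext cy_sq
  obtain ⟨m, hm, hw⟩ := codingF.hsurj (f y)
  have e1 := hf y (y * y)
  rw [h1, f_one hf, hf y y, Matrix.mulVec_add, ← hw] at e1
  have hya : ∀ {k : ℕ}, k < 2 ^ 4 → mat QF y.1 *ᵥ dec ixF k = dec ixF (wP qmF py k) := fun hk => apply_y hk
  have hca : ∀ {k : ℕ}, k < 2 ^ 4 → mat QF c.1 *ᵥ dec ixF k = dec ixF (wP qmF pc k) := fun hk => apply_c hk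
  rw [hya hm, hya (lt_y hm), ← dec_xor, ← dec_xor] at e1
  have r1 : Nat.xor m (Nat.xor (wP qmF py m) (wP qmF py (wP qmF py m))) = 0 :=
    dec_zero_iff (xor_lt hm (xor_lt (lt_y hm) (lt_y (lt_y hm)))) e1.symm
  have e2 := hf (c * y) (c * y)
  have e3 : f (c * y) = dec ixF (wP qmF pc m) := by
    rw [hf, hc, zero_add, ← hw, hca hm]
  have hcya : ∀ {k : ℕ}, k < 2 ^ 4 → mat QF (c * y).1 *ᵥ dec ixF k = dec ixF (wP qmF pc (wP qmF py k)) := by
    intro k hk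
    show mat QF (c.1 * y.1) *ᵥ dec ixF k = _
    rw [mat_mul, ← Matrix.mulVec_mulVec, hya hk, hca (lt_y hk)]
  rw [h2, f_one hf, e3, hcya (lt_c hm), ← dec_xor] at e2
  have r2 : Nat.xor (wP qmF pc m) (wP qmF pc (wP qmF py (wP qmF pc m))) = 0 :=
    dec_zero_iff (xor_lt (lt_c hm) (lt_c (lt_y (lt_c hm)))) e2.symm
  have r3 := rel_check m (by simpa using hm) r1 r2
  rw [← hw, r3, dec_zero]

theorem vanishF_aux {f : ↥(Cfsg.Omega (ZMod 2) (⇑QF)) → VF} (hf : IsCrossed QF f)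
    (hc : f ⟨_, omega_pair val_pc⟩ = 0) (g : ↥(Cfsg.Omega (ZMod 2) (⇑QF))) : f g = 0 := by
  have hcL : tauP QF ixF pc ∈ Lf hf := (mem_Lf hf).2 ⟨_, hc⟩
  have hyL : tauP QF ixF py ∈ Lf hf := (mem_Lf hf).2 ⟨_, y_vanish hf hc⟩
  have hn3 : QF (dec ixF 3) ≠ 0 := ns_of_tb codingF (by norm_num) (by decide +kernel)
  have hn10 : QF (dec ixF 10) ≠ 0 := ns_of_tb codingF (by norm_num) (by decide +kernel)
  have base : EE (Lf hf) (dec ixF 3) (dec ixF 10) := by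
    refine ⟨hn3, hn10, ?_⟩
    have e : tauP QF ixF py = t QF (dec ixF 3) hn3 * t QF (dec ixF 10) hn10 := by
      simp [tauP, py, TT_eq hn3, TT_eq hn10]
    rw [← e]
    exact hyL
  have base2 : EE (Lf hf) (dec ixF 3) (dec ixF 9) := by
    have hB : QuadraticMap.polar (⇑QF) (dec ixF 10) (dec ixF 3) = 1 := by
      rw [polar_dec codingF (by norm_num) (by norm_num)]
      have : Bn qmF 10 3 = true := by decide +kernel
      rw [if_pos this]
    have := EE.rot base hB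
    rwa [← dec_xor, show Nat.xor 3 10 = 9 from by decide] at this
  have shift' : ∀ {x y X Y : ℕ}, x < 2 ^ 4 → y < 2 ^ 4 → wP qmF pc x = X → wP qmF pc y = Y →
      EE (Lf hf) (dec ixF x) (dec ixF y) → EE (Lf hf) (dec ixF X) (dec ixF Y) := by
    intro x y X Y hx hy hX hY h
    have := EE.conj hcL h
    rwa [apply_c hx, apply_c hy, hX, hY] at this
  -- orbits
  have s1 : EE (Lf hf) (dec ixF 5) (dec ixF 13) := shift' (by norm_num) (by norm_num) (by decide +kernel) (by decide +kernel) base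
  have s2 : EE (Lf hf) (dec ixF 12) (dec ixF 6) := shift' (by norm_num) (by norm_num) (by decide +kernel) (by decide +kernel) s1
  have s3 : EE (Lf hf) (dec ixF 4) (dec ixF 9) := shift' (by norm_num) (by norm_num) (by decide +kernel) (by decide +kernel) s2
  have s4 : EE (Lf hf) (dec ixF 14) (dec ixF 8) := shift' (by norm_num) (by norm_num) (by decide +kernel) (by decide +kernel) s3
  have t1 : EE (Lf hf) (dec ixF 5) (dec ixF 8) := shift' (by norm_num) (by norm_num) (by decide +kernel) (by decide +kernel) base2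
  have t2 : EE (Lf hf) (dec ixF 12) (dec ixF 10) := shift' (by norm_num) (by norm_num) (by decide +kernel) (by decide +kernel) t1
  have t3 : EE (Lf hf) (dec ixF 4) (dec ixF 13) := shift' (by norm_num) (by norm_num) (by decide +kernel) (by decide +kernel) t2
  have t4 : EE (Lf hf) (dec ixF 14) (dec ixF 6) := shift' (by norm_num) (by norm_num) (by decide +kernel) (by decide +kernel) t3
  -- connectivity from `3`
  have c10 := base
  have c9 := base2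
  have c12 := c10.trans t2.symm
  have c4 := c9.trans s3.symm
  have c6 := c12.trans s2
  have c13 := c4.trans t3
  have c14 := c6.trans t4.symm
  have c5 := c13.trans s1.symm
  have c8 := c14.trans s4
  have hall : ∀ a, QF a ≠ 0 → EE (Lf hf) (dec ixF 3) a := by
    intro a ha
    obtain ⟨m, hm, rfl⟩ := codingF.hsurj a
    have hq := tb_of_ns codingF hm ha
    have key : ∀ m, m < 16 → tb qmF m = true → m = 3 ∨ m = 4 ∨ m = 5 ∨ m = 6 ∨ m = 8 ∨ m = 9 ∨ m = 10 ∨ m = 12 ∨ m = 13 ∨ m = 14 := by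
      decide +kernel
    rcases key m (by simpa using hm) hq with rfl | rfl | rfl | rfl | rfl | rfl | rfl | rfl | rfl | rfl
    · exact EE.refl hn3
    · exact c4
    · exact c5
    · exact c6
    · exact c8
    · exact c9
    · exact c10
    · exact c12
    · exact c13
    · exact c14
  exact vanish_of_EE hndF hRfF hf (fun a b ha hb => EE.trans (EE.symm (hall a ha)) (hall b hb)) hn3 g

theorem vanishF :
    ∀ f : ↥(Cfsg.Omega (ZMod 2) (Cfsg.quadFormMinus 1 (ZMod 2) 1 1)) → (Fin 1 ⊕ Fin 1) ⊕ Fin 2 → ZMod 2,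
      (∀ g h : ↥(Cfsg.Omega (ZMod 2) (Cfsg.quadFormMinus 1 (ZMod 2) 1 1)), f (g * h) = f g +
        Matrix.mulVec (((g : ↥(Cfsg.isometryGroup (ZMod 2) (Cfsg.quadFormMinus 1 (ZMod 2) 1 1))) : Matrix.GeneralLinearGroup ((Fin 1 ⊕ Fin 1) ⊕ Fin 2) (ZMod 2)) : Matrix ((Fin 1 ⊕ Fin 1) ⊕ Fin 2) ((Fin 1 ⊕ Fin 1) ⊕ Fin 2) (ZMod 2)) (f h)) →
      ∃ v : (Fin 1 ⊕ Fin 1) ⊕ Fin 2 → ZMod 2, ∀ g : ↥(Cfsg.Omega (ZMod 2) (Cfsg.quadFormMinus 1 (ZMod 2) 1 1)), f g =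
        Matrix.mulVec (((g : ↥(Cfsg.isometryGroup (ZMod 2) (Cfsg.quadFormMinus 1 (ZMod 2) 1 1))) : Matrix.GeneralLinearGroup ((Fin 1 ⊕ Fin 1) ⊕ Fin 2) (ZMod 2)) : Matrix ((Fin 1 ⊕ Fin 1) ⊕ Fin 2) ((Fin 1 ⊕ Fin 1) ⊕ Fin 2) (ZMod 2)) v - v :=
  vanish_general (funext (Qminus_apply 1 1 1)) fun _ hf =>
    principal_of ⟨_, omega_pair val_pc⟩ c_fpf' (fun _ hf' hc g => vanishF_aux hf' hc g) hf

end Cfsg.Agent.Lib.ThreeT.H1
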