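import Cfsg.Agent.Lib.ThreeT.OrthTv
import Cfsg.Agent.Lib.Compute.Basic

/-!
# Crossed homomorphisms of the commutator subgroup of an orthogonal group over the field of two elements

A crossed homomorphism vanishing at an element `τ` without nonzero fixed vectors vanishes on the
elements commuting with `τ`. Combining this for elements with `τ² + τ + 1 = 0` shows that it vanishes
on all products of two orthogonal transvections, when a finite check of connectivity holds.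
-/

set_option autoImplicit false
set_option linter.unusedSectionVars false

open scoped Matrix commutatorElement
open Matrix

namespace Cfsg.Agent.Lib.ThreeT.H1

open Cfsg.Agent.Lib.Classical Cfsg.Agent.Lib.Classical.Witt Cfsg.Agent.Lib.Classical.Abs
open Cfsg.Agent.Lib.Classical.Orth Cfsg.Agent.Lib.ThreeT.OrthTv Cfsg.Agent.Lib.Compute

variable {ι : Type} [Fintype ι] [DecidableEq ι] (Q : QuadraticForm (ZMod 2) (ι → ZMod 2))

local notation "Vv" => (ι → ZMod 2)
set_option quotPrecheck false in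
local notation "Gg" => Cfsg.isometryGroup (ZMod 2) (⇑Q)
set_option quotPrecheck false in
local notation "Om" => Cfsg.Omega (ZMod 2) (⇑Q)
set_option quotPrecheck false in
local notation "B" => QuadraticMap.polar (⇑Q)

omit [Fintype ι] [DecidableEq ι] in
theorem v_add_self (x : ι → ZMod 2) : x + x = 0 := by
  funext i
  exact (by decide : ∀ c : ZMod 2, c + c = 0) (x i)

/-- Crossed homomorphisms of `Ω` into the natural module. -/
def IsCrossed (f : ↥(Cfsg.Omega (ZMod 2) (⇑Q)) → ι → ZMod 2) : Prop :=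
  ∀ g h, f (g * h) = f g + mat Q g.1 *ᵥ f h

variable {Q}
variable {f : ↥(Cfsg.Omega (ZMod 2) (⇑Q)) → ι → ZMod 2}

theorem f_one (hf : IsCrossed Q f) : f 1 = 0 := by
  have h := hf 1 1
  rw [mul_one] at h
  have h2 : mat Q ((1 : ↥(Cfsg.Omega (ZMod 2) (⇑Q))) : Gg) *ᵥ f 1 = f 1 := Matrix.one_mulVec _
  rw [h2, v_add_self] at h
  exact h

/-- The kernel of a crossed homomorphism. -/
def kerC (hf : IsCrossed Q f) : Subgroup ↥(Cfsg.Omega (ZMod 2) (⇑Q)) where
  carrier := {g | f g = 0}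
  mul_mem' := by
    intro a b ha hb
    simp only [Set.mem_ofPred_eq] at ha hb ⊢
    rw [hf, ha, hb, Matrix.mulVec_zero, add_zero]
  one_mem' := f_one hf
  inv_mem' := by
    intro a ha
    simp only [Set.mem_ofPred_eq] at ha ⊢
    have h := hf a⁻¹ a
    rw [inv_mul_cancel, f_one hf, ha, Matrix.mulVec_zero, add_zero] at h
    exact h.symm

theorem mem_kerC (hf : IsCrossed Q f) (g) : g ∈ kerC hf ↔ f g = 0 := Iff.rfl

/-- The crossed homomorphism modified by a principal one. -/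
def shift (f : ↥(Cfsg.Omega (ZMod 2) (⇑Q)) → ι → ZMod 2) (v : ι → ZMod 2) :
    ↥(Cfsg.Omega (ZMod 2) (⇑Q)) → ι → ZMod 2 :=
  fun g => f g + (mat Q g.1 *ᵥ v + v)

theorem shift_crossed (hf : IsCrossed Q f) (v : ι → ZMod 2) : IsCrossed Q (shift f v) := by
  intro g h
  unfold shift
  have h1 : mat Q (g * h).1 = mat Q g.1 * mat Q h.1 := rfl
  rw [hf, h1, Matrix.mulVec_add, Matrix.mulVec_add, ← Matrix.mulVec_mulVec]
  funext i
  simp only [Pi.add_apply]
  generalize f g i = a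
  generalize (mat Q g.1 *ᵥ f h) i = b
  generalize (mat Q g.1 *ᵥ (mat Q h.1 *ᵥ v)) i = c
  generalize (mat Q g.1 *ᵥ v) i = d
  generalize v i = e
  revert a b c d e
  decide

theorem exists_shift {τ : Gg} (hfpf : ∀ x, mat Q τ *ᵥ x = x → x = 0) (w : ι → ZMod 2) :
    ∃ v, mat Q τ *ᵥ v + v = w := by
  have hinj : Function.Injective (fun v : ι → ZMod 2 => mat Q τ *ᵥ v + v) := by
    intro x y hxy
    simp only at hxy
    have h1 : mat Q τ *ᵥ (x + y) = x + y := by
      rw [Matrix.mulVec_add]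
      funext i
      have := congrFun hxy i
      simp only [Pi.add_apply] at this ⊢
      generalize (mat Q τ *ᵥ x) i = a at *
      generalize (mat Q τ *ᵥ y) i = b at *
      generalize x i = c at *
      generalize y i = d at *
      revert a b c d
      decide
    have h2 := hfpf _ h1
    funext i
    have := congrFun h2 i
    simp only [Pi.add_apply, Pi.zero_apply] at this
    generalize x i = c at *
    generalize y i = d at *
    revert c d
    decide
  exact (Finite.injective_iff_surjective.1 hinj) w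

/-- Reduction to crossed homomorphisms vanishing at a fixed-point-free element. -/
theorem principal_of (τ : ↥(Cfsg.Omega (ZMod 2) (⇑Q))) (hfpf : ∀ x, mat Q τ.1 *ᵥ x = x → x = 0)
    (main : ∀ f' : ↥(Cfsg.Omega (ZMod 2) (⇑Q)) → ι → ZMod 2, IsCrossed Q f' → f' τ = 0 → ∀ g, f' g = 0)
    (hf : IsCrossed Q f) : ∃ v, ∀ g : ↥(Cfsg.Omega (ZMod 2) (⇑Q)), f g = mat Q g.1 *ᵥ v - v := by
  obtain ⟨v, hv⟩ := exists_shift hfpf (f τ)
  refine ⟨v, fun g => ?_⟩
  have h1 := main _ (shift_crossed hf v) (by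
    unfold shift
    rw [hv, v_add_self])
  have h2 := h1 g
  unfold shift at h2
  funext i
  have := congrFun h2 i
  simp only [Pi.add_apply, Pi.zero_apply, Pi.sub_apply] at this ⊢
  generalize f g i = a at *
  generalize (mat Q g.1 *ᵥ v) i = b at *
  generalize v i = c at *
  revert a b c
  decide

/-- The key step: the kernel contains what commutes with a fixed-point-free element of the kernel. -/
theorem mem_ker_of_comm (hf : IsCrossed Q f) {τ x : ↥(Cfsg.Omega (ZMod 2) (⇑Q))} (hτ : f τ = 0)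
    (hfpf : ∀ x, mat Q τ.1 *ᵥ x = x → x = 0) (hc : x * τ = τ * x) : f x = 0 := by
  have h1 := hf x τ
  have h2 := hf τ x
  rw [hc, h2, hτ, Matrix.mulVec_zero, add_zero, zero_add] at h1
  exact hfpf _ h1

/-- The image of the kernel in the isometry group. -/
def Lf (hf : IsCrossed Q f) : Subgroup Gg := (kerC hf).map (Cfsg.Omega (ZMod 2) (⇑Q)).subtype

theorem mem_Lf (hf : IsCrossed Q f) {x : Gg} : x ∈ Lf hf ↔ ∃ h : x ∈ Cfsg.Omega (ZMod 2) (⇑Q), f ⟨x, h⟩ = 0 := by
  constructor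
  · rintro ⟨y, hy, rfl⟩
    exact ⟨y.2, hy⟩
  · rintro ⟨h, h0⟩
    exact ⟨⟨x, h⟩, h0, rfl⟩

/-- Two nonsingular vectors whose transvections multiply into `L`. -/
def EE (L : Subgroup Gg) (a b : ι → ZMod 2) : Prop :=
  ∃ (ha : Q a ≠ 0) (hb : Q b ≠ 0), t Q a ha * t Q b hb ∈ L

theorem t_congr {a b : ι → ZMod 2} (h : a = b) (ha : Q a ≠ 0) (hb : Q b ≠ 0) : t Q a ha = t Q b hb := by
  subst h
  rfl

theorem EE.refl {L : Subgroup Gg} {a : ι → ZMod 2} (ha : Q a ≠ 0) : EE L a a :=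
  ⟨ha, ha, by rw [t_sq]; exact L.one_mem⟩

theorem EE.symm {L : Subgroup Gg} {a b : ι → ZMod 2} (h : EE L a b) : EE L b a := by
  obtain ⟨ha, hb, h⟩ := h
  refine ⟨hb, ha, ?_⟩
  have := L.inv_mem h
  rwa [_root_.mul_inv_rev, t_inv, t_inv] at this

theorem EE.trans {L : Subgroup Gg} {a b c : ι → ZMod 2} (h1 : EE L a b) (h2 : EE L b c) : EE L a c := by
  obtain ⟨ha, hb, h1⟩ := h1
  obtain ⟨_, hc, h2⟩ := h2
  refine ⟨ha, hc, ?_⟩
  have := L.mul_mem h1 h2
  have e : t Q a ha * t Q b hb * (t Q b hb * t Q c hc) = t Q a ha * t Q c hc := by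
    rw [mul_assoc, ← mul_assoc (t Q b hb), t_sq, one_mul]
  rwa [e] at this

theorem EE.conj {L : Subgroup Gg} {a b : ι → ZMod 2} {g : Gg} (hg : g ∈ L) (h : EE L a b) : EE L (mat Q g *ᵥ a) (mat Q g *ᵥ b) := by
  obtain ⟨ha, hb, h⟩ := h
  have ha' : Q (mat Q g *ᵥ a) ≠ 0 := by rw [g_pres]; exact ha
  have hb' : Q (mat Q g *ᵥ b) ≠ 0 := by rw [g_pres]; exact hb
  refine ⟨ha', hb', ?_⟩
  rw [← conj_t g a ha ha', ← conj_t g b hb hb']
  have e : g * t Q a ha * g⁻¹ * (g * t Q b hb * g⁻¹) = g * (t Q a ha * t Q b hb) * g⁻¹ := by group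
  rw [e]
  exact L.mul_mem (L.mul_mem hg h) (L.inv_mem hg)

/-- Rotation rule. -/
theorem t_rot {a b : ι → ZMod 2} (ha : Q a ≠ 0) (hb : Q b ≠ 0) (hab : Q (a + b) ≠ 0) (hB : B b a = 1) :
    t Q b hb * t Q (a + b) hab = t Q a ha * t Q b hb := by
  have h1 : Q (mat Q (t Q b hb) *ᵥ a) ≠ 0 := by rw [g_pres]; exact ha
  have h2 := conj_t (t Q b hb) a ha h1
  rw [t_inv] at h2
  have h3 : mat Q (t Q b hb) *ᵥ a = a + b := by
    rw [t_apply, hB, one_smul]
  rw [t_congr h3 h1 hab] at h2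
  rw [← h2]
  have e : t Q b hb * (t Q b hb * t Q a ha * t Q b hb) = (t Q b hb * t Q b hb) * (t Q a ha * t Q b hb) := by group
  rw [e, t_sq, one_mul]

theorem EE.rot {L : Subgroup Gg} {a b : ι → ZMod 2} (h : EE L a b) (hB : B b a = 1) : EE L a (a + b) := by
  obtain ⟨ha, hb, h⟩ := h
  have hab : Q (a + b) ≠ 0 := by
    have h1 := g_pres Q (t Q b hb) a
    rw [t_apply, hB, one_smul] at h1
    rw [h1]
    exact ha
  have h2 : EE L b (a + b) := ⟨hb, hab, by rw [t_rot ha hb hab hB]; exact h⟩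
  exact (EE.trans ⟨ha, hb, h⟩ h2)

/-- Products of two transvections lie in `Ω`. -/
theorem tt_mem (hnd : (QuadraticMap.polarBilin Q).Nondegenerate) {a b : ι → ZMod 2} (ha : Q a ≠ 0) (hb : Q b ≠ 0) :
    t Q a ha * t Q b hb ∈ Cfsg.Omega (ZMod 2) (⇑Q) := by
  obtain ⟨g, hg⟩ := exists_move hnd ha hb
  have ha' : Q (mat Q g *ᵥ a) ≠ 0 := by rw [g_pres]; exact ha
  have h1 := conj_t g a ha ha'
  rw [t_congr hg ha' hb] at h1
  rw [← h1]
  have e : t Q a ha * (g * t Q a ha * g⁻¹) = ⁅t Q a ha, g⁆ := by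
    rw [commutatorElement_def, t_inv]
    group
  rw [e]
  exact Subgroup.commutator_mem_commutator (Subgroup.mem_top _) (Subgroup.mem_top _)

/-- The subgroup generated by products of two transvections contains `Ω`. -/
theorem omega_le (hnd : (QuadraticMap.polarBilin Q).Nondegenerate) (hRf : Rf Q = ⊤) {L : Subgroup Gg}
    (h : ∀ a b, Q a ≠ 0 → Q b ≠ 0 → EE L a b) {u₀ : ι → ZMod 2} (hu₀ : Q u₀ ≠ 0) :
    Cfsg.Omega (ZMod 2) (⇑Q) ≤ L := by
  let D : Subgroup Gg := Subgroup.closure {g | ∃ (a b : ι → ZMod 2) (ha : Q a ≠ 0) (hb : Q b ≠ 0), g = t Q a ha * t Q b hb}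
  have hDL : D ≤ L := by
    rw [Subgroup.closure_le]
    rintro _ ⟨a, b, ha, hb, rfl⟩
    obtain ⟨_, _, h1⟩ := h a b ha hb
    exact h1
  refine le_trans ?_ hDL
  haveI hN : D.Normal := by
    refine ⟨fun n hn g => ?_⟩
    induction hn using Subgroup.closure_induction with
    | mem x hx =>
      obtain ⟨a, b, ha, hb, rfl⟩ := hx
      have ha' : Q (mat Q g *ᵥ a) ≠ 0 := by rw [g_pres]; exact ha
      have hb' : Q (mat Q g *ᵥ b) ≠ 0 := by rw [g_pres]; exact hb
      apply Subgroup.subset_closure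
      refine ⟨_, _, ha', hb', ?_⟩
      rw [← conj_t g a ha ha', ← conj_t g b hb hb']
      group
    | one => simp [D.one_mem]
    | mul x y _ _ hx hy =>
      have e : g * (x * y) * g⁻¹ = (g * x * g⁻¹) * (g * y * g⁻¹) := by group
      rw [e]
      exact D.mul_mem hx hy
    | inv x _ hx =>
      have e : g * x⁻¹ * g⁻¹ = (g * x * g⁻¹)⁻¹ := by group
      rw [e]
      exact D.inv_mem hx
  -- every element is `1` or `t₀` modulo `D`
  have hcl := closure_reflections_top Q hRf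
  have hall : ∀ g : Gg, g ∈ D ∨ g * t Q u₀ hu₀ ∈ D := by
    intro g
    have hg : g ∈ Subgroup.closure {g : Gg | ∃ v : ι → ZMod 2, Q v ≠ 0 ∧
        ((g : Matrix.GeneralLinearGroup ι (ZMod 2)) : Matrix ι ι (ZMod 2)) = Cfsg.reflectionMatrix (⇑Q) v} := by
      rw [hcl]; trivial
    induction hg using Subgroup.closure_induction with
    | mem x hx =>
      obtain ⟨v, hv, hx⟩ := hx
      have : x = t Q v hv := Subtype.ext (Units.ext hx)
      right
      rw [this]
      exact Subgroup.subset_closure ⟨v, u₀, hv, hu₀, rfl⟩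
    | one => exact Or.inl D.one_mem
    | mul x y _ _ hx hy =>
      rcases hx with hx | hx <;> rcases hy with hy | hy
      · exact Or.inl (D.mul_mem hx hy)
      · right
        rw [mul_assoc]
        exact D.mul_mem hx hy
      · right
        have e : x * y * t Q u₀ hu₀ = (x * t Q u₀ hu₀) * (t Q u₀ hu₀ * y * (t Q u₀ hu₀)⁻¹) := by
          rw [t_inv]
          have := t_sq Q u₀ hu₀
          calc x * y * t Q u₀ hu₀ = x * (t Q u₀ hu₀ * t Q u₀ hu₀) * y * t Q u₀ hu₀ := by rw [this, mul_one]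
            _ = _ := by group
        rw [e]
        exact D.mul_mem hx (hN.conj_mem _ hy _)
      · left
        have e : x * y = (x * t Q u₀ hu₀) * (t Q u₀ hu₀ * (y * t Q u₀ hu₀) * (t Q u₀ hu₀)⁻¹) := by
          rw [t_inv]
          have := t_sq Q u₀ hu₀
          calc x * y = x * (t Q u₀ hu₀ * t Q u₀ hu₀) * y * (t Q u₀ hu₀ * t Q u₀ hu₀) := by rw [this, mul_one, mul_one]
            _ = _ := by group
        rw [e]
        exact D.mul_mem hx (hN.conj_mem _ hy _)
    | inv x _ hx =>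
      rcases hx with hx | hx
      · exact Or.inl (D.inv_mem hx)
      · right
        have h1 := D.inv_mem hx
        rw [_root_.mul_inv_rev, t_inv] at h1
        have e : x⁻¹ * t Q u₀ hu₀ = t Q u₀ hu₀ * (t Q u₀ hu₀ * x⁻¹) * (t Q u₀ hu₀)⁻¹ := by
          rw [t_inv, ← mul_assoc, t_sq, one_mul]
        rw [e]
        exact hN.conj_mem _ h1 _
  -- hence the quotient is commutative
  have hcomm : ∀ a b : Gg, ⁅a, b⁆ ∈ D := by
    intro a b
    have hq : ∀ g : Gg, (QuotientGroup.mk g : Gg ⧸ D) = 1 ∨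
        (QuotientGroup.mk g : Gg ⧸ D) = (QuotientGroup.mk (t Q u₀ hu₀) : Gg ⧸ D) := by
      intro g
      rcases hall g with hg | hg
      · left
        exact (QuotientGroup.eq_one_iff g).2 hg
      · right
        have h1 : (QuotientGroup.mk (g * t Q u₀ hu₀) : Gg ⧸ D) = 1 := (QuotientGroup.eq_one_iff _).2 hg
        have h2 : (QuotientGroup.mk (t Q u₀ hu₀) : Gg ⧸ D) * (QuotientGroup.mk (t Q u₀ hu₀) : Gg ⧸ D) = 1 := by
          rw [← QuotientGroup.mk_mul, t_sq]
          rfl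
        rw [QuotientGroup.mk_mul] at h1
        exact mul_right_cancel (h1.trans h2.symm)
    have hc : (QuotientGroup.mk a : Gg ⧸ D) * QuotientGroup.mk b = QuotientGroup.mk b * QuotientGroup.mk a := by
      rcases hq a with h1 | h1 <;> rcases hq b with h2 | h2 <;> rw [h1, h2] <;> simp
    rw [← QuotientGroup.eq_one_iff, commutatorElement_def, QuotientGroup.mk_mul, QuotientGroup.mk_mul,
      QuotientGroup.mk_mul, QuotientGroup.mk_inv, QuotientGroup.mk_inv, hc]
    simp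
  unfold Cfsg.Omega commutator
  rw [Subgroup.commutator_le]
  intro a _ b _
  exact hcomm a b

/-- Vanishing from connectivity. -/
theorem vanish_of_EE (hnd : (QuadraticMap.polarBilin Q).Nondegenerate) (hRf : Rf Q = ⊤) (hf : IsCrossed Q f)
    (h : ∀ a b, Q a ≠ 0 → Q b ≠ 0 → EE (Lf hf) a b) {u₀ : ι → ZMod 2} (hu₀ : Q u₀ ≠ 0)
    (g : ↥(Cfsg.Omega (ZMod 2) (⇑Q))) : f g = 0 := by
  have h1 := omega_le hnd hRf h hu₀ g.2
  obtain ⟨_, h2⟩ := (mem_Lf hf).1 h1
  exact h2

/-- An element with `τ² + τ + 1 = 0`. -/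
def IsJ (τ : Gg) : Prop := ∀ x, mat Q τ *ᵥ (mat Q τ *ᵥ x) + mat Q τ *ᵥ x + x = 0

theorem IsJ.fpf {τ : Gg} (hτ : IsJ τ) : ∀ x, mat Q τ *ᵥ x = x → x = 0 := by
  intro x hx
  have h := hτ x
  rw [hx, hx, v_add_self, zero_add] at h
  exact h

/-- The main step. -/
theorem EE_of_J (hnd : (QuadraticMap.polarBilin Q).Nondegenerate) (hf : IsCrossed Q f) {τ : Gg} (hτ : τ ∈ Lf hf) (hJ : IsJ τ)
    {u : ι → ZMod 2} (hu : Q u ≠ 0) : EE (Lf hf) u (mat Q τ *ᵥ u) := by
  obtain ⟨hτΩ, hτ0⟩ := (mem_Lf hf).1 hτ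
  have hu1 : Q (mat Q τ *ᵥ u) ≠ 0 := by rw [g_pres]; exact hu
  refine ⟨hu, hu1, ?_⟩
  have hm := tt_mem hnd hu hu1
  refine (mem_Lf hf).2 ⟨hm, ?_⟩
  refine mem_ker_of_comm hf (τ := ⟨τ, hτΩ⟩) hτ0 hJ.fpf ?_
  apply Subtype.ext
  show t Q u hu * t Q (mat Q τ *ᵥ u) hu1 * τ = τ * (t Q u hu * t Q (mat Q τ *ᵥ u) hu1)
  have hu2 : Q (mat Q τ *ᵥ (mat Q τ *ᵥ u)) ≠ 0 := by rw [g_pres]; exact hu1
  have e1 := conj_t τ u hu hu1
  have e2 := conj_t τ _ hu1 hu2
  have hv : mat Q τ *ᵥ (mat Q τ *ᵥ u) = u + mat Q τ *ᵥ u := by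
    have := hJ u
    funext i
    have := congrFun this i
    simp only [Pi.add_apply, Pi.zero_apply] at this ⊢
    generalize (mat Q τ *ᵥ (mat Q τ *ᵥ u)) i = a at *
    generalize (mat Q τ *ᵥ u) i = b at *
    generalize u i = c at *
    revert a b c
    decide
  have hab : Q (u + mat Q τ *ᵥ u) ≠ 0 := by rw [← hv]; exact hu2
  rw [t_congr hv hu2 hab] at e2
  have hB : B (mat Q τ *ᵥ u) u = 1 := by
    rw [QuadraticMap.polar, add_comm, ← hv, g_pres, g_pres]
    have : Q u = 1 := one_of_ne hu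
    rw [this]
    decide
  have e3 := t_rot hu hu1 hab hB
  have e4 : τ * (t Q u hu * t Q (mat Q τ *ᵥ u) hu1) * τ⁻¹ = t Q u hu * t Q (mat Q τ *ᵥ u) hu1 := by
    have : τ * (t Q u hu * t Q (mat Q τ *ᵥ u) hu1) * τ⁻¹ = (τ * t Q u hu * τ⁻¹) * (τ * t Q (mat Q τ *ᵥ u) hu1 * τ⁻¹) := by group
    rw [this, e1, e2, e3]
  calc t Q u hu * t Q (mat Q τ *ᵥ u) hu1 * τ = (τ * (t Q u hu * t Q (mat Q τ *ᵥ u) hu1) * τ⁻¹) * τ := by rw [e4]
    _ = _ := by group

end Cfsg.Agent.Lib.ThreeT.H1
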