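import Mathlib
import Cfsg.Agent.Lib.Classical.Basic
import Cfsg.Agent.Lib.Transfer.Basic
import Cfsg.Prelude.Def_CaseTheorems

/-!
# Perfect central extensions of `L₃(4)` by elementary abelian `2`-groups

Let `π : Γ → L₃(4)` be surjective with `Γ` perfect and kernel `A` central of exponent `2`.  Then `|A| ≤ 4`.

Proof.  Any lift of a transvection has its square equal to one fixed element `c ∈ A` (all transvections are
conjugate), and looking at three independent transvections in the elementary abelian subgroup `{u 0 b c}` gives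
`c = 1`.  So the preimages `S₁`, `S₂` of the two subgroups `{u 0 b c}`, `{u a b 0}` of the unitriangular group `T`
have exponent `2`.  Their intersection `W` is central in the preimage `Q = S₂ S₁` of `T`, and the commutator
of `Q` is generated by the four involutions `[x_i, y_j]`.  So `|Q'| ≤ 16`, while `Q'` maps onto `Z(T)`, of order `4`.
Finally `A ≤ Q'` by transfer, since `T` has odd index.
-/

set_option autoImplicit false

namespace Cfsg.Agent.Lib.ThreeT.L34Cover

open scoped commutatorElement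

section pure

variable {G : Type*} [Group G]

/-- Three transvections: if all lifts of the seven generic products square to the central `c`, then `c = 1`. -/
theorem c_eq_one_of_triple {x y z c : G} (hc : c ∈ Subgroup.center G) (hc2 : c * c = 1)
    (hxy : ⁅x, y⁆ ∈ Subgroup.center G) (hxz : ⁅x, z⁆ ∈ Subgroup.center G) (hyz : ⁅y, z⁆ ∈ Subgroup.center G)
    (hx : x * x = c) (hy : y * y = c) (hz : z * z = c)
    (hxy2 : (x * y) * (x * y) = c) (hxz2 : (x * z) * (x * z) = c) (hyz2 : (y * z) * (y * z) = c)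
    (hxyz : (x * y * z) * (x * y * z) = c) : c = 1 := by
  have key : ∀ {p q : G}, ⁅p, q⁆ ∈ Subgroup.center G → p * p = c → q * q = c → (p * q) * (p * q) = c →
      p * q = c * (q * p) := by
    intro p q hpq hp hq hpq2
    -- `p q p q = ⁅p, q⁆ q p p q` and `c` is central
    have h1 : p * q = ⁅p, q⁆ * (q * p) := by simp [commutatorElement_def, mul_assoc]
    have hcc : ∀ g : G, c * g = g * c := fun g => (Subgroup.mem_center_iff.1 hc g).symm
    have hdd : ∀ g : G, ⁅p, q⁆ * g = g * ⁅p, q⁆ := fun g => (Subgroup.mem_center_iff.1 hpq g).symm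
    have h2 : (p * q) * (p * q) = ⁅p, q⁆ * c * c := by
      calc (p * q) * (p * q) = (⁅p, q⁆ * (q * p)) * (p * q) := by rw [← h1]
        _ = ⁅p, q⁆ * (q * (p * p) * q) := by simp only [mul_assoc]
        _ = ⁅p, q⁆ * (q * c * q) := by rw [hp]
        _ = ⁅p, q⁆ * (c * (q * q)) := by rw [← hcc q]; simp only [mul_assoc]
        _ = ⁅p, q⁆ * c * c := by rw [hq]; simp only [mul_assoc]
    have h3 : ⁅p, q⁆ = c := by
      have : ⁅p, q⁆ * (c * c) = c := by rw [← mul_assoc, ← h2, hpq2]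
      rwa [hc2, mul_one] at this
    rw [← h3]; exact h1
  have e1 := key hxy hx hy hxy2
  have e2 := key hxz hx hz hxz2
  have e3 := key hyz hy hz hyz2
  have hcc : ∀ g : G, c * g = g * c := fun g => (Subgroup.mem_center_iff.1 hc g).symm
  -- `x y z x y z`
  have h : (x * y * z) * (x * y * z) = c := hxyz
  have h2 : (x * y * z) * (x * y * z) = (x * y) * (x * y) * (z * z) * (c * c) := by
    -- move `z` to the right past `x`, `y`
    have zx : z * x = c⁻¹ * (x * z) := by rw [e2, ← mul_assoc, inv_mul_cancel, one_mul]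
    have zy : z * y = c⁻¹ * (y * z) := by rw [e3, ← mul_assoc, inv_mul_cancel, one_mul]
    have hci : c⁻¹ = c := by rw [inv_eq_iff_mul_eq_one]; exact hc2
    rw [hci] at zx zy
    calc (x * y * z) * (x * y * z) = x * y * (z * x) * y * z := by simp only [mul_assoc]
      _ = x * y * (c * (x * z)) * y * z := by rw [zx]
      _ = c * (x * y * x * (z * y) * z) := by
          rw [show x * y * (c * (x * z)) = (x * y) * c * (x * z) by simp only [mul_assoc], ← hcc (x * y)]
          simp only [mul_assoc]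
      _ = c * (x * y * x * (c * (y * z)) * z) := by rw [zy]
      _ = c * (c * (x * y * x * y * z * z)) := by
          congr 1
          rw [show x * y * x * (c * (y * z)) = (x * y * x) * c * (y * z) by simp only [mul_assoc], ← hcc (x * y * x)]
          simp only [mul_assoc]
      _ = (x * y) * (x * y) * (z * z) * (c * c) := by
          rw [← mul_assoc c c, hc2, one_mul, mul_one]; simp only [mul_assoc]
  rw [h2, hxy2, hz, hc2, mul_one] at h
  exact h.symm

theorem comm_of_sq {x y : G} (hx : x * x = 1) (hy : y * y = 1) (hxy : (x * y) * (x * y) = 1) : x * y = y * x := by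
  have hxi : x⁻¹ = x := inv_eq_of_mul_eq_one_left hx
  have hyi : y⁻¹ = y := inv_eq_of_mul_eq_one_left hy
  have := inv_eq_of_mul_eq_one_left hxy
  rw [mul_inv_rev, hxi, hyi] at this
  exact this.symm

/-- Generators with commutators in `C`, all commutators central: all commutators lie in `C`. -/
theorem commutator_mem_of_gens {X : Set G} {C : Subgroup G} (hX : ∀ x ∈ X, ∀ y ∈ X, ⁅x, y⁆ ∈ C)
    (hcen : ∀ g ∈ Subgroup.closure X, ∀ h ∈ Subgroup.closure X, ∀ k ∈ Subgroup.closure X, ⁅g, h⁆ * k = k * ⁅g, h⁆) :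
    ∀ g ∈ Subgroup.closure X, ∀ h ∈ Subgroup.closure X, ⁅g, h⁆ ∈ C := by
  have step1 : ∀ g ∈ X, ∀ h ∈ Subgroup.closure X, ⁅g, h⁆ ∈ C := by
    intro g hg h hh
    have hg' := Subgroup.subset_closure hg
    induction hh using Subgroup.closure_induction with
    | mem x hx => exact hX g hg x hx
    | one => simp
    | mul a b ha hb ia ib =>
        have h1 := hcen g hg' b hb a ha
        have h2 : ⁅g, a * b⁆ = ⁅g, a⁆ * (a * ⁅g, b⁆ * a⁻¹) := by
          simp only [commutatorElement_def]; group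
        have h3 : a * ⁅g, b⁆ * a⁻¹ = ⁅g, b⁆ := by rw [← h1, mul_inv_cancel_right]
        rw [h2, h3]; exact C.mul_mem ia ib
    | inv a ha ia =>
        have h1 := hcen g hg' a⁻¹ (Subgroup.inv_mem _ ha) a ha
        have h2 : a * ⁅g, a⁻¹⁆ * a⁻¹ = ⁅g, a⁆⁻¹ := by
          simp only [commutatorElement_def]; group
        have h3 : ⁅g, a⁻¹⁆ = ⁅g, a⁆⁻¹ := by rw [← h2, ← h1, mul_inv_cancel_right]
        rw [h3]; exact C.inv_mem ia
  intro g hg h hh
  induction hg using Subgroup.closure_induction with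
  | mem x hx => exact step1 x hx h hh
  | one => simp
  | mul a b ha hb ia ib =>
      have h1 := hcen b hb h hh a ha
      have h2 : ⁅a * b, h⁆ = (a * ⁅b, h⁆ * a⁻¹) * ⁅a, h⁆ := by
        simp only [commutatorElement_def]; group
      have h3 : a * ⁅b, h⁆ * a⁻¹ = ⁅b, h⁆ := by rw [← h1, mul_inv_cancel_right]
      rw [h2, h3]; exact C.mul_mem ib ia
  | inv a ha ia =>
      have h1 := hcen a ha h hh a ha
      have h2 : ⁅a⁻¹, h⁆ = a⁻¹ * ⁅a, h⁆⁻¹ * a := by
        simp only [commutatorElement_def]; group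
      have h3 : a⁻¹ * ⁅a, h⁆⁻¹ * a = ⁅a, h⁆⁻¹ := by
        have h4 : ⁅a, h⁆⁻¹ * a = a * ⁅a, h⁆⁻¹ := (Commute.inv_left (show Commute ⁅a, h⁆ a from h1)).eq
        rw [mul_assoc, h4, inv_mul_cancel_left]
      rw [h2, h3]; exact C.inv_mem ia

/-- One more commuting involution at most doubles a subgroup of an exponent two group. -/
theorem card_closure_insert_le [Finite G] (B : Subgroup G) (hB : ∀ g ∈ B, g * g = 1) (H : Subgroup G) (hHB : H ≤ B)
    {c : G} (hc : c ∈ B) :
    Subgroup.closure (insert c (H : Set G)) ≤ B ∧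
      Nat.card (Subgroup.closure (insert c (H : Set G))) ≤ 2 * Nat.card H := by
  classical
  have hcomm : ∀ x ∈ B, ∀ y ∈ B, x * y = y * x := fun x hx y hy =>
    comm_of_sq (hB x hx) (hB y hy) (hB _ (B.mul_mem hx hy))
  have hcc : c * c = 1 := hB c hc
  let K : Subgroup G :=
    { carrier := {g | g ∈ B ∧ (g ∈ H ∨ c * g ∈ H)}
      one_mem' := ⟨B.one_mem, Or.inl H.one_mem⟩
      inv_mem' := by
        rintro g ⟨hg, h | h⟩
        · exact ⟨B.inv_mem hg, Or.inl (H.inv_mem h)⟩
        · refine ⟨B.inv_mem hg, Or.inr ?_⟩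
          have h1 : (c * g)⁻¹ = c * g⁻¹ := by
            rw [mul_inv_rev, inv_eq_of_mul_eq_one_left hcc, hcomm _ (B.inv_mem hg) _ hc]
          rw [← h1]; exact H.inv_mem h
      mul_mem' := by
        rintro g g' ⟨hg, h⟩ ⟨hg', h'⟩
        refine ⟨B.mul_mem hg hg', ?_⟩
        rcases h with h | h <;> rcases h' with h' | h'
        · exact Or.inl (H.mul_mem h h')
        · refine Or.inr ?_
          have : c * (g * g') = g * (c * g') := by
            rw [← mul_assoc, ← mul_assoc, hcomm c hc g hg]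
          rw [this]; exact H.mul_mem h h'
        · exact Or.inr (by rw [← mul_assoc]; exact H.mul_mem h h')
        · refine Or.inl ?_
          have h3 := H.mul_mem h h'
          have : c * g * (c * g') = g * g' := by
            calc c * g * (c * g') = (c * c) * (g * g') := by
                  rw [mul_assoc c g, ← mul_assoc g c, hcomm g hg c hc]; simp only [mul_assoc]
              _ = g * g' := by rw [hcc, one_mul]
          rwa [this] at h3 }
  have hle : Subgroup.closure (insert c (H : Set G)) ≤ K := by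
    rw [Subgroup.closure_le]
    rintro g (rfl | hg)
    · exact ⟨hc, Or.inr (by rw [hcc]; exact H.one_mem)⟩
    · exact ⟨hHB hg, Or.inl hg⟩
  refine ⟨hle.trans fun g hg => hg.1, ?_⟩
  have h1 : Nat.card (Subgroup.closure (insert c (H : Set G))) ≤ Nat.card K := Subgroup.card_le_of_le hle
  refine h1.trans ?_
  -- injection `K → H × Bool`
  let f : K → Bool × H := fun g =>
    if h : (g : G) ∈ H then (true, ⟨g, h⟩) else
      (false, ⟨c * g, (g.2.2.resolve_left h)⟩)
  have hf : Function.Injective f := by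
    intro a b hab
    simp only [f] at hab
    by_cases ha : (a : G) ∈ H <;> by_cases hb : (b : G) ∈ H
    · simp only [ha, hb, dif_pos, Prod.mk.injEq, true_and] at hab
      exact Subtype.ext (Subtype.mk.inj hab)
    · simp [ha, hb] at hab
    · simp [ha, hb] at hab
    · simp only [ha, hb, dif_neg, not_false_eq_true, Prod.mk.injEq, true_and] at hab
      exact Subtype.ext (mul_left_cancel (Subtype.mk.inj hab))
  have h2 := Nat.card_le_card_of_injective f hf
  simpa [Nat.card_prod] using h2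

end pure

section model

variable {F : Type*} [Field F]

/-- Upper unitriangular matrices. -/
def U (a b c : F) : Matrix.SpecialLinearGroup (Fin 3) F :=
  ⟨!![1, a, b; 0, 1, c; 0, 0, 1], by simp [Matrix.det_fin_three]⟩

theorem U_mul (a b c a' b' c' : F) : U a b c * U a' b' c' = U (a + a') (b + b' + a * c') (c + c') := by
  apply Subtype.ext
  rw [Matrix.SpecialLinearGroup.coe_mul]
  ext i j
  fin_cases i <;> fin_cases j <;> simp [U, Matrix.mul_apply, Fin.sum_univ_three] <;> ring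

theorem U_zero : U (0 : F) 0 0 = 1 := by
  apply Subtype.ext
  ext i j
  fin_cases i <;> fin_cases j <;> simp [U]

/-- The projective group. -/
abbrev PP (F : Type*) [Field F] := Matrix.ProjectiveSpecialLinearGroup (Fin 3) F

/-- Unitriangular elements of the projective group. -/
def u (a b c : F) : PP F := (QuotientGroup.mk (U a b c) : PP F)

theorem u_mul (a b c a' b' c' : F) : u a b c * u a' b' c' = u (a + a') (b + b' + a * c') (c + c') := by
  simp only [u, ← QuotientGroup.mk_mul, U_mul]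

theorem u_zero : u (0 : F) 0 0 = 1 := by
  simp only [u, U_zero]; rfl

theorem u_inv (a b c : F) : (u a b c)⁻¹ = u (-a) (a * c - b) (-c) := by
  apply inv_eq_of_mul_eq_one_right
  rw [u_mul, ← u_zero (F := F)]
  congr 1 <;> ring

theorem U_central {a b c : F} (h : U a b c ∈ Subgroup.center (Matrix.SpecialLinearGroup (Fin 3) F)) :
    a = 0 ∧ b = 0 ∧ c = 0 := by
  obtain ⟨r, -, hr⟩ := Matrix.SpecialLinearGroup.mem_center_iff.1 h
  have h01 := congrFun (congrFun hr 0) 1
  have h02 := congrFun (congrFun hr 0) 2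
  have h12 := congrFun (congrFun hr 1) 2
  simp [U, Matrix.scalar_apply] at h01 h02 h12
  exact ⟨h01.symm, h02.symm, h12.symm⟩

theorem u_eq_one {a b c : F} (h : u a b c = 1) : a = 0 ∧ b = 0 ∧ c = 0 :=
  U_central ((QuotientGroup.eq_one_iff _).1 h)

theorem u_inj {a b c a' b' c' : F} (h : u a b c = u a' b' c') : a = a' ∧ b = b' ∧ c = c' := by
  have h1 : u (-a + a') (a * c - b + b' + -a * c') (-c + c') = 1 := by
    rw [← u_mul, ← u_inv, h, inv_mul_cancel]
  obtain ⟨h2, h3, h4⟩ := u_eq_one h1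
  have e1 : a = a' := by linear_combination -h2
  have e3 : c = c' := by linear_combination -h4
  refine ⟨e1, ?_, e3⟩
  subst e1 e3
  linear_combination -h3

theorem comm_u (a b c a' b' c' : F) : ⁅u a b c, u a' b' c'⁆ = u 0 (a * c' - a' * c) 0 := by
  rw [commutatorElement_def]
  have h1 : u a b c * u a' b' c' = u 0 (a * c' - a' * c) 0 * (u a' b' c' * u a b c) := by
    simp only [u_mul]
    congr 1 <;> ring
  rw [h1]
  group

theorem conj_of_SL {g x y : Matrix.SpecialLinearGroup (Fin 3) F} (h : g.1 * x.1 = y.1 * g.1) :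
    (QuotientGroup.mk g : PP F) * (QuotientGroup.mk x : PP F) * (QuotientGroup.mk g : PP F)⁻¹ =
      (QuotientGroup.mk y : PP F) := by
  have h' : g * x = y * g := Subtype.ext h
  rw [mul_inv_eq_iff_eq_mul, ← QuotientGroup.mk_mul, ← QuotientGroup.mk_mul, h']

/-- The transvections `u 0 b c` are conjugate. -/
theorem conj_E1 {b c : F} (h : b ≠ 0 ∨ c ≠ 0) : ∃ g : PP F, g * u 0 1 0 * g⁻¹ = u 0 b c := by
  by_cases hb : b = 0
  · have hc : c ≠ 0 := h.resolve_left (by simpa using hb)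
    subst hb
    refine ⟨(QuotientGroup.mk (⟨!![0, -c⁻¹, 0; c, 0, 0; 0, 0, 1], by simp [Matrix.det_fin_three, hc]⟩ :
      Matrix.SpecialLinearGroup (Fin 3) F) : PP F), conj_of_SL ?_⟩
    ext i j
    fin_cases i <;> fin_cases j <;> simp [U, Matrix.mul_apply, Fin.sum_univ_three]
  · refine ⟨(QuotientGroup.mk (⟨!![b, 0, 0; c, b⁻¹, 0; 0, 0, 1], by simp [Matrix.det_fin_three, hb]⟩ :
      Matrix.SpecialLinearGroup (Fin 3) F) : PP F), conj_of_SL ?_⟩
    ext i j
    fin_cases i <;> fin_cases j <;> simp [U, Matrix.mul_apply, Fin.sum_univ_three]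

/-- The transvections `u a b 0` are conjugate. -/
theorem conj_E2 {a b : F} (h : a ≠ 0 ∨ b ≠ 0) : ∃ g : PP F, g * u 0 1 0 * g⁻¹ = u a b 0 := by
  by_cases hb : b = 0
  · have hc : a ≠ 0 := h.resolve_right (by simpa using hb)
    subst hb
    refine ⟨(QuotientGroup.mk (⟨!![1, 0, 0; 0, 0, a⁻¹; 0, -a, 0], by simp [Matrix.det_fin_three, hc]⟩ :
      Matrix.SpecialLinearGroup (Fin 3) F) : PP F), conj_of_SL ?_⟩
    ext i j
    fin_cases i <;> fin_cases j <;> simp [U, Matrix.mul_apply, Fin.sum_univ_three, hc]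
  · refine ⟨(QuotientGroup.mk (⟨!![1, 0, 0; 0, b, 0; 0, -a, b⁻¹], by simp [Matrix.det_fin_three, hb]⟩ :
      Matrix.SpecialLinearGroup (Fin 3) F) : PP F), conj_of_SL ?_⟩
    ext i j
    fin_cases i <;> fin_cases j <;> simp [U, Matrix.mul_apply, Fin.sum_univ_three, hb]
    all_goals ring

end model

section cover

variable {F : Type*} [Field F] {Γ : Type*} [Group Γ]

/-- A central extension by an exponent two group. -/
structure Cov (π : Γ →* PP F) : Prop where
  surj : Function.Surjective π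
  cen : ∀ a, π a = 1 → a ∈ Subgroup.center Γ
  ex : ∀ a, π a = 1 → a * a = 1

variable {π : Γ →* PP F}

theorem Cov.sq_eq (h : Cov π) {x₀ x : Γ} {g : PP F} (h0 : π x₀ * π x₀ = 1) (hx : g * π x₀ * g⁻¹ = π x) :
    x * x = x₀ * x₀ := by
  obtain ⟨g', rfl⟩ := h.surj g
  set y := g' * x₀ * g'⁻¹ with hy
  have hπ : π (x * y⁻¹) = 1 := by
    rw [map_mul, map_inv, hy, map_mul, map_mul, map_inv, hx, mul_inv_cancel]
  have ha := h.cen _ hπ
  have ha2 := h.ex _ hπ
  have hx0 : x₀ * x₀ ∈ Subgroup.center Γ := h.cen _ (by rw [map_mul]; exact h0)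
  have e : x = (x * y⁻¹) * y := (inv_mul_cancel_right x y).symm
  generalize x * y⁻¹ = a at hπ ha ha2 e
  subst e
  have hc : y * a = a * y := Subgroup.mem_center_iff.1 ha y
  have h1 : (a * y) * (a * y) = y * y := by
    calc (a * y) * (a * y) = a * (y * a) * y := by simp only [mul_assoc]
      _ = (a * a) * (y * y) := by rw [hc]; simp only [mul_assoc]
      _ = y * y := by rw [ha2, one_mul]
  rw [h1, hy]
  have h2 : g' * (x₀ * x₀) = (x₀ * x₀) * g' := Subgroup.mem_center_iff.1 hx0 g'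
  calc g' * x₀ * g'⁻¹ * (g' * x₀ * g'⁻¹) = g' * (x₀ * x₀) * g'⁻¹ := by group
    _ = x₀ * x₀ := by rw [h2, mul_inv_cancel_right]

/-- All lifts of the relevant transvections are involutions. -/
theorem Cov.sq_E (h : Cov π) (h2 : (2 : F) = 0) {ω : F} (h0 : ω ≠ 0) (h1 : ω ≠ 1) :
    (∀ x b c, π x = u 0 b c → x * x = 1) ∧ (∀ x a b, π x = u a b 0 → x * x = 1) := by
  obtain ⟨x, hx⟩ := h.surj (u 0 1 0)
  obtain ⟨y, hy⟩ := h.surj (u 0 ω 0)
  obtain ⟨z, hz⟩ := h.surj (u 0 0 1)
  have hone : (1 : F) + 1 = 0 := by rw [← h2]; norm_num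
  have hxx : π x * π x = 1 := by
    rw [hx, u_mul, ← u_zero (F := F)]
    congr 1
    · ring
    · linear_combination hone
    · ring
  have hcc : π (x * x) = 1 := by rw [map_mul]; exact hxx
  have hc := h.cen _ hcc
  have hc2 := h.ex _ hcc
  have sq1 : ∀ w b c, (b ≠ 0 ∨ c ≠ 0) → π w = u 0 b c → w * w = x * x := by
    intro w b c hbc hw
    obtain ⟨g, hg⟩ := conj_E1 hbc
    exact h.sq_eq hxx (by rw [hx, hw]; exact hg)
  have sq2 : ∀ w a b, (a ≠ 0 ∨ b ≠ 0) → π w = u a b 0 → w * w = x * x := by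
    intro w a b hbc hw
    obtain ⟨g, hg⟩ := conj_E2 hbc
    exact h.sq_eq hxx (by rw [hx, hw]; exact hg)
  have comm : ∀ p q : Γ, ∀ b c b' c' : F, π p = u 0 b c → π q = u 0 b' c' → ⁅p, q⁆ ∈ Subgroup.center Γ := by
    intro p q b c b' c' hp hq
    apply h.cen
    rw [map_commutatorElement, hp, hq, comm_u, ← u_zero (F := F)]
    congr 1
    ring
  have h1w : (1 : F) + ω ≠ 0 := by
    intro e
    apply h1
    linear_combination e - hone
  have hxy := comm x y _ _ _ _ hx hy
  have hxz := comm x z _ _ _ _ hx hz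
  have hyz := comm y z _ _ _ _ hy hz
  have hc1 : x * x = 1 := by
    refine c_eq_one_of_triple hc hc2 hxy hxz hyz rfl ?_ ?_ ?_ ?_ ?_ ?_
    · exact sq1 y ω 0 (Or.inl h0) hy
    · exact sq1 z 0 1 (Or.inr one_ne_zero) hz
    · refine sq1 _ (1 + ω) 0 (Or.inl h1w) ?_
      rw [map_mul, hx, hy, u_mul]; congr 1 <;> ring
    · refine sq1 _ 1 1 (Or.inl one_ne_zero) ?_
      rw [map_mul, hx, hz, u_mul]; congr 1 <;> ring
    · refine sq1 _ ω 1 (Or.inl h0) ?_
      rw [map_mul, hy, hz, u_mul]; congr 1 <;> ring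
    · refine sq1 _ (1 + ω) 1 (Or.inl h1w) ?_
      rw [map_mul, map_mul, hx, hy, hz, u_mul, u_mul]; congr 1 <;> ring
  refine ⟨?_, ?_⟩
  · intro w b c hw
    by_cases hbc : b ≠ 0 ∨ c ≠ 0
    · rw [sq1 w b c hbc hw, hc1]
    · push Not at hbc
      apply h.ex
      rw [hw, hbc.1, hbc.2, u_zero]
  · intro w a b hw
    by_cases hbc : a ≠ 0 ∨ b ≠ 0
    · rw [sq2 w a b hbc hw, hc1]
    · push Not at hbc
      apply h.ex
      rw [hw, hbc.1, hbc.2, u_zero]

theorem Cov.comm_E1 (h : Cov π) (h2 : (2 : F) = 0) {ω : F} (h0 : ω ≠ 0) (h1 : ω ≠ 1) {p q : Γ} {b c b' c' : F}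
    (hp : π p = u 0 b c) (hq : π q = u 0 b' c') : p * q = q * p := by
  have hs := (h.sq_E h2 h0 h1).1
  refine comm_of_sq (hs _ _ _ hp) (hs _ _ _ hq) (hs _ (b + b') (c + c') ?_)
  rw [map_mul, hp, hq, u_mul]; congr 1 <;> ring

theorem Cov.comm_E2 (h : Cov π) (h2 : (2 : F) = 0) {ω : F} (h0 : ω ≠ 0) (h1 : ω ≠ 1) {p q : Γ} {a b a' b' : F}
    (hp : π p = u a b 0) (hq : π q = u a' b' 0) : p * q = q * p := by
  have hs := (h.sq_E h2 h0 h1).2
  refine comm_of_sq (hs _ _ _ hp) (hs _ _ _ hq) (hs _ (a + a') (b + b') ?_)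
  rw [map_mul, hp, hq, u_mul]; congr 1 <;> ring

/-- The preimage of the centre of the unitriangular group is central in the preimage of that group. -/
theorem Cov.comm_W_Q (h : Cov π) (h2 : (2 : F) = 0) {ω : F} (h0 : ω ≠ 0) (h1 : ω ≠ 1) {w g : Γ} {t a b c : F}
    (hw : π w = u 0 t 0) (hg : π g = u a b c) : w * g = g * w := by
  obtain ⟨x, hx⟩ := h.surj (u a 0 0)
  have hy : π (x⁻¹ * g) = u 0 (b - a * c) c := by
    rw [map_mul, map_inv, hx, hg, u_inv, u_mul]; congr 1 <;> ring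
  have e1 : w * x = x * w := h.comm_E2 h2 h0 h1 hw hx
  have e2 : w * (x⁻¹ * g) = (x⁻¹ * g) * w := h.comm_E1 h2 h0 h1 hw hy
  calc w * g = w * (x * (x⁻¹ * g)) := by rw [mul_inv_cancel_left]
    _ = x * (w * (x⁻¹ * g)) := by rw [← mul_assoc, e1, mul_assoc]
    _ = x * ((x⁻¹ * g) * w) := by rw [e2]
    _ = g * w := by rw [← mul_assoc, mul_inv_cancel_left]

end cover

section index

variable (F : Type*) [Field F]

/-- The unitriangular group in the projective group. -/
def T : Subgroup (PP F) where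
  carrier := {v | ∃ a b c, v = u a b c}
  mul_mem' := by
    rintro _ _ ⟨a, b, c, rfl⟩ ⟨a', b', c', rfl⟩
    exact ⟨_, _, _, u_mul _ _ _ _ _ _⟩
  one_mem' := ⟨0, 0, 0, u_zero.symm⟩
  inv_mem' := by
    rintro _ ⟨a, b, c, rfl⟩
    exact ⟨_, _, _, u_inv _ _ _⟩

/-- The centre of the unitriangular group. -/
def ZT : Subgroup (PP F) where
  carrier := {v | ∃ t, v = u 0 t 0}
  mul_mem' := by
    rintro _ _ ⟨t, rfl⟩ ⟨t', rfl⟩
    refine ⟨t + t', ?_⟩
    rw [u_mul]; congr 1 <;> ring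
  one_mem' := ⟨0, u_zero.symm⟩
  inv_mem' := by
    rintro _ ⟨t, rfl⟩
    refine ⟨-t, ?_⟩
    rw [u_inv]; congr 1 <;> ring

variable {F}

theorem T_card [Fintype F] (hF : Fintype.card F = 4) : Nat.card (T F) = 64 := by
  let f : F × F × F → T F := fun p => ⟨u p.1 p.2.1 p.2.2, _, _, _, rfl⟩
  have hf : Function.Bijective f := by
    constructor
    · rintro ⟨a, b, c⟩ ⟨a', b', c'⟩ e
      obtain ⟨h1, h2, h3⟩ := u_inj (Subtype.mk.inj e)
      exact Prod.ext h1 (Prod.ext h2 h3)
    · rintro ⟨_, a, b, c, rfl⟩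
      exact ⟨(a, b, c), rfl⟩
  rw [← Nat.card_congr (Equiv.ofBijective f hf)]
  simp [Nat.card_prod, Nat.card_eq_fintype_card, hF]

theorem T_index_odd [Fintype F] (hF : Fintype.card F = 4) : Odd (T F).index := by
  have h1 := Cfsg.Agent.Lib.Classical.card_SL (F := F) hF 3 (by norm_num)
  have h3 : (∏ i : Fin 3, (4 ^ 3 - 4 ^ (i : ℕ))) = 181440 := by decide
  rw [h3] at h1
  have h4 : Nat.card (Matrix.SpecialLinearGroup (Fin 3) F) = 60480 := by omega
  have h5 := Subgroup.card_eq_card_quotient_mul_card_subgroup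
    (Subgroup.center (Matrix.SpecialLinearGroup (Fin 3) F))
  have h6 := (T F).card_mul_index
  rw [T_card hF] at h6
  rw [h4] at h5
  change 60480 = Nat.card (PP F) * _ at h5
  rw [← h6] at h5
  generalize Nat.card (Subgroup.center (Matrix.SpecialLinearGroup (Fin 3) F)) = z at h5
  generalize (T F).index = i at h5 ⊢
  have h7 : i * z = 945 := by nlinarith
  have h8 : Odd (i * z) := by rw [h7]; decide
  exact (Nat.odd_mul.1 h8).1

end index

section transfer

variable {Γ : Type*} [Group Γ] [Finite Γ]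

/-- Transfer to a subgroup of odd index. -/
theorem mem_commutator_of_odd (Q : Subgroup Γ) (hodd : Odd Q.index) {a : Γ} (hc : a ∈ Subgroup.center Γ)
    (hd : a ∈ commutator Γ) (ha2 : a * a = 1) (haQ : a ∈ Q) : (⟨a, haQ⟩ : Q) ∈ commutator Q := by
  classical
  haveI : Q.FiniteIndex := Subgroup.finiteIndex_of_finite
  set φ : Q →* Abelianization Q := Abelianization.of with hφ
  have h1 : MonoidHom.transfer φ a = 1 :=
    (Abelianization.commutator_subset_ker (MonoidHom.transfer φ)) hd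
  have h3 : MonoidHom.transfer φ a = φ ⟨a, haQ⟩ ^ Q.index :=
    Cfsg.Agent.Lib.Transfer.transfer_eq_pow_of_central φ ⟨a, haQ⟩ hc
  rw [h3, ← map_pow] at h1
  have h4 : (⟨a, haQ⟩ : Q) ^ Q.index ∈ commutator Q := (QuotientGroup.eq_one_iff _).1 h1
  obtain ⟨k, hk⟩ := hodd
  have h5 : (⟨a, haQ⟩ : Q) ^ Q.index = ⟨a, haQ⟩ := by
    rw [hk, pow_succ, pow_mul, pow_two]
    have : (⟨a, haQ⟩ : Q) * ⟨a, haQ⟩ = 1 := Subtype.ext ha2
    rw [this, one_pow, one_mul]
  rwa [h5] at h4

end transfer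

section main

variable {F : Type*} [Field F] {Γ : Type*} [Group Γ] [Finite Γ] {π : Γ →* PP F}

/-- **The bound.**  A perfect central extension of `L₃(4)` by an exponent two group has kernel of order at most `4`. -/
theorem card_ker_le_four [Fintype F] (hF : Fintype.card F = 4) (h : Cov π) (hp : commutator Γ = ⊤) :
    Nat.card π.ker ≤ 4 := by
  classical
  have h2 : (2 : F) = 0 := by
    have h4 : ((Fintype.card F : ℕ) : F) = 0 := FiniteField.cast_card_eq_zero F
    rw [hF] at h4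
    have h5 : (2 : F) * 2 = 0 := by
      have : ((4 : ℕ) : F) = 2 * 2 := by norm_num
      rw [← this]; exact h4
    simpa using h5
  have hone : (1 : F) + 1 = 0 := by rw [← h2]; norm_num
  obtain ⟨ω, h0, h1⟩ : ∃ ω : F, ω ≠ 0 ∧ ω ≠ 1 := by
    by_contra hc
    push Not at hc
    have : (Finset.univ : Finset F) ⊆ {0, 1} := by
      intro a _
      by_cases ha : a = 0
      · simp [ha]
      · simp [hc a ha]
    have h3 := Finset.card_le_card this
    rw [Finset.card_univ, hF] at h3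
    have h4 : ({0, 1} : Finset F).card ≤ 2 := Finset.card_le_two
    omega
  have h1w : (1 : F) + ω ≠ 0 := by
    intro e
    apply h1
    linear_combination e - hone
  have hall : ∀ a : F, a = 0 ∨ a = 1 ∨ a = ω ∨ a = 1 + ω := by
    have hc : ({0, 1, ω, 1 + ω} : Finset F).card = 4 := by
      rw [Finset.card_insert_of_notMem, Finset.card_insert_of_notMem, Finset.card_insert_of_notMem,
        Finset.card_singleton]
      · simp only [Finset.mem_singleton]
        intro e
        have : (1 : F) = 0 := by linear_combination -e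
        exact one_ne_zero this
      · simp only [Finset.mem_insert, Finset.mem_singleton, not_or]
        refine ⟨fun e => h1 e.symm, fun e => h0 (by linear_combination -e)⟩
      · simp only [Finset.mem_insert, Finset.mem_singleton, not_or]
        exact ⟨zero_ne_one, h0.symm, h1w.symm⟩
    have hu : ({0, 1, ω, 1 + ω} : Finset F) = Finset.univ :=
      Finset.eq_univ_of_card _ (by rw [hc, hF])
    intro a
    have : a ∈ ({0, 1, ω, 1 + ω} : Finset F) := by rw [hu]; exact Finset.mem_univ a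
    simpa using this
  -- lifts
  obtain ⟨x₁, hx₁⟩ := h.surj (u 1 0 0)
  obtain ⟨x₂, hx₂⟩ := h.surj (u ω 0 0)
  obtain ⟨y₁, hy₁⟩ := h.surj (u 0 0 1)
  obtain ⟨y₂, hy₂⟩ := h.surj (u 0 0 ω)
  -- the exponent two subgroup `W`
  set W : Subgroup Γ := (ZT F).comap π with hW
  have hWmem : ∀ w, w ∈ W ↔ ∃ t, π w = u 0 t 0 := fun w => Iff.rfl
  have hWex : ∀ w ∈ W, w * w = 1 := by
    intro w hw
    obtain ⟨t, ht⟩ := (hWmem w).1 hw
    exact (h.sq_E h2 h0 h1).1 w t 0 ht
  -- commutators are in `W`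
  have hcW : ∀ p q : Γ, ∀ a b c a' b' c' : F, π p = u a b c → π q = u a' b' c' → ⁅p, q⁆ ∈ W := by
    intro p q a b c a' b' c' hp hq
    rw [hWmem]
    exact ⟨_, by rw [map_commutatorElement, hp, hq, comm_u]⟩
  have c11 := hcW x₁ y₁ _ _ _ _ _ _ hx₁ hy₁
  have c12 := hcW x₁ y₂ _ _ _ _ _ _ hx₁ hy₂
  have c21 := hcW x₂ y₁ _ _ _ _ _ _ hx₂ hy₁
  have c22 := hcW x₂ y₂ _ _ _ _ _ _ hx₂ hy₂
  -- the subgroup `C`
  obtain ⟨H1, hH1W, hH1c, hc1⟩ : ∃ H : Subgroup Γ, H ≤ W ∧ Nat.card H ≤ 2 ∧ ⁅x₁, y₁⁆ ∈ H := by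
    have := card_closure_insert_le W hWex ⊥ bot_le c11
    refine ⟨_, this.1, ?_, Subgroup.subset_closure (Set.mem_insert _ _)⟩
    simpa using this.2
  obtain ⟨H2, hH2W, hH2c, hc2, hle2⟩ : ∃ H : Subgroup Γ, H ≤ W ∧ Nat.card H ≤ 4 ∧ ⁅x₁, y₂⁆ ∈ H ∧ H1 ≤ H := by
    have := card_closure_insert_le W hWex H1 hH1W c12
    refine ⟨_, this.1, by omega, Subgroup.subset_closure (Set.mem_insert _ _), ?_⟩
    exact fun g hg => Subgroup.subset_closure (Set.mem_insert_of_mem _ hg)
  obtain ⟨H3, hH3W, hH3c, hc3, hle3⟩ : ∃ H : Subgroup Γ, H ≤ W ∧ Nat.card H ≤ 8 ∧ ⁅x₂, y₁⁆ ∈ H ∧ H2 ≤ H := by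
    have := card_closure_insert_le W hWex H2 hH2W c21
    refine ⟨_, this.1, by omega, Subgroup.subset_closure (Set.mem_insert _ _), ?_⟩
    exact fun g hg => Subgroup.subset_closure (Set.mem_insert_of_mem _ hg)
  obtain ⟨C, hCW, hCc, hc4, hle4⟩ : ∃ H : Subgroup Γ, H ≤ W ∧ Nat.card H ≤ 16 ∧ ⁅x₂, y₂⁆ ∈ H ∧ H3 ≤ H := by
    have := card_closure_insert_le W hWex H3 hH3W c22
    refine ⟨_, this.1, by omega, Subgroup.subset_closure (Set.mem_insert _ _), ?_⟩
    exact fun g hg => Subgroup.subset_closure (Set.mem_insert_of_mem _ hg)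
  have m11 : ⁅x₁, y₁⁆ ∈ C := hle4 (hle3 (hle2 hc1))
  have m12 : ⁅x₁, y₂⁆ ∈ C := hle4 (hle3 hc2)
  have m21 : ⁅x₂, y₁⁆ ∈ C := hle4 hc3
  have m22 : ⁅x₂, y₂⁆ ∈ C := hc4
  -- the generators of `Q`
  set Q : Subgroup Γ := (T F).comap π with hQ
  have hQmem : ∀ g, g ∈ Q ↔ ∃ a b c, π g = u a b c := fun g => Iff.rfl
  set X : Set Γ := ({x₁, x₂, y₁, y₂} : Set Γ) ∪ {w | ∃ t, π w = u 0 t 0} with hX
  have hXQ : Subgroup.closure X ≤ Q := by
    rw [Subgroup.closure_le]
    rintro g (hg | ⟨t, ht⟩)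
    · simp only [Set.mem_insert_iff, Set.mem_singleton_iff] at hg
      rcases hg with rfl | rfl | rfl | rfl
      · exact ⟨_, _, _, hx₁⟩
      · exact ⟨_, _, _, hx₂⟩
      · exact ⟨_, _, _, hy₁⟩
      · exact ⟨_, _, _, hy₂⟩
    · exact ⟨_, _, _, ht⟩
  have memX : ∀ g ∈ ({x₁, x₂, y₁, y₂} : Set Γ), g ∈ Subgroup.closure X := fun g hg =>
    Subgroup.subset_closure (Or.inl hg)
  have hxa : ∀ a : F, ∃ x ∈ Subgroup.closure X, π x = u a 0 0 := by
    have m1 : x₁ ∈ Subgroup.closure X := memX _ (by simp)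
    have m2 : x₂ ∈ Subgroup.closure X := memX _ (by simp)
    intro a
    rcases hall a with rfl | rfl | rfl | rfl
    · exact ⟨1, Subgroup.one_mem _, by rw [map_one, u_zero]⟩
    · exact ⟨x₁, m1, hx₁⟩
    · exact ⟨x₂, m2, hx₂⟩
    · refine ⟨x₁ * x₂, Subgroup.mul_mem _ m1 m2, ?_⟩
      rw [map_mul, hx₁, hx₂, u_mul]; congr 1 <;> ring
  have hyc : ∀ c : F, ∃ y ∈ Subgroup.closure X, π y = u 0 0 c := by
    have m1 : y₁ ∈ Subgroup.closure X := memX _ (by simp)
    have m2 : y₂ ∈ Subgroup.closure X := memX _ (by simp)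
    intro a
    rcases hall a with rfl | rfl | rfl | rfl
    · exact ⟨1, Subgroup.one_mem _, by rw [map_one, u_zero]⟩
    · exact ⟨y₁, m1, hy₁⟩
    · exact ⟨y₂, m2, hy₂⟩
    · refine ⟨y₁ * y₂, Subgroup.mul_mem _ m1 m2, ?_⟩
      rw [map_mul, hy₁, hy₂, u_mul]; congr 1 <;> ring
  have hQX : Q ≤ Subgroup.closure X := by
    rintro g ⟨a, b, c, hg⟩
    obtain ⟨x, hxm, hx⟩ := hxa a
    obtain ⟨y, hym, hy⟩ := hyc c
    have hw : π ((x * y)⁻¹ * g) = u 0 (b - a * c) 0 := by
      rw [map_mul, map_inv, map_mul, hx, hy, hg, inv_mul_eq_iff_eq_mul, u_mul, u_mul]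
      congr 1 <;> ring
    have hwm : (x * y)⁻¹ * g ∈ Subgroup.closure X := Subgroup.subset_closure (Or.inr ⟨_, hw⟩)
    have := Subgroup.mul_mem _ (Subgroup.mul_mem _ hxm hym) hwm
    rwa [mul_inv_cancel_left] at this
  -- all commutators of `Q` are in `C`
  have hcomm : ∀ g ∈ Subgroup.closure X, ∀ k ∈ Subgroup.closure X, ⁅g, k⁆ ∈ C := by
    apply commutator_mem_of_gens
    · have hW1 : ∀ w ∈ ({w | ∃ t, π w = u 0 t 0} : Set Γ), ∀ q ∈ X, w * q = q * w := by
        rintro w ⟨t, ht⟩ q hq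
        obtain ⟨a, b, c, hq'⟩ := (hQmem q).1 (hXQ (Subgroup.subset_closure hq))
        exact h.comm_W_Q h2 h0 h1 ht hq'
      have hone : ∀ p q : Γ, p * q = q * p → ⁅p, q⁆ ∈ C := by
        intro p q e
        rw [commutatorElement_eq_one_iff_commute.2 e]; exact C.one_mem
      have e1 : x₁ * x₂ = x₂ * x₁ := h.comm_E2 h2 h0 h1 hx₁ hx₂
      have e2 : y₁ * y₂ = y₂ * y₁ := h.comm_E1 h2 h0 h1 hy₁ hy₂
      have hinv : ∀ p q : Γ, ⁅p, q⁆ ∈ C → ⁅q, p⁆ ∈ C := by
        intro p q e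
        have := C.inv_mem e
        rwa [commutatorElement_inv] at this
      rintro p hp q hq
      by_cases hpw : p ∈ ({w | ∃ t, π w = u 0 t 0} : Set Γ)
      · exact hone _ _ (hW1 p hpw q hq)
      by_cases hqw : q ∈ ({w | ∃ t, π w = u 0 t 0} : Set Γ)
      · exact hone _ _ (hW1 q hqw p hp).symm
      have hp' := hp.resolve_right hpw
      have hq' := hq.resolve_right hqw
      simp only [Set.mem_insert_iff, Set.mem_singleton_iff] at hp' hq'
      rcases hp' with rfl | rfl | rfl | rfl <;> rcases hq' with rfl | rfl | rfl | rfl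
      · exact hone _ _ rfl
      · exact hone _ _ e1
      · exact m11
      · exact m12
      · exact hone _ _ e1.symm
      · exact hone _ _ rfl
      · exact m21
      · exact m22
      · exact hinv _ _ m11
      · exact hinv _ _ m21
      · exact hone _ _ rfl
      · exact hone _ _ e2
      · exact hinv _ _ m12
      · exact hinv _ _ m22
      · exact hone _ _ e2.symm
      · exact hone _ _ rfl
    · intro g hg k hk l hl
      obtain ⟨a, b, c, hg'⟩ := (hQmem g).1 (hXQ hg)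
      obtain ⟨a', b', c', hk'⟩ := (hQmem k).1 (hXQ hk)
      obtain ⟨a'', b'', c'', hl'⟩ := (hQmem l).1 (hXQ hl)
      have hcc : π ⁅g, k⁆ = u 0 (a * c' - a' * c) 0 := by
        rw [map_commutatorElement, hg', hk', comm_u]
      exact h.comm_W_Q h2 h0 h1 hcc hl'
  -- the kernel lies in `C`
  have hkerC : ∀ a, π a = 1 → a ∈ C := by
    intro a ha
    have haQ : a ∈ Q := ⟨0, 0, 0, by rw [ha, u_zero]⟩
    have hodd : Odd Q.index := by
      rw [hQ, Subgroup.index_comap_of_surjective _ h.surj]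
      exact T_index_odd hF
    have h3 := mem_commutator_of_odd Q hodd (h.cen a ha) (by rw [hp]; exact Subgroup.mem_top a) (h.ex a ha) haQ
    have h4 : commutator Q ≤ C.comap Q.subtype := by
      rw [commutator_def, Subgroup.commutator_le]
      rintro ⟨g, hg⟩ - ⟨k, hk⟩ -
      exact hcomm g (hQX hg) k (hQX hk)
    exact h4 h3
  -- lifts of the centre in `C`
  have hτ : ∀ t : F, ∃ v ∈ C, π v = u 0 t 0 := by
    intro t
    rcases hall t with rfl | rfl | rfl | rfl
    · exact ⟨1, C.one_mem, by rw [map_one, u_zero]⟩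
    · refine ⟨_, m11, ?_⟩
      rw [map_commutatorElement, hx₁, hy₁, comm_u]; congr 1; ring
    · refine ⟨_, m21, ?_⟩
      rw [map_commutatorElement, hx₂, hy₁, comm_u]; congr 1; ring
    · refine ⟨_, C.mul_mem m11 m21, ?_⟩
      rw [map_mul, map_commutatorElement, map_commutatorElement, hx₁, hx₂, hy₁, comm_u, comm_u, u_mul]
      congr 1 <;> ring
  choose τ hτC hτπ using hτ
  let f : π.ker × F → C := fun p => ⟨(p.1 : Γ) * τ p.2, C.mul_mem (hkerC _ p.1.2) (hτC _)⟩
  have hf : Function.Injective f := by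
    rintro ⟨⟨a, ha⟩, t⟩ ⟨⟨a', ha'⟩, t'⟩ e
    have e1 : a * τ t = a' * τ t' := Subtype.mk.inj e
    have e2 := congrArg π e1
    have ha1 : π a = 1 := ha
    have ha1' : π a' = 1 := ha'
    rw [map_mul, map_mul, ha1, ha1', one_mul, one_mul, hτπ, hτπ] at e2
    obtain ⟨-, e3, -⟩ := u_inj e2
    subst e3
    have := mul_right_cancel e1
    subst this
    rfl
  have h5 := Nat.card_le_card_of_injective f hf
  rw [Nat.card_prod, Nat.card_eq_fintype_card (α := F), hF] at h5
  omega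

end main

section fibre

variable {F : Type*} [Field F] {L₁ L₂ : Type*} [Group L₁] [Group L₂] [Finite L₁] [Finite L₂]

/-- **Uniqueness.**  Two perfect central extensions of `L₃(4)` with kernels of order `4` and exponent `2` are
isomorphic, by looking at the commutator subgroup of the fibre product. -/
theorem iso_of_covers [Fintype F] (hF : Fintype.card F = 4) {π₁ : L₁ →* PP F} {π₂ : L₂ →* PP F} (h₁ : Cov π₁) (h₂ : Cov π₂)
    (k₁ : Nat.card π₁.ker = 4) (k₂ : Nat.card π₂.ker = 4) (p₁ : commutator L₁ = ⊤) (p₂ : commutator L₂ = ⊤) :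
    Nonempty (L₁ ≃* L₂) := by
  classical
  -- the fibre product
  set G₀ : Subgroup (L₁ × L₂) := (π₁.comp (MonoidHom.fst L₁ L₂)).eqLocus (π₂.comp (MonoidHom.snd L₁ L₂)) with hG₀
  have hG₀mem : ∀ q : L₁ × L₂, q ∈ G₀ ↔ π₁ q.1 = π₂ q.2 := fun q => Iff.rfl
  set G : Subgroup (L₁ × L₂) := ⁅G₀, G₀⁆ with hG
  have hGG₀ : G ≤ G₀ := Subgroup.commutator_le.2 fun p hp q hq =>
    G₀.mul_mem (G₀.mul_mem (G₀.mul_mem hp hq) (G₀.inv_mem hp)) (G₀.inv_mem hq)
  have hfst₀ : G₀.map (MonoidHom.fst L₁ L₂) = ⊤ := by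
    rw [eq_top_iff]
    intro a _
    obtain ⟨b, hb⟩ := h₂.surj (π₁ a)
    exact ⟨(a, b), (hG₀mem _).2 hb.symm, rfl⟩
  have hsnd₀ : G₀.map (MonoidHom.snd L₁ L₂) = ⊤ := by
    rw [eq_top_iff]
    intro b _
    obtain ⟨a, ha⟩ := h₁.surj (π₂ b)
    exact ⟨(a, b), (hG₀mem _).2 ha, rfl⟩
  have hfst : G.map (MonoidHom.fst L₁ L₂) = ⊤ := by
    rw [hG, Subgroup.map_commutator, hfst₀]
    exact p₁
  have hsnd : G.map (MonoidHom.snd L₁ L₂) = ⊤ := by
    rw [hG, Subgroup.map_commutator, hsnd₀]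
    exact p₂
  have hfst' : ∀ a : L₁, ∃ q ∈ G, q.1 = a := fun a => by
    have : a ∈ G.map (MonoidHom.fst L₁ L₂) := by rw [hfst]; exact Subgroup.mem_top a
    obtain ⟨q, hq, e⟩ := this
    exact ⟨q, hq, e⟩
  have hsnd' : ∀ a : L₂, ∃ q ∈ G, q.2 = a := fun a => by
    have : a ∈ G.map (MonoidHom.snd L₁ L₂) := by rw [hsnd]; exact Subgroup.mem_top a
    obtain ⟨q, hq, e⟩ := this
    exact ⟨q, hq, e⟩
  -- central elements
  have hcentral : ∀ q ∈ G₀, π₁ q.1 = 1 → q ∈ Subgroup.center (L₁ × L₂) := by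
    rintro ⟨a, b⟩ hq ha
    have hb : π₂ b = 1 := by rw [← (hG₀mem _).1 hq]; exact ha
    rw [Subgroup.mem_center_iff]
    rintro ⟨c, d⟩
    have e1 := Subgroup.mem_center_iff.1 (h₁.cen a ha) c
    have e2 := Subgroup.mem_center_iff.1 (h₂.cen b hb) d
    exact Prod.ext e1 e2
  -- the perfect cover
  let π : G →* PP F := (π₁.comp (MonoidHom.fst L₁ L₂)).comp G.subtype
  have hπ1 : ∀ q : G, π q = π₁ (q : L₁ × L₂).1 := fun q => rfl
  have hπ2 : ∀ q : G, π q = π₂ (q : L₁ × L₂).2 := fun q => (hG₀mem _).1 (hGG₀ q.2)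
  have hsurj : Function.Surjective π := by
    intro v
    obtain ⟨a, ha⟩ := h₁.surj v
    obtain ⟨q, hq, e⟩ := hfst' a
    exact ⟨⟨q, hq⟩, by rw [hπ1, ← ha, ← e]⟩
  have hcov : Cov π := by
    refine ⟨hsurj, ?_, ?_⟩
    · rintro ⟨q, hq⟩ ha
      rw [Subgroup.mem_center_iff]
      rintro ⟨r, hr⟩
      apply Subtype.ext
      exact Subgroup.mem_center_iff.1 (hcentral q (hGG₀ hq) ha) r
    · rintro ⟨q, hq⟩ ha
      apply Subtype.ext
      have e2 : π₂ q.2 = 1 := by rw [← hπ2 ⟨q, hq⟩]; exact ha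
      exact Prod.ext (h₁.ex _ ha) (h₂.ex _ e2)
  -- `G` is perfect
  have hcomm : ⁅G, G⁆ = G := by
    apply le_antisymm (Subgroup.commutator_mono hGG₀ hGG₀)
    change ⁅G₀, G₀⁆ ≤ ⁅G, G⁆
    rw [Subgroup.commutator_le]
    intro p hp q hq
    -- correct `p`, `q` to elements of `G`
    have cor : ∀ r ∈ G₀, ∃ s ∈ G, ∃ z ∈ Subgroup.center (L₁ × L₂), r = s * z := by
      intro r hr
      obtain ⟨s, hs, e⟩ := hfst' r.1
      have hz : π₁ (s⁻¹ * r).1 = 1 := by
        rw [Prod.fst_mul, Prod.fst_inv, e, inv_mul_cancel, map_one]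
      refine ⟨s, hs, s⁻¹ * r, hcentral _ (G₀.mul_mem (G₀.inv_mem (hGG₀ hs)) hr) hz, ?_⟩
      rw [mul_inv_cancel_left]
    obtain ⟨s, hs, z, hz, rfl⟩ := cor p hp
    obtain ⟨t, ht, w, hw, rfl⟩ := cor q hq
    have : ⁅s * z, t * w⁆ = ⁅s, t⁆ := by
      have e1 : ∀ g, g * z = z * g := Subgroup.mem_center_iff.1 hz
      have e2 : ∀ g, g * w = w * g := Subgroup.mem_center_iff.1 hw
      simp only [commutatorElement_def]
      calc s * z * (t * w) * (s * z)⁻¹ * (t * w)⁻¹
          = s * (z * t) * w * (z⁻¹ * s⁻¹) * (w⁻¹ * t⁻¹) := by simp only [mul_inv_rev, mul_assoc]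
        _ = s * t * z * w * (z⁻¹ * s⁻¹) * (w⁻¹ * t⁻¹) := by rw [← e1 t]; simp only [mul_assoc]
        _ = s * t * w * (z * (z⁻¹ * s⁻¹)) * (w⁻¹ * t⁻¹) := by
            rw [mul_assoc (s * t) z w, e2 z]; simp only [mul_assoc]
        _ = s * t * (w * s⁻¹) * (w⁻¹ * t⁻¹) := by simp only [mul_inv_cancel_left, mul_assoc]
        _ = s * t * s⁻¹ * (w * (w⁻¹ * t⁻¹)) := by rw [← e2 s⁻¹]; simp only [mul_assoc]
        _ = s * t * s⁻¹ * t⁻¹ := by rw [mul_inv_cancel_left]
    rw [this]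
    exact Subgroup.commutator_mem_commutator hs ht
  have hperf : commutator G = ⊤ := Group.isPerfect_def.1 (Subgroup.isPerfect_iff.2 hcomm)
  have hle : Nat.card π.ker ≤ 4 := card_ker_le_four hF hcov hperf
  -- the two projections are bijective
  have hbij1 : Function.Bijective ((MonoidHom.fst L₁ L₂).comp G.subtype) := by
    constructor
    · rw [injective_iff_map_eq_one]
      rintro q hq
      have hq1 : (q : L₁ × L₂).1 = 1 := hq
      have hqk : q ∈ π.ker := by
        rw [MonoidHom.mem_ker, hπ1, hq1, map_one]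
      let f : π.ker → π₁.ker := fun r => ⟨(r : G).1.1, by
        have := r.2
        rw [MonoidHom.mem_ker, hπ1] at this
        exact this⟩
      have hfs : Function.Surjective f := by
        rintro ⟨a, ha⟩
        obtain ⟨s, hs, e⟩ := hfst' a
        refine ⟨⟨⟨s, hs⟩, ?_⟩, Subtype.ext e⟩
        rw [MonoidHom.mem_ker, hπ1]
        change π₁ s.1 = 1
        rw [e]
        exact ha
      have hfb := hfs.bijective_of_nat_card_le (by rw [k₁]; exact hle)
      have : f ⟨q, hqk⟩ = f 1 := Subtype.ext hq1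
      have h3 := hfb.1 this
      exact congrArg (fun r : π.ker => (r : G)) h3
    · intro a
      obtain ⟨q, hq, e⟩ := hfst' a
      exact ⟨⟨q, hq⟩, e⟩
  have hbij2 : Function.Bijective ((MonoidHom.snd L₁ L₂).comp G.subtype) := by
    constructor
    · rw [injective_iff_map_eq_one]
      rintro q hq
      have hq1 : (q : L₁ × L₂).2 = 1 := hq
      have hqk : q ∈ π.ker := by
        rw [MonoidHom.mem_ker, hπ2, hq1, map_one]
      let f : π.ker → π₂.ker := fun r => ⟨(r : G).1.2, by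
        have := r.2
        rw [MonoidHom.mem_ker, hπ2] at this
        exact this⟩
      have hfs : Function.Surjective f := by
        rintro ⟨a, ha⟩
        obtain ⟨s, hs, e⟩ := hsnd' a
        refine ⟨⟨⟨s, hs⟩, ?_⟩, Subtype.ext e⟩
        rw [MonoidHom.mem_ker, hπ2]
        change π₂ s.2 = 1
        rw [e]
        exact ha
      have hfb := hfs.bijective_of_nat_card_le (by rw [k₂]; exact hle)
      have : f ⟨q, hqk⟩ = f 1 := Subtype.ext hq1
      have h3 := hfb.1 this
      exact congrArg (fun r : π.ker => (r : G)) h3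
    · intro a
      obtain ⟨q, hq, e⟩ := hsnd' a
      exact ⟨⟨q, hq⟩, e⟩
  exact ⟨(MulEquiv.ofBijective _ hbij1).symm.trans (MulEquiv.ofBijective _ hbij2)⟩

end fibre

theorem exists_cov_of_quot {F : Type*} [Field F] {L : Type*} [Group L]
    (e : L ⧸ Subgroup.center L ≃* Matrix.ProjectiveSpecialLinearGroup (Fin 3) F)
    (he : ∀ x ∈ Subgroup.center L, x * x = 1) :
    ∃ π : L →* PP F, Cov π ∧ π.ker = Subgroup.center L := by
  refine ⟨e.toMonoidHom.comp (QuotientGroup.mk' _), ⟨?_, ?_, ?_⟩, ?_⟩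
  · exact e.surjective.comp (QuotientGroup.mk'_surjective _)
  · intro a ha
    have : (QuotientGroup.mk a : L ⧸ Subgroup.center L) = 1 := e.injective (by rw [map_one]; exact ha)
    exact (QuotientGroup.eq_one_iff _).1 this
  · intro a ha
    have : (QuotientGroup.mk a : L ⧸ Subgroup.center L) = 1 := e.injective (by rw [map_one]; exact ha)
    exact he a ((QuotientGroup.eq_one_iff _).1 this)
  · ext a
    rw [MonoidHom.mem_ker]
    constructor
    · intro ha
      have : (QuotientGroup.mk a : L ⧸ Subgroup.center L) = 1 := e.injective (by rw [map_one]; exact ha)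
      exact (QuotientGroup.eq_one_iff _).1 this
    · intro ha
      have : (QuotientGroup.mk a : L ⧸ Subgroup.center L) = 1 := (QuotientGroup.eq_one_iff _).2 ha
      show e (QuotientGroup.mk a) = 1
      rw [this, map_one]

/-- The statement. -/
theorem main_unique {L₁ L₂ : Type*} [Group L₁] [Finite L₁] [Group L₂] [Finite L₂] (F : Type) [Field F] [Fintype F]
    (hF : Fintype.card F = 4) (h₁ : Cfsg.IsQuasisimple L₁) (h₂ : Cfsg.IsQuasisimple L₂)
    (hc₁ : Nat.card (Subgroup.center L₁) = 4) (hc₂ : Nat.card (Subgroup.center L₂) = 4)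
    (he₁ : ∀ x ∈ Subgroup.center L₁, x * x = 1) (he₂ : ∀ x ∈ Subgroup.center L₂, x * x = 1)
    (e₁ : L₁ ⧸ Subgroup.center L₁ ≃* Matrix.ProjectiveSpecialLinearGroup (Fin 3) F)
    (e₂ : L₂ ⧸ Subgroup.center L₂ ≃* Matrix.ProjectiveSpecialLinearGroup (Fin 3) F) : Nonempty (L₁ ≃* L₂) := by
  obtain ⟨π₁, c₁, k₁⟩ := exists_cov_of_quot e₁ he₁
  obtain ⟨π₂, c₂, k₂⟩ := exists_cov_of_quot e₂ he₂
  have p₁ := h₁.1.commutator_eq_top
  have p₂ := h₂.1.commutator_eq_top
  exact iso_of_covers hF c₁ c₂ (by rw [k₁]; exact hc₁) (by rw [k₂]; exact hc₂) p₁ p₂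

end Cfsg.Agent.Lib.ThreeT.L34Cover
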