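import Mathlib
import Cfsg.Prelude.Def_SporadicB
import Cfsg.Agent.Lib.ThreeT.Uniq

/-!
# 3-transposition sets whose local groups are symmetric of degree three: basics

The commuting neighbours `NN D d` of each `d` are three pairwise non-commuting members.  Either no two members have
the same neighbours, or all members have a twin.
-/

set_option autoImplicit false

namespace Cfsg.Agent.Lib.ThreeT.LocS

open Subgroup Cfsg.Agent.Lib.ThreeT.UQ

variable {G : Type*} [Group G]

/-- The commuting neighbours. -/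
def NN (D : Set G) (d : G) : Set G := {y | y ∈ D ∧ y ≠ d ∧ Commute d y}

theorem mem_NN {D : Set G} {d y : G} : y ∈ NN D d ↔ y ∈ D ∧ y ≠ d ∧ d * y = y * d := Iff.rfl

/-- The hypotheses, elementwise. -/
structure Loc (D : Set G) : Prop where
  sq : ∀ d ∈ D, d * d = 1
  ne1 : ∀ d ∈ D, d ≠ 1
  cube : ∀ a ∈ D, ∀ b ∈ D, a * b ≠ b * a → (a * b) ^ 3 = 1
  conj : ∀ g : G, ∀ d ∈ D, g * d * g⁻¹ ∈ D
  card3 : ∀ d ∈ D, (NN D d).ncard = 3
  pair : ∀ d ∈ D, ∃ u ∈ NN D d, ∃ v ∈ NN D d, u * v ≠ v * u

theorem sq_cancel {a : G} (h : a * a = 1) (x : G) : a * (a * x) = x := by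
  rw [← mul_assoc, h, one_mul]

theorem sq_cancel' {a : G} (h : a * a = 1) (x : G) : x * a * a = x := by
  rw [mul_assoc, h, mul_one]

theorem inv_of_sq {a : G} (h : a * a = 1) : a⁻¹ = a := inv_eq_of_mul_eq_one_left h

/-- A commuting element forces equality. -/
theorem rigid {x e f : G} (sx : x * x = 1) (se : e * e = 1) (sf : f * f = 1) (h1 : (x * e) ^ 3 = 1)
    (h2 : (x * f) ^ 3 = 1) (hc : x * (e * f) = (e * f) * x) : e = f := by
  have b1 := braid_of_cube sx se h1
  have b2 := braid_of_cube sx sf h2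
  have key : x * (e * f) * x = e * f := by
    rw [hc, mul_assoc, sx, mul_one]
  have h3 : (x * e * x) * (x * f * x) = e * f := by
    calc (x * e * x) * (x * f * x) = x * e * (x * x) * f * x := by group
      _ = x * (e * f) * x := by rw [sx]; group
      _ = e * f := key
  rw [b1, b2] at h3
  have h5 : x * (e * f) * x = e * (e * x * e * (f * x * f)) * f := by
    calc x * (e * f) * x = (e * e) * x * e * f * x * (f * f) := by rw [se, sf]; group
      _ = _ := by group
  rw [h3, key] at h5
  have h6 : e * (e * f) * f = 1 := by rw [← mul_assoc, se, one_mul, sf]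
  rw [h6] at h5
  have h7 : e = f⁻¹ := eq_inv_of_mul_eq_one_left h5
  rw [h7, inv_of_sq sf]

namespace Loc

variable {D : Set G} (L : Loc D)
include L

theorem nn_D {d y : G} (h : y ∈ NN D d) : y ∈ D := h.1
theorem nn_ne {d y : G} (h : y ∈ NN D d) : y ≠ d := h.2.1
theorem nn_comm {d y : G} (h : y ∈ NN D d) : d * y = y * d := h.2.2

theorem braid {a b : G} (ha : a ∈ D) (hb : b ∈ D) (h : a * b ≠ b * a) : a * b * a = b * a * b :=
  braid_of_cube (L.sq a ha) (L.sq b hb) (L.cube a ha b hb h)

/-- Conjugates of members by members, in the form without inverse. -/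
theorem conj_mem {a x : G} (ha : a ∈ D) (hx : x ∈ D) : a * x * a ∈ D := by
  have := L.conj a x hx
  rwa [inv_of_sq (L.sq a ha)] at this

theorem nn_conj (g : G) {d y : G} (h : y ∈ NN D d) : g * y * g⁻¹ ∈ NN D (g * d * g⁻¹) := by
  refine ⟨L.conj g y h.1, fun e => h.2.1 ?_, ?_⟩
  · have : g * y * g⁻¹ * g = g * d * g⁻¹ * g := by rw [e]
    simpa using this
  · have e1 := L.nn_comm h
    calc g * d * g⁻¹ * (g * y * g⁻¹) = g * (d * y) * g⁻¹ := by group
      _ = g * (y * d) * g⁻¹ := by rw [e1]
      _ = _ := by group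

theorem nn_conj_iff (g : G) {d y : G} : y ∈ NN D (g * d * g⁻¹) ↔ g⁻¹ * y * g ∈ NN D d := by
  constructor
  · intro h
    have := L.nn_conj g⁻¹ h
    have e1 : g⁻¹ * (g * d * g⁻¹) * g⁻¹⁻¹ = d := by group
    have e2 : g⁻¹ * y * g⁻¹⁻¹ = g⁻¹ * y * g := by group
    rwa [e1, e2] at this
  · intro h
    have := L.nn_conj g h
    have e2 : g * (g⁻¹ * y * g) * g⁻¹ = y := by group
    rwa [e2] at this

/-- The third element. -/
theorem third_mem {d u v : G} (hu : u ∈ NN D d) (hv : v ∈ NN D d) : u * v * u ∈ NN D d := by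
  have su := L.sq u hu.1
  refine ⟨L.conj_mem hu.1 hv.1, fun e => hv.2.1 ?_, ?_⟩
  · have h1 : v = u * d * u := by
      rw [← e]
      calc v = (u * u) * v * (u * u) := by rw [su]; group
        _ = _ := by group
    rw [h1, ← L.nn_comm hu, mul_assoc, su, mul_one]
  · have e1 := L.nn_comm hu
    have e2 := L.nn_comm hv
    calc d * (u * v * u) = (d * u) * v * u := by group
      _ = u * (d * v) * u := by rw [e1]; group
      _ = u * v * (d * u) := by rw [e2]; group
      _ = _ := by rw [e1]; group

/-- `u`, `v`, `uvu` are three different elements. -/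
theorem third_ne {u v : G} (hu : u ∈ D) (huv : u * v ≠ v * u) :
    u ≠ v ∧ u ≠ u * v * u ∧ v ≠ u * v * u := by
  have su := L.sq u hu
  refine ⟨fun e => huv (by rw [e]), fun e => huv ?_, fun e => huv ?_⟩
  · have h1 : u * v * u = u := e.symm
    have h2 : v = u := by
      have : u * (u * v * u) * u = u * u * u := by rw [h1]
      rw [su, one_mul] at this
      rw [← this]
      calc v = (u * u) * v * (u * u) := by rw [su]; group
        _ = _ := by group
    rw [h2]
  · calc u * v = u * v * u * u := (sq_cancel' su _).symm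
      _ = v * u := by rw [← e]

/-- The neighbours of `d` from a non-commuting pair. -/
theorem nn_eq_of_noncomm {d u v : G} (hd : d ∈ D) (hu : u ∈ NN D d) (hv : v ∈ NN D d) (huv : u * v ≠ v * u) :
    NN D d = {u, v, u * v * u} := by
  obtain ⟨h1, h2, h3⟩ := L.third_ne hu.1 huv
  symm
  have hsub : ({u, v, u * v * u} : Set G) ⊆ NN D d := by
    intro y hy
    simp only [Set.mem_insert_iff, Set.mem_singleton_iff] at hy
    rcases hy with rfl | rfl | rfl
    · exact hu
    · exact hv
    · exact L.third_mem hu hv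
  have hle : (NN D d).ncard ≤ ({u, v, u * v * u} : Set G).ncard := by
    rw [L.card3 d hd, Set.ncard_eq_three.2 ⟨u, v, u * v * u, h1, h2, h3, rfl⟩]
  exact Set.eq_of_subset_of_ncard_le hsub hle (Set.finite_of_ncard_pos (by rw [L.card3 d hd]; norm_num))

/-- Two different neighbours do not commute. -/
theorem nn_noncomm {d x y : G} (hd : d ∈ D) (hx : x ∈ NN D d) (hy : y ∈ NN D d) (hxy : x ≠ y) : x * y ≠ y * x := by
  obtain ⟨u, hu, v, hv, huv⟩ := L.pair d hd
  have hEq := L.nn_eq_of_noncomm hd hu hv huv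
  have su := L.sq u hu.1
  have sv := L.sq v hv.1
  have n1 : u * (u * v * u) ≠ (u * v * u) * u := by
    intro h
    apply huv
    have h1 : u * (u * v * u) = v * u := by rw [← mul_assoc, ← mul_assoc, su, one_mul]
    have h2 : (u * v * u) * u = u * v := sq_cancel' su _
    rw [h1, h2] at h
    exact h.symm
  have n2 : v * (u * v * u) ≠ (u * v * u) * v := by
    intro h
    apply huv
    have b := L.braid hu.1 hv.1 huv
    have h1 : v * (u * v * u) = (v * u * v) * u := by group
    have h2 : (u * v * u) * v = u * (v * u * v) := by group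
    rw [h1, h2, ← b] at h
    have h3 : u * v * u * u = u * v := sq_cancel' su _
    have h4 : u * (u * v * u) = v * u := by rw [← mul_assoc, ← mul_assoc, su, one_mul]
    rw [h3, h4] at h
    exact h
  rw [hEq] at hx hy
  simp only [Set.mem_insert_iff, Set.mem_singleton_iff] at hx hy
  rcases hx with rfl | rfl | rfl <;> rcases hy with rfl | rfl | rfl
  · exact absurd rfl hxy
  · exact huv
  · exact n1
  · exact fun h => huv h.symm
  · exact absurd rfl hxy
  · exact n2
  · exact fun h => n1 h.symm
  · exact fun h => n2 h.symm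
  · exact absurd rfl hxy

/-- The neighbours from two different neighbours. -/
theorem nn_eq {d x y : G} (hd : d ∈ D) (hx : x ∈ NN D d) (hy : y ∈ NN D d) (hxy : x ≠ y) :
    NN D d = {x, y, x * y * x} :=
  L.nn_eq_of_noncomm hd hx hy (L.nn_noncomm hd hx hy hxy)

/-- There are two different neighbours. -/
theorem exists_other {d x : G} (hd : d ∈ D) : ∃ y ∈ NN D d, y ≠ x := by
  obtain ⟨u, hu, v, hv, huv⟩ := L.pair d hd
  by_cases h : u = x
  · exact ⟨v, hv, fun e => huv (by rw [h, e])⟩
  · exact ⟨u, hu, h⟩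

/-- Products of two different neighbours: the rotation and its inverse. -/
theorem rot_pair {d u v x y : G} (hd : d ∈ D) (hu : u ∈ NN D d) (hv : v ∈ NN D d) (huv : u ≠ v)
    (hx : x ∈ NN D d) (hy : y ∈ NN D d) (hxy : x ≠ y) : x * y = u * v ∨ x * y = (u * v)⁻¹ := by
  have su := L.sq u hu.1
  have sv := L.sq v hv.1
  have hinv : (u * v)⁻¹ = v * u := by
    rw [mul_inv_rev, inv_of_sq su, inv_of_sq sv]
  have hn := L.nn_noncomm hd hu hv huv
  have b := L.braid hu.1 hv.1 hn
  have hEq := L.nn_eq hd hu hv huv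
  rw [hinv]
  rw [hEq] at hx hy
  simp only [Set.mem_insert_iff, Set.mem_singleton_iff] at hx hy
  have e1 : u * (u * v * u) = v * u := by rw [← mul_assoc, ← mul_assoc, su, one_mul]
  have e2 : (u * v * u) * u = u * v := sq_cancel' su _
  have e3 : v * (u * v * u) = u * v := by
    calc v * (u * v * u) = (v * u * v) * u := by group
      _ = (u * v * u) * u := by rw [b]
      _ = _ := e2
  have e4 : (u * v * u) * v = v * u := by
    calc (u * v * u) * v = u * (v * u * v) := by group
      _ = u * (u * v * u) := by rw [b]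
      _ = _ := e1
  rcases hx with rfl | rfl | rfl <;> rcases hy with rfl | rfl | rfl
  · exact absurd rfl hxy
  · exact Or.inl rfl
  · exact Or.inr e1
  · exact Or.inr rfl
  · exact absurd rfl hxy
  · exact Or.inl e3
  · exact Or.inl e2
  · exact Or.inr e4
  · exact absurd rfl hxy

/-- The rotation has order three. -/
theorem rot_cube {d u v : G} (hd : d ∈ D) (hu : u ∈ NN D d) (hv : v ∈ NN D d) (huv : u ≠ v) : (u * v) ^ 3 = 1 :=
  L.cube u hu.1 v hv.1 (L.nn_noncomm hd hu hv huv)

/-- A set of neighbours contained in another is equal to it. -/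
theorem nn_subset_eq {a b : G} (ha : a ∈ D) (hb : b ∈ D) (h : NN D a ⊆ NN D b) : NN D a = NN D b := by
  exact Set.eq_of_subset_of_ncard_le h (by rw [L.card3 a ha, L.card3 b hb])
    (Set.finite_of_ncard_pos (by rw [L.card3 b hb]; norm_num))

theorem nn_symm {a b : G} (ha : a ∈ D) (h : b ∈ NN D a) : a ∈ NN D b :=
  ⟨ha, fun e => h.2.1 e.symm, (L.nn_comm h).symm⟩

/-- The image under a commuting pair. -/
theorem E_mem {a q e : G} (ha : a ∈ D) (hq : q ∈ D) (he : e ∈ D) (haq : a * q = q * a) (hne : a ≠ q)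
    (h1 : a * e ≠ e * a) (h2 : q * e ≠ e * q) : (a * q) * e * (a * q) ∈ NN D e := by
  have sa := L.sq a ha
  have sq' := L.sq q hq
  have inv : (a * q)⁻¹ = a * q := by
    rw [mul_inv_rev, inv_of_sq sa, inv_of_sq sq', haq]
  have hmem : (a * q) * e * (a * q) ∈ D := by
    have := L.conj (a * q) e he
    rwa [inv] at this
  have hc := s4_comm sa sq' (L.sq e he) haq (L.cube a ha e he h1) (L.cube q hq e he h2)
  refine ⟨hmem, fun hE => hne ?_, hc⟩
  -- `a q` commutes with `e`
  have h3 : e * (a * q) = (a * q) * e := by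
    have h4 : (a * q) * e * (a * q) * (a * q) = e * (a * q) := by rw [hE]
    have h5 : (a * q) * (a * q) = 1 := by
      calc (a * q) * (a * q) = a * (q * a) * q := by group
        _ = a * (a * q) * q := by rw [haq]
        _ = (a * a) * (q * q) := by group
        _ = 1 := by rw [sa, sq', one_mul]
    rw [sq_cancel' h5] at h4
    exact h4.symm
  have c1 : (e * a) ^ 3 = 1 := L.cube e he a ha (fun h => h1 h.symm)
  have c2 : (e * q) ^ 3 = 1 := L.cube e he q hq (fun h => h2 h.symm)
  exact rigid (L.sq e he) sa sq' c1 c2 h3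

/-- Cycling the images under commuting pairs by a rotation (the neighbours of `a` and `e` being disjoint). -/
theorem E_cycle {a e x y : G} (ha : a ∈ D) (he : e ∈ D) (hae : a * e ≠ e * a)
    (hdisj : ∀ q ∈ NN D a, q ∉ NN D e) (hx : x ∈ NN D a) (hy : y ∈ NN D a) (hxy : x ≠ y) :
    (∀ f ∈ NN D e, (y * x) * f * (y * x)⁻¹ ∈ NN D e) ∧ (y * x) * e ≠ e * (y * x) := by
  have sa := L.sq a ha
  have sx := L.sq x hx.1
  have sy := L.sq y hy.1
  have se := L.sq e he
  have hnc : ∀ q ∈ NN D a, q * e ≠ e * q := by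
    intro q hq hc
    refine hdisj q hq ⟨hq.1, fun h => hae ?_, hc.symm⟩
    have := L.nn_comm hq
    rwa [h] at this
  have hE : ∀ q ∈ NN D a, (a * q) * e * (a * q) ∈ NN D e := by
    intro q hq
    exact L.E_mem ha hq.1 he (L.nn_comm hq) (fun h => hq.2.1 h.symm) hae (hnc q hq)
  have hz : y * x * y ∈ NN D a := L.third_mem hy hx
  have cx := L.nn_comm hx
  have cy := L.nn_comm hy
  have hn : y * x ≠ x * y := L.nn_noncomm ha hy hx (fun h => hxy h.symm)
  have b := L.braid hy.1 hx.1 hn
  have rinv : (y * x)⁻¹ = x * y := by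
    rw [mul_inv_rev, inv_of_sq sx, inv_of_sq sy]
  have hrne : (y * x) * e ≠ e * (y * x) := by
    intro h
    apply hxy
    exact (rigid se sy sx (L.cube e he y hy.1 (fun h' => hnc y hy h'.symm))
      (L.cube e he x hx.1 (fun h' => hnc x hx h'.symm)) h.symm).symm
  -- the action on the elements `a q`
  have hst : ∀ {q p : G}, q ∈ NN D a → p ∈ NN D a → (y * x) * (a * q) = a * p →
      (y * x) * ((a * q) * e * (a * q)) * (y * x)⁻¹ = (a * p) * e * (a * p) := by
    intro q p hq hp h
    have iq : (a * q)⁻¹ = a * q := by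
      rw [mul_inv_rev, inv_of_sq sa, inv_of_sq (L.sq q hq.1), L.nn_comm hq]
    have ip : (a * p)⁻¹ = a * p := by
      rw [mul_inv_rev, inv_of_sq sa, inv_of_sq (L.sq p hp.1), L.nn_comm hp]
    calc (y * x) * ((a * q) * e * (a * q)) * (y * x)⁻¹
        = ((y * x) * (a * q)) * e * ((a * q) * (y * x)⁻¹) := by group
      _ = ((y * x) * (a * q)) * e * ((a * q)⁻¹ * (y * x)⁻¹) := by rw [iq]
      _ = ((y * x) * (a * q)) * e * ((y * x) * (a * q))⁻¹ := by rw [mul_inv_rev (y * x)]
      _ = (a * p) * e * (a * p)⁻¹ := by rw [h]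
      _ = _ := by rw [ip]
  have s1 : (y * x) * (a * x) = a * y := by
    calc (y * x) * (a * x) = y * (x * a) * x := by group
      _ = (y * a) * (x * x) := by rw [← cx]; group
      _ = a * y := by rw [sx, mul_one, cy]
  have s2 : (y * x) * (a * y) = a * (y * x * y) := by
    calc (y * x) * (a * y) = y * (x * a) * y := by group
      _ = (y * a) * (x * y) := by rw [← cx]; group
      _ = (a * y) * (x * y) := by rw [cy]
      _ = _ := by group
  have s3 : (y * x) * (a * (y * x * y)) = a * x := by
    have e1 : y * x * (y * x * y) = x := by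
      calc y * x * (y * x * y) = y * x * (x * y * x) := by rw [b]
        _ = y * (x * x) * y * x := by group
        _ = x := by rw [sx, mul_one, sy, one_mul]
    calc (y * x) * (a * (y * x * y)) = y * (x * a) * (y * x * y) := by group
      _ = (y * a) * (x * (y * x * y)) := by rw [← cx]; group
      _ = (a * y) * (x * (y * x * y)) := by rw [cy]
      _ = a * (y * x * (y * x * y)) := by group
      _ = _ := by rw [e1]
  have r1 := hst hx hy s1
  have r2 := hst hy hz s2
  have r3 := hst hz hx s3
  have ne12 : (a * x) * e * (a * x) ≠ (a * y) * e * (a * y) := by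
    intro h
    apply hrne
    have h1 : (a * y) * ((a * x) * e * (a * x)) * (a * y) = e := by
      rw [h]
      have h5 : (a * y) * (a * y) = 1 := by
        calc (a * y) * (a * y) = a * (y * a) * y := by group
          _ = (a * a) * (y * y) := by rw [← cy]; group
          _ = 1 := by rw [sa, sy, one_mul]
      calc (a * y) * ((a * y) * e * (a * y)) * (a * y) = ((a * y) * (a * y)) * e * ((a * y) * (a * y)) := by group
        _ = e := by rw [h5]; group
    have h2 : (a * y) * (a * x) = y * x := by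
      calc (a * y) * (a * x) = a * (y * a) * x := by group
        _ = (a * a) * (y * x) := by rw [← cy]; group
        _ = y * x := by rw [sa, one_mul]
    have h3 : (a * x) * (a * y) = x * y := by
      calc (a * x) * (a * y) = a * (x * a) * y := by group
        _ = (a * a) * (x * y) := by rw [← cx]; group
        _ = x * y := by rw [sa, one_mul]
    have h4 : (y * x) * e * (x * y) = e := by
      calc (y * x) * e * (x * y) = ((a * y) * (a * x)) * e * ((a * x) * (a * y)) := by rw [h2, h3]
        _ = (a * y) * ((a * x) * e * (a * x)) * (a * y) := by group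
        _ = e := h1
    calc (y * x) * e = (y * x) * e * (x * y) * (y * x) := by
          have : (x * y) * (y * x) = 1 := by
            calc (x * y) * (y * x) = x * (y * y) * x := by group
              _ = 1 := by rw [sy, mul_one, sx]
          rw [mul_assoc ((y * x) * e), this, mul_one]
      _ = e * (y * x) := by rw [h4]
  have ne23 : (a * y) * e * (a * y) ≠ (a * (y * x * y)) * e * (a * (y * x * y)) := by
    intro h
    apply ne12
    have h1 : (y * x) * ((a * x) * e * (a * x)) * (y * x)⁻¹ = (y * x) * ((a * y) * e * (a * y)) * (y * x)⁻¹ := by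
      rw [r1, r2, h]
    exact mul_left_cancel (mul_right_cancel h1)
  have ne13 : (a * x) * e * (a * x) ≠ (a * (y * x * y)) * e * (a * (y * x * y)) := by
    intro h
    apply ne12
    have h1 := r3
    rw [← h] at h1
    exact h1.symm.trans r1
  have hEq : NN D e = {(a * x) * e * (a * x), (a * y) * e * (a * y), (a * (y * x * y)) * e * (a * (y * x * y))} := by
    symm
    have hsub : ({(a * x) * e * (a * x), (a * y) * e * (a * y), (a * (y * x * y)) * e * (a * (y * x * y))} : Set G) ⊆ NN D e := by
      intro f hf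
      simp only [Set.mem_insert_iff, Set.mem_singleton_iff] at hf
      rcases hf with rfl | rfl | rfl
      · exact hE x hx
      · exact hE y hy
      · exact hE _ hz
    have hle : (NN D e).ncard ≤ ({(a * x) * e * (a * x), (a * y) * e * (a * y), (a * (y * x * y)) * e * (a * (y * x * y))} : Set G).ncard := by
      rw [L.card3 e he, Set.ncard_eq_three.2 ⟨_, _, _, ne12, ne13, ne23, rfl⟩]
    exact Set.eq_of_subset_of_ncard_le hsub hle (Set.finite_of_ncard_pos (by rw [L.card3 e he]; norm_num))
  refine ⟨fun f hf => ?_, hrne⟩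
  rw [hEq] at hf
  simp only [Set.mem_insert_iff, Set.mem_singleton_iff] at hf
  rcases hf with rfl | rfl | rfl
  · rw [r1]; exact hE y hy
  · rw [r2]; exact hE _ hz
  · rw [r3]; exact hE x hx

/-- Having a twin. -/
def _root_.Cfsg.Agent.Lib.ThreeT.LocS.Twin (D : Set G) (e : G) : Prop := ∃ f ∈ D, f ≠ e ∧ NN D f = NN D e

/-- Disjoint neighbours give a twin. -/
theorem twin_of_disj {a e : G} (ha : a ∈ D) (he : e ∈ D) (hae : a * e ≠ e * a)
    (hdisj : ∀ q ∈ NN D a, q ∉ NN D e) : Twin D e := by
  obtain ⟨x, hx, y, hy, hxy⟩ := L.pair a ha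
  have hne : x ≠ y := fun h => hxy (by rw [h])
  obtain ⟨h1, h2⟩ := L.E_cycle ha he hae hdisj hx hy hne
  refine ⟨(y * x) * e * (y * x)⁻¹, L.conj _ e he, fun h => h2 ?_, ?_⟩
  · nth_rewrite 2 [← h]
    group
  · apply L.nn_subset_eq (L.conj _ e he) he
    intro f hf
    have h3 := (L.nn_conj_iff (y * x)).1 hf
    have h4 := h1 _ h3
    have e2 : (y * x) * ((y * x)⁻¹ * f * (y * x)) * (y * x)⁻¹ = f := by group
    rwa [e2] at h4

/-- Twins of a member give twins of its neighbours. -/
theorem twin_neighbor {a b : G} (ha : a ∈ D) (htw : Twin D a) (hb : b ∈ NN D a) : Twin D b := by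
  obtain ⟨a₂, ha₂, hne, hNN⟩ := htw
  obtain ⟨b₂, hb₂, hb₂b⟩ := L.exists_other (x := b) ha
  have h1 : a ∈ NN D b := L.nn_symm ha hb
  have h2 : a₂ ∈ NN D b := L.nn_symm ha₂ (hNN ▸ hb)
  have hb' : b ∈ D := hb.1
  have hEq := L.nn_eq hb' h1 h2 (fun h => hne h.symm)
  refine ⟨b₂, hb₂.1, hb₂b, ?_⟩
  symm
  apply L.nn_subset_eq hb' hb₂.1
  intro f hf
  rw [hEq] at hf
  simp only [Set.mem_insert_iff, Set.mem_singleton_iff] at hf
  have c1 : a * b₂ = b₂ * a := L.nn_comm hb₂
  have c2 : a₂ * b₂ = b₂ * a₂ := L.nn_comm (hNN ▸ hb₂ : b₂ ∈ NN D a₂)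
  rcases hf with rfl | rfl | rfl
  · exact L.nn_symm ha hb₂
  · exact L.nn_symm ha₂ (hNN ▸ hb₂)
  · refine ⟨L.conj_mem ha ha₂, fun e => ?_, ?_⟩
    · -- the conjugate commutes with `b` but `b₂` does not
      have hc : b₂ * b ≠ b * b₂ := L.nn_noncomm ha hb₂ hb hb₂b
      apply hc
      rw [← e]
      have := L.third_mem h1 h2
      exact (L.nn_comm this).symm
    · calc b₂ * (a * a₂ * a) = (b₂ * a) * a₂ * a := by group
        _ = a * (b₂ * a₂) * a := by rw [← c1]; group
        _ = a * a₂ * (b₂ * a) := by rw [← c2]; group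
        _ = _ := by rw [← c1]; group

theorem twin_conj {e : G} (g : G) (h : Twin D e) : Twin D (g * e * g⁻¹) := by
  obtain ⟨f, hf, hne, hNN⟩ := h
  refine ⟨g * f * g⁻¹, L.conj g f hf, fun h => hne ?_, ?_⟩
  · exact mul_left_cancel (mul_right_cancel h)
  · ext y
    rw [L.nn_conj_iff, L.nn_conj_iff, hNN]

/-- A twin somewhere gives twins everywhere. -/
theorem twin_all {a : G} (ha : a ∈ D) (htw : Twin D a) {e : G} (he : e ∈ D) : Twin D e := by
  by_cases h1 : a * e = e * a
  · by_cases h2 : e = a
    · rw [h2]; exact htw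
    · exact L.twin_neighbor ha htw ⟨he, h2, h1⟩
  · have b := L.braid ha he h1
    have h3 : (a * e) * a * (a * e)⁻¹ = e := by
      rw [mul_inv_rev, inv_of_sq (L.sq a ha), inv_of_sq (L.sq e he)]
      calc (a * e) * a * (e * a) = (a * e * a) * (e * a) := by group
        _ = (e * a * e) * (e * a) := by rw [b]
        _ = e * a * (e * e) * a := by group
        _ = e := by rw [L.sq e he, mul_one, mul_assoc, L.sq a ha, mul_one]
    have := L.twin_conj (a * e) htw
    rwa [h3] at this

end Loc

end Cfsg.Agent.Lib.ThreeT.LocS
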