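import Cfsg.Agent.Lib.ThreeT.LocS3
import Cfsg.Agent.Lib.ThreeT.Classes
import Cfsg.Agent.Lib.Core.Basic

/-!
# 3-transposition sets whose local groups are symmetric of degree three: all members have twins
-/

set_option autoImplicit false

namespace Cfsg.Agent.Lib.ThreeT.LocS

open Subgroup Cfsg.Agent.Lib.ThreeT.UQ

variable {G : Type*} [Group G] {D : Set G}

section AllTwins

variable (L : Loc D) (AT : ∀ e ∈ D, Twin D e)
include L AT

/-- The neighbours of a neighbour are the twins. -/
theorem nn_nn_eq {d q y : G} (hd : d ∈ D) (hq : q ∈ NN D d) (hy : y ∈ NN D q) : NN D y = NN D d := by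
  obtain ⟨d₂, hd₂, hne, hNN⟩ := AT d hd
  have h1 : d ∈ NN D q := L.nn_symm hd hq
  have h2 : d₂ ∈ NN D q := L.nn_symm hd₂ (hNN ▸ hq)
  have hnd : d ≠ d₂ := fun h => hne h.symm
  have hEq := L.nn_eq hq.1 h1 h2 hnd
  rw [hEq] at hy
  simp only [Set.mem_insert_iff, Set.mem_singleton_iff] at hy
  rcases hy with rfl | rfl | rfl
  · rfl
  · exact hNN
  · symm
    apply L.nn_subset_eq hd (L.conj_mem hd hd₂)
    intro f hf
    have c1 : d * f = f * d := L.nn_comm hf
    have c2 : d₂ * f = f * d₂ := L.nn_comm (hNN ▸ hf)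
    have h3 := L.third_mem h1 h2
    have hn := L.nn_noncomm hq.1 h1 h2 hnd
    have hn' := L.nn_noncomm hq.1 h1 h3 (L.third_ne hd hn).2.1
    refine ⟨hf.1, fun e => hn' ?_, ?_⟩
    · rw [← e]
      exact c1
    · calc (d * d₂ * d) * f = d * d₂ * (d * f) := by group
        _ = d * (d₂ * f) * d := by rw [c1]; group
        _ = (d * f) * d₂ * d := by rw [c2]; group
        _ = _ := by rw [c1]; group

/-- Rotations act on the neighbours of every member. -/
theorem rot_stable {d u v x f : G} (hd : d ∈ D) (hu : u ∈ NN D d) (hv : v ∈ NN D d) (huv : u ≠ v) (hx : x ∈ D)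
    (hf : f ∈ NN D x) : (u * v) * f * (u * v)⁻¹ ∈ NN D x := by
  have su := L.sq u hu.1
  have sv := L.sq v hv.1
  by_cases h1 : x ∈ NN D d
  · have h2 := nn_nn_eq L AT hd h1 hf
    have c1 : f * u = u * f := L.nn_comm (h2 ▸ hu : u ∈ NN D f)
    have c2 : f * v = v * f := L.nn_comm (h2 ▸ hv : v ∈ NN D f)
    have e : (u * v) * f * (u * v)⁻¹ = f := by
      rw [mul_inv_eq_iff_eq_mul]
      calc u * v * f = u * (v * f) := by group
        _ = (u * f) * v := by rw [← c2]; group
        _ = f * (u * v) := by rw [← c1]; group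
    rw [e]
    exact hf
  by_cases h2 : NN D x = NN D d
  · rw [h2] at hf ⊢
    have e : (u * v) * f * (u * v)⁻¹ = u * (v * f * v) * u := by
      rw [mul_inv_rev, inv_of_sq su, inv_of_sq sv]
      group
    rw [e]
    exact L.third_mem hu (L.third_mem hv hf)
  · have hdx : d * x ≠ x * d := by
      intro h
      by_cases h3 : x = d
      · rw [h3] at h2
        exact h2 rfl
      · exact h1 ⟨hx, h3, h⟩
    have hdisj : ∀ q ∈ NN D d, q ∉ NN D x := by
      intro q hq hq2
      exact h2 (nn_nn_eq L AT hd hq (L.nn_symm hx hq2))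
    exact (L.E_cycle hd hx hdx hdisj hv hu (fun h => huv h.symm)).1 f hf

/-- Two rotations commute. -/
theorem rot_comm {d u v d' u' v' : G} (hd : d ∈ D) (hu : u ∈ NN D d) (hv : v ∈ NN D d) (huv : u ≠ v)
    (hd' : d' ∈ D) (hu' : u' ∈ NN D d') (hv' : v' ∈ NN D d') (huv' : u' ≠ v') :
    (u' * v') * (u * v) = (u * v) * (u' * v') := by
  have su := L.sq u hu.1
  have sv := L.sq v hv.1
  set r := u * v with hr
  set s := u' * v' with hs
  have h1 : s * u * s⁻¹ ∈ NN D d := rot_stable L AT hd' hu' hv' huv' hd hu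
  have h2 : s * v * s⁻¹ ∈ NN D d := rot_stable L AT hd' hu' hv' huv' hd hv
  have hne : s * u * s⁻¹ ≠ s * v * s⁻¹ := fun h => huv (mul_left_cancel (mul_right_cancel h))
  have h3 := L.rot_pair hd hu hv huv h1 h2 hne
  have e : (s * u * s⁻¹) * (s * v * s⁻¹) = s * r * s⁻¹ := by
    rw [hr]
    group
  rw [e, ← hr] at h3
  rcases h3 with h3 | h3
  · exact mul_inv_eq_iff_eq_mul.1 h3
  · exfalso
    have hs3 : s ^ 3 = 1 := L.rot_cube hd' hu' hv' huv'
    have hr3 : r ^ 3 = 1 := L.rot_cube hd hu hv huv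
    have h4 : s * r⁻¹ * s⁻¹ = r := by
      have : s * r⁻¹ * s⁻¹ = (s * r * s⁻¹)⁻¹ := by group
      rw [this, h3, inv_inv]
    have h5 : s * (s * (s * r * s⁻¹) * s⁻¹) * s⁻¹ = r⁻¹ := by
      rw [h3, h4, h3]
    have h6 : s * (s * (s * r * s⁻¹) * s⁻¹) * s⁻¹ = s ^ 3 * r * (s ^ 3)⁻¹ := by
      rw [pow_succ, pow_two]
      group
    rw [h6, hs3] at h5
    simp only [one_mul, inv_one, mul_one] at h5
    have h7 : r * r = 1 := by
      nth_rewrite 2 [h5]
      exact mul_inv_cancel r
    have h8 : r = 1 := by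
      have : r ^ 3 = r * (r * r) := by rw [pow_succ, pow_two, mul_assoc]
      rw [this, h7, mul_one] at hr3
      exact hr3
    apply huv
    have h9 : u * v = 1 := h8
    have h10 : u = v⁻¹ := eq_inv_of_mul_eq_one_left h9
    rw [h10, inv_of_sq sv]

/-- The rotations. -/
def Rot (D : Set G) : Set G := {r | ∃ d ∈ D, ∃ u ∈ NN D d, ∃ v ∈ NN D d, u ≠ v ∧ r = u * v}

omit L AT in
theorem rot_mem {d u v : G} (hd : d ∈ D) (hu : u ∈ NN D d) (hv : v ∈ NN D d) (huv : u ≠ v) : u * v ∈ Rot D :=
  ⟨d, hd, u, hu, v, hv, huv, rfl⟩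

/-- The group generated by the rotations. -/
def VV (D : Set G) : Subgroup G := closure (Rot D)

theorem VV_comm {x y : G} (hx : x ∈ VV D) (hy : y ∈ VV D) : x * y = y * x := by
  refine (Cfsg.Agent.Lib.ThreeT.closure_comm_of_comm (S := Rot D) ?_ x hx y hy).eq
  rintro _ ⟨d, hd, u, hu, v, hv, huv, rfl⟩ _ ⟨d', hd', u', hu', v', hv', huv', rfl⟩
  exact rot_comm L AT hd' hu' hv' huv' hd hu hv huv

theorem VV_cube {s : G} (hs : s ∈ VV D) : s ^ 3 = 1 := by
  induction hs using closure_induction with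
  | mem x hx =>
    obtain ⟨d, hd, u, hu, v, hv, huv, rfl⟩ := hx
    exact L.rot_cube hd hu hv huv
  | one => simp
  | mul x y hx hy ihx ihy =>
    rw [(show Commute x y from VV_comm L AT hx hy).mul_pow, ihx, ihy, one_mul]
  | inv x _ ih => rw [inv_pow, ih, inv_one]

omit AT in
theorem rot_conj (g : G) {r : G} (hr : r ∈ Rot D) : g * r * g⁻¹ ∈ Rot D := by
  obtain ⟨d, hd, u, hu, v, hv, huv, rfl⟩ := hr
  refine ⟨g * d * g⁻¹, L.conj g d hd, g * u * g⁻¹, L.nn_conj g hu, g * v * g⁻¹, L.nn_conj g hv,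
    fun h => huv (mul_left_cancel (mul_right_cancel h)), by group⟩

omit AT in
theorem VV_normal : (VV D).Normal := by
  refine ⟨fun n hn g => ?_⟩
  induction hn using closure_induction with
  | mem x hx => exact subset_closure (rot_conj L g hx)
  | one => simp [one_mem]
  | mul x y _ _ ihx ihy =>
    have e : g * (x * y) * g⁻¹ = (g * x * g⁻¹) * (g * y * g⁻¹) := by group
    rw [e]
    exact mul_mem ihx ihy
  | inv x _ ih =>
    have e : g * x⁻¹ * g⁻¹ = (g * x * g⁻¹)⁻¹ := by group
    rw [e]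
    exact inv_mem ih

/-- Elements of `V` commuting with `x` are powers of a given rotation commuting with `x`. -/
theorem VV_cent [Finite G] {x s t : G} (hcard : Nat.card (Cfsg.pCore 3 ↥(centralizer ({x} : Set G))) = 3)
    (hs : s ∈ VV D) (hsx : s * x = x * s) (ht : t ∈ VV D) (htx : t * x = x * t) (ht1 : t ≠ 1) :
    s ∈ zpowers t := by
  set C := centralizer ({x} : Set G) with hC
  have hVn := VV_normal L
  have hmemC : ∀ c : G, c * x = x * c → c ∈ C := fun c hc => by
    rw [hC, Subgroup.mem_centralizer_singleton_iff]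
    exact hc
  have hW : (VV D).subgroupOf C ≤ Cfsg.pCore 3 ↥C := by
    apply Cfsg.Agent.Lib.Core.le_pCore (hVn.subgroupOf C)
    intro y
    refine ⟨1, ?_⟩
    apply Subtype.ext
    apply Subtype.ext
    have := VV_cube L AT (Subgroup.mem_subgroupOf.1 y.2)
    simpa using this
  have h1 : (⟨t, hmemC t htx⟩ : C) ∈ Cfsg.pCore 3 ↥C := hW (Subgroup.mem_subgroupOf.2 ht)
  have h2 : (⟨s, hmemC s hsx⟩ : C) ∈ Cfsg.pCore 3 ↥C := hW (Subgroup.mem_subgroupOf.2 hs)
  have h3 := mem_zpowers_of_prime_card (G := ↥(Cfsg.pCore 3 ↥C)) (p := 3) hcard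
    (g := ⟨_, h1⟩) (g' := ⟨_, h2⟩) (fun h => ht1 (congrArg (fun y : ↥(Cfsg.pCore 3 ↥C) => ((y : C) : G)) h))
  obtain ⟨k, hk⟩ := h3
  refine ⟨k, ?_⟩
  have := congrArg (fun y : ↥(Cfsg.pCore 3 ↥C) => ((y : C) : G)) hk
  simpa using this

/-- The involutions `x y` invert all the rotations. -/
theorem key [Finite G] (hcard : ∀ d ∈ D, Nat.card (Cfsg.pCore 3 ↥(centralizer ({d} : Set G))) = 3)
    {x y r : G} (hx : x ∈ D) (hy : y ∈ NN D x) (hr : r ∈ Rot D) : (x * y) * r * (x * y)⁻¹ = r⁻¹ := by
  have sx := L.sq x hx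
  have sy := L.sq y hy.1
  have hcxy : x * y = y * x := L.nn_comm hy
  have hai : (x * y)⁻¹ = y * x := by
    rw [mul_inv_rev, inv_of_sq sx, inv_of_sq sy]
  have hrV : r ∈ VV D := subset_closure hr
  -- inversion of the elements of `V` commuting with `x`
  obtain ⟨f, hf, hfy⟩ := L.exists_other (x := y) hx
  have sf := L.sq f hf.1
  have hyf : y ≠ f := fun h => hfy h.symm
  have htR : y * f ∈ Rot D := rot_mem hx hy hf hyf
  have ht1 : y * f ≠ 1 := by
    intro h
    apply hyf
    have h10 : y = f⁻¹ := eq_inv_of_mul_eq_one_left h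
    rw [h10, inv_of_sq sf]
  have htx : (y * f) * x = x * (y * f) := by
    have c1 : x * f = f * x := L.nn_comm hf
    calc (y * f) * x = y * (f * x) := by group
      _ = (y * x) * f := by rw [← c1]; group
      _ = x * (y * f) := by rw [← hcxy]; group
  have hat : (x * y) * (y * f) * (x * y)⁻¹ = (y * f)⁻¹ := by
    have c1 : x * f = f * x := L.nn_comm hf
    rw [hai, mul_inv_rev, inv_of_sq sy, inv_of_sq sf]
    calc (x * y) * (y * f) * (y * x) = x * (y * y) * f * y * x := by group
      _ = (x * f) * y * x := by rw [sy, mul_one]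
      _ = f * (x * y) * x := by rw [c1]; group
      _ = f * (y * x) * x := by rw [hcxy]
      _ = f * y := by rw [mul_assoc, mul_assoc, sx, mul_one]
  have hs : ∀ s ∈ VV D, s * x = x * s → (x * y) * s * (x * y)⁻¹ = s⁻¹ := by
    intro s hs hsx
    obtain ⟨k, rfl⟩ := VV_cent L AT (hcard x hx) hs hsx (subset_closure htR) htx ht1
    have e1 : (x * y) * (y * f) ^ k * (x * y)⁻¹ = ((x * y) * (y * f) * (x * y)⁻¹) ^ k := by
      rw [conj_zpow]
    simp only [] at *
    rw [e1, hat, inv_zpow]
  -- the image of `x`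
  obtain ⟨d, hd, u, hu, v, hv, huv, rfl⟩ := hr
  set r := u * v with hrdef
  set x' := r * x * r⁻¹ with hx'
  have hx'D : x' ∈ D := L.conj r x hx
  have hN : NN D x' = NN D x := by
    apply L.nn_subset_eq hx'D hx
    intro g hg
    have h3 := (L.nn_conj_iff r).1 hg
    have h4 := rot_stable L AT hd hu hv huv hx h3
    have e2 : (u * v) * (r⁻¹ * g * r) * (u * v)⁻¹ = g := by
      rw [← hrdef]
      group
    rwa [e2] at h4
  have h1 : x' ∈ NN D y := L.nn_symm hx'D (hN ▸ hy)
  have h2 : x ∈ NN D y := L.nn_symm hx hy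
  by_cases he : x' = x
  · apply hs r hrV
    have : r * x * r⁻¹ = x := he
    exact mul_inv_eq_iff_eq_mul.1 this
  · -- the rotation moving `x` to `x'`
    set R := x * x' with hR
    have hRR : R ∈ Rot D := rot_mem hy.1 h2 h1 (fun h => he h.symm)
    have hRV : R ∈ VV D := subset_closure hRR
    have sx' := L.sq x' hx'D
    have hn := L.nn_noncomm hy.1 h2 h1 (fun h => he h.symm)
    have hb := L.braid hx hx'D hn
    have hRinv : R⁻¹ = x' * x := by
      rw [hR, mul_inv_rev, inv_of_sq sx, inv_of_sq sx']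
    have hRx : R * x * R⁻¹ = x' := by
      rw [hRinv, hR]
      calc x * x' * x * (x' * x) = (x * x' * x) * x' * x := by group
        _ = (x' * x * x') * x' * x := by rw [hb]
        _ = x' * x * (x' * x') * x := by group
        _ = x' := by rw [sx', mul_one, mul_assoc, sx, mul_one]
    have c1 : y * x = x * y := L.nn_comm h2
    have c2 : y * x' = x' * y := L.nn_comm h1
    have hRa : (x * y) * R * (x * y)⁻¹ = R⁻¹ := by
      rw [hai, hRinv, hR]
      calc (x * y) * (x * x') * (y * x) = x * (y * x) * x' * y * x := by group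
        _ = x * (x * y) * x' * y * x := by rw [c1]
        _ = (x * x) * (y * x') * y * x := by group
        _ = (x' * y) * y * x := by rw [sx, one_mul, c2]
        _ = x' * x := by rw [mul_assoc x', sy, mul_one]
    set s := R⁻¹ * r with hsdef
    have hsV : s ∈ VV D := mul_mem (inv_mem hRV) hrV
    have hrx : r * x = x' * r := by
      rw [hx']
      group
    have hRx2 : R⁻¹ * x' = x * R⁻¹ := by
      rw [← hRx]
      group
    have hsx : s * x = x * s := by
      calc s * x = R⁻¹ * (r * x) := by rw [hsdef]; group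
        _ = (R⁻¹ * x') * r := by rw [hrx]; group
        _ = x * s := by rw [hRx2, hsdef]; group
    have h3 := hs s hsV hsx
    have hrs : r = R * s := by
      rw [hsdef]
      group
    have hcomm : s * R = R * s := VV_comm L AT hsV hRV
    calc (x * y) * r * (x * y)⁻¹ = ((x * y) * R * (x * y)⁻¹) * ((x * y) * s * (x * y)⁻¹) := by
          rw [hrs]
          group
      _ = R⁻¹ * s⁻¹ := by rw [hRa, h3]
      _ = (s * R)⁻¹ := (mul_inv_rev s R).symm
      _ = r⁻¹ := by rw [hcomm, ← hrs]

/-- A member outside the block is impossible. -/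
theorem no_outside [Finite G] (hcard : ∀ d ∈ D, Nat.card (Cfsg.pCore 3 ↥(centralizer ({d} : Set G))) = 3)
    {e p x : G} (he : e ∈ D) (hp : p ∈ NN D e) (hx : x ∈ D) (h1 : e * x ≠ x * e) (h2 : p * x ≠ x * p) : False := by
  have se := L.sq e he
  have sp := L.sq p hp.1
  have hep : e * p = p * e := L.nn_comm hp
  have hne : e ≠ p := fun h => hp.2.1 h.symm
  have hstar := L.E_mem he hp.1 hx hep hne h1 h2
  set xs := (e * p) * x * (e * p) with hxs
  have hy₂ : p * x * p ∈ NN D (e * x * e) := by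
    have h3 := L.nn_conj e hstar
    rw [inv_of_sq se] at h3
    have e1 : e * xs * e = p * x * p := by
      rw [hxs]
      calc e * ((e * p) * x * (e * p)) * e = (e * e) * p * x * (e * p * e) := by group
        _ = p * x * (e * p * e) := by rw [se, one_mul]
        _ = p * x * (p * e * e) := by rw [hep]
        _ = p * x * p := by rw [sq_cancel' se]
    rwa [e1] at h3
  have hy₁ : e * x * e ∈ D := L.conj_mem he hx
  obtain ⟨u, hu, v, hv, huv⟩ := L.pair e he
  have huv' : u ≠ v := fun h => huv (by rw [h])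
  have hr : u * v ∈ Rot D := rot_mem he hu hv huv'
  set r := u * v with hrdef
  have k1 := key L AT hcard he hp hr
  have k2 := key L AT hcard hx hstar hr
  have k3 := key L AT hcard hy₁ hy₂ hr
  have b1 : e * x * e = x * e * x := L.braid he hx h1
  have b2 : p * x * p = x * p * x := L.braid hp.1 hx h2
  have hprod : (e * p) * (x * xs) = (e * x * e) * (p * x * p) := by
    rw [hxs]
    calc (e * p) * (x * ((e * p) * x * (e * p))) = e * p * x * (e * p) * x * (e * p) := by group
      _ = e * p * x * (p * e) * x * (e * p) := by rw [hep]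
      _ = e * (p * x * p) * e * x * (e * p) := by group
      _ = e * (x * p * x) * e * x * (e * p) := by rw [b2]
      _ = e * x * p * (x * e * x) * (e * p) := by group
      _ = e * x * p * (e * x * e) * (e * p) := by rw [b1]
      _ = e * x * p * e * x * (e * e) * p := by group
      _ = e * x * (p * e) * x * p := by rw [se, mul_one]; group
      _ = e * x * (e * p) * x * p := by rw [hep]
      _ = _ := by group
  rw [← hprod] at k3
  have k4 : ((e * p) * (x * xs)) * r * ((e * p) * (x * xs))⁻¹ = r := by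
    have e2 : ((e * p) * (x * xs)) * r * ((e * p) * (x * xs))⁻¹ =
        (e * p) * ((x * xs) * r * (x * xs)⁻¹) * (e * p)⁻¹ := by group
    rw [e2, k2]
    have e3 : (e * p) * r⁻¹ * (e * p)⁻¹ = ((e * p) * r * (e * p)⁻¹)⁻¹ := by group
    rw [e3, k1, inv_inv]
  rw [k4] at k3
  -- `r = r⁻¹`
  have hr3 : r ^ 3 = 1 := L.rot_cube he hu hv huv'
  have h7 : r * r = 1 := by
    nth_rewrite 2 [k3]
    exact mul_inv_cancel r
  have h8 : r = 1 := by
    have : r ^ 3 = r * (r * r) := by rw [pow_succ, pow_two, mul_assoc]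
    rw [this, h7, mul_one] at hr3
    exact hr3
  apply huv'
  have h10 : u = v⁻¹ := eq_inv_of_mul_eq_one_left h8
  rw [h10, inv_of_sq (L.sq v hv.1)]

/-- If the block is everything, the group is a direct product. -/
theorem prod_iso {e p : G} (he : e ∈ D) (hp : p ∈ NN D e) (hcover : ∀ x ∈ D, x ∈ NN D e ∨ x ∈ NN D p)
    (hz : ∀ x ∈ closure (NN D e), (∀ y ∈ closure (NN D e), x * y = y * x) → x = 1) :
    Nonempty (↥(closure D) ≃* ↥(closure (NN D e)) × ↥(closure (NN D p))) := by
  set H₁ := closure (NN D e) with hH₁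
  set H₂ := closure (NN D p) with hH₂
  have hcomm0 : ∀ a ∈ NN D e, ∀ b ∈ NN D p, a * b = b * a := by
    intro a ha b hb
    have h2 := nn_nn_eq L AT he hp hb
    exact (L.nn_comm (h2 ▸ ha : a ∈ NN D b)).symm
  have hcomm1 : H₂ ≤ centralizer (NN D e) := by
    rw [hH₂, closure_le]
    intro b hb
    rw [SetLike.mem_coe, Subgroup.mem_centralizer_iff]
    intro a ha
    exact hcomm0 a ha b hb
  have hcomm2 : H₁ ≤ centralizer (H₂ : Set G) := by
    rw [hH₁, closure_le]
    intro a ha
    rw [SetLike.mem_coe, Subgroup.mem_centralizer_iff]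
    intro b hb
    exact (Subgroup.mem_centralizer_iff.1 (hcomm1 hb) a ha).symm
  have hcomm : ∀ (a : H₁) (b : H₂), Commute (H₁.subtype a) (H₂.subtype b) := by
    intro a b
    have := Subgroup.mem_centralizer_iff.1 (hcomm2 a.2) b.1 b.2
    exact this.symm
  let f : ↥H₁ × ↥H₂ →* G := MonoidHom.noncommCoprod H₁.subtype H₂.subtype hcomm
  have hf : ∀ x : ↥H₁ × ↥H₂, f x = (x.1 : G) * x.2 := fun x => rfl
  have hinj : Function.Injective f := by
    rw [injective_iff_map_eq_one]
    rintro ⟨a, b⟩ h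
    rw [hf] at h
    have h1 : (a : G) = (b : G)⁻¹ := eq_inv_of_mul_eq_one_left h
    have h2 : (a : G) ∈ H₂ := by
      rw [h1]
      exact inv_mem b.2
    have h3 : (a : G) = 1 := by
      apply hz _ a.2
      intro y hy
      exact (Subgroup.mem_centralizer_iff.1 (hcomm2 hy) _ h2)
    have h4 : (b : G) = 1 := by
      rw [h3, one_mul] at h
      exact h
    exact Prod.ext (Subtype.ext h3) (Subtype.ext h4)
  have hr : f.range = closure D := by
    rw [MonoidHom.noncommCoprod_range, Subgroup.range_subtype, Subgroup.range_subtype, hH₁, hH₂, ← Subgroup.closure_union]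
    congr 1
    ext x
    constructor
    · rintro (h | h)
      · exact h.1
      · exact h.1
    · intro h
      exact hcover x h
  exact ⟨(MulEquiv.subgroupCongr hr).symm.trans (MonoidHom.ofInjective hinj).symm⟩

end AllTwins

end Cfsg.Agent.Lib.ThreeT.LocS
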