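import Cfsg.Agent.Lib.ThreeT.LocS3b
import Cfsg.Agent.Lib.Known3.CoxA

/-!
# 3-transposition sets whose local groups are symmetric of degree three: no twins
-/

set_option autoImplicit false

namespace Cfsg.Agent.Lib.ThreeT.LocS

open Subgroup Cfsg.Agent.Lib.ThreeT.UQ

variable {G : Type*} [Group G] {D : Set G}

/-- A central element of the symmetric group is trivial. -/
theorem perm5_central {y : Equiv.Perm (Fin 5)} (h : ∀ g : Equiv.Perm (Fin 5), g * y = y * g) : y = 1 := by
  by_contra hne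
  obtain ⟨i, hi⟩ : ∃ i, y i ≠ i := by
    by_contra h2
    push Not at h2
    exact hne (Equiv.ext h2)
  obtain ⟨j, hj1, hj2⟩ : ∃ j, j ≠ i ∧ j ≠ y i := by
    have : ∀ a b : Fin 5, ∃ j, j ≠ a ∧ j ≠ b := by decide
    exact this _ _
  have h1 := congrArg (fun s : Equiv.Perm (Fin 5) => s i) (h (Equiv.swap i j))
  simp only [Equiv.Perm.mul_apply, Equiv.swap_apply_left] at h1
  rw [Equiv.swap_apply_of_ne_of_ne hi (Ne.symm hj2)] at h1
  exact hj1 (y.injective h1).symm

/-- A homomorphism from the symmetric group of degree five not killing a three-cycle is injective. -/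
theorem perm5_inj (φ : Equiv.Perm (Fin 5) →* G) (h : φ (Equiv.swap 0 1 * Equiv.swap 1 2) ≠ 1) :
    Function.Injective φ := by
  rw [injective_iff_map_eq_one]
  intro y hy
  have hKn : φ.ker.Normal := inferInstance
  have hsimple := IsSimpleGroup.eq_bot_or_eq_top_of_normal (φ.ker.subgroupOf (alternatingGroup (Fin 5)))
    (hKn.subgroupOf _)
  rcases hsimple with h1 | h1
  · apply perm5_central
    intro g
    have h2 : g * y * g⁻¹ * y⁻¹ ∈ φ.ker := by
      rw [MonoidHom.mem_ker]
      simp [hy]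
    have h3 : g * y * g⁻¹ * y⁻¹ ∈ alternatingGroup (Fin 5) := by
      rw [Equiv.Perm.mem_alternatingGroup]
      simp only [map_mul, map_inv]
      have : ∀ a b : ℤˣ, a * b * a⁻¹ * b⁻¹ = 1 := by decide
      exact this _ _
    have h4 : (⟨_, h3⟩ : alternatingGroup (Fin 5)) ∈ φ.ker.subgroupOf (alternatingGroup (Fin 5)) :=
      Subgroup.mem_subgroupOf.2 h2
    rw [h1, Subgroup.mem_bot] at h4
    have h5 : g * y * g⁻¹ * y⁻¹ = 1 := congrArg Subtype.val h4
    have h6 := mul_inv_eq_one.1 h5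
    exact mul_inv_eq_iff_eq_mul.1 h6
  · exfalso
    apply h
    have h3 : (Equiv.swap 0 1 * Equiv.swap 1 2 : Equiv.Perm (Fin 5)) ∈ alternatingGroup (Fin 5) := by
      rw [Equiv.Perm.mem_alternatingGroup, map_mul, Equiv.Perm.sign_swap (by decide), Equiv.Perm.sign_swap (by decide)]
      rfl
    have h4 : (⟨_, h3⟩ : alternatingGroup (Fin 5)) ∈ φ.ker.subgroupOf (alternatingGroup (Fin 5)) := by
      rw [h1]
      exact Subgroup.mem_top _
    exact (Subgroup.mem_subgroupOf.1 h4)

theorem A4_values (i j : Fin 4) : (CoxeterMatrix.A 4) i j =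
    (![![1, 3, 2, 2], ![3, 1, 3, 2], ![2, 3, 1, 3], ![2, 2, 3, 1]] : Fin 4 → Fin 4 → ℕ) i j := by
  fin_cases i <;> fin_cases j <;> rfl

section NoTwins

variable (L : Loc D) (NT : ∀ e ∈ D, ¬ Twin D e)
include L NT

/-- The symmetric group of degree five. -/
theorem sym5_of_noTwins {a : G} (ha : a ∈ D) : Nonempty (↥(closure D) ≃* Equiv.Perm (Fin 5)) := by
  classical
  obtain ⟨x, hx, z, hz, hxz⟩ := L.pair a ha
  have hxzne : x ≠ z := fun h => hxz (by rw [h])
  obtain ⟨b, hb, hba⟩ := L.exists_other (x := a) hz.1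
  have hazz : a ∈ NN D z := L.nn_symm ha hz
  have hab : a * b ≠ b * a := L.nn_noncomm hz.1 hazz hb (fun h => hba h.symm)
  have hbx : b * x ≠ x * b := by
    intro h
    apply NT a ha
    refine ⟨b, hb.1, hba, ?_⟩
    have hbne : x ≠ b := by
      intro e
      apply hxz
      have := L.nn_comm hb
      rw [← e] at this
      exact this.symm.symm ▸ this.symm
    have h1 : x ∈ NN D b := ⟨hx.1, hbne, h⟩
    have h2 : z ∈ NN D b := L.nn_symm hz.1 hb
    have hEq1 := L.nn_eq hb.1 h1 h2 hxzne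
    have hEq2 := L.nn_eq ha hx hz hxzne
    rw [hEq1, hEq2]
  have sa := L.sq a ha
  have sb := L.sq b hb.1
  have sx := L.sq x hx.1
  have sz := L.sq z hz.1
  have hax : (a * x) ^ 2 = 1 := by
    rw [pow_two]
    calc a * x * (a * x) = a * (x * a) * x := by group
      _ = a * (a * x) * x := by rw [L.nn_comm hx]
      _ = (a * a) * (x * x) := by group
      _ = 1 := by rw [sa, sx, one_mul]
  have haz : (a * z) ^ 2 = 1 := by
    rw [pow_two]
    calc a * z * (a * z) = a * (z * a) * z := by group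
      _ = a * (a * z) * z := by rw [L.nn_comm hz]
      _ = (a * a) * (z * z) := by group
      _ = 1 := by rw [sa, sz, one_mul]
  have hbz : (b * z) ^ 2 = 1 := by
    rw [pow_two]
    have c : z * b = b * z := L.nn_comm hb
    calc b * z * (b * z) = b * (z * b) * z := by group
      _ = b * (b * z) * z := by rw [c]
      _ = (b * b) * (z * z) := by group
      _ = 1 := by rw [sb, sz, one_mul]
  have hinv2 : ∀ {s t : G}, (s * t) ^ 2 = 1 → s * s = 1 → t * t = 1 → (t * s) ^ 2 = 1 := by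
    intro s t h ss st
    have h1 : s * t = t * s := by
      have h2 : s * t * (s * t) = 1 := by rw [← pow_two]; exact h
      calc s * t = s * t * ((s * t) * (t * s)) := by
            have : (s * t) * (t * s) = 1 := by
              calc (s * t) * (t * s) = s * (t * t) * s := by group
                _ = 1 := by rw [st, mul_one, ss]
            rw [this, mul_one]
        _ = (s * t * (s * t)) * (t * s) := by group
        _ = t * s := by rw [h2, one_mul]
    rw [← h1]
    exact h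
  have hinv3 : ∀ {s t : G}, (s * t) ^ 3 = 1 → s * s = 1 → t * t = 1 → (t * s) ^ 3 = 1 := by
    intro s t h ss st
    have e : (t * s) = t * (s * t) * t⁻¹ := by group
    rw [e, conj_pow, h]
    group
  let f : Fin 4 → G := ![a, b, x, z]
  have hf : (CoxeterMatrix.A 4).IsLiftable f := by
    intro i j
    rw [A4_values]
    have c3ab := L.cube a ha b hb.1 hab
    have c3bx := L.cube b hb.1 x hx.1 hbx
    have c3xz := L.cube x hx.1 z hz.1 hxz
    fin_cases i <;> fin_cases j <;> simp [f]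
    all_goals first
      | assumption
      | exact hinv2 (by assumption) (by assumption) (by assumption)
      | exact hinv3 (by assumption) (by assumption) (by assumption)
  let φ : Equiv.Perm (Fin 5) →* G := (Cfsg.Agent.Lib.Known3.CoxA.cs 4).lift ⟨f, hf⟩
  have hφ : ∀ i : Fin 4, φ (Equiv.swap i.castSucc i.succ) = f i := by
    intro i
    rw [← Cfsg.Agent.Lib.Known3.CoxA.cs_simple]
    exact CoxeterSystem.lift_apply_simple _ _ i
  have h0 : φ (Equiv.swap 0 1) = a := hφ 0
  have h1 : φ (Equiv.swap 1 2) = b := hφ 1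
  have h2 : φ (Equiv.swap 2 3) = x := hφ 2
  have h3 : φ (Equiv.swap 3 4) = z := hφ 3
  have hinj : Function.Injective φ := by
    apply perm5_inj
    rw [map_mul, h0, h1]
    intro e
    apply hab
    have h10 : a = b⁻¹ := eq_inv_of_mul_eq_one_left e
    rw [h10, inv_of_sq sb]
  have hconj : ∀ σ : Equiv.Perm (Fin 5), σ.IsSwap → ∃ c, σ = c * Equiv.swap 0 1 * c⁻¹ := by
    rintro σ ⟨i, j, hij, rfl⟩
    obtain ⟨c, hc⟩ := isConj_iff.1 (Equiv.Perm.isConj_swap (w := 0) (x := 1) (y := i) (z := j) (by decide) hij)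
    exact ⟨c, hc.symm⟩
  have hswapconj : ∀ c σ : Equiv.Perm (Fin 5), σ.IsSwap → (c * σ * c⁻¹).IsSwap := by
    rintro c σ ⟨i, j, hij, rfl⟩
    exact ⟨c i, c j, fun h => hij (c.injective h), (Equiv.swap_apply_apply c i j).symm⟩
  have hImD : ∀ σ : Equiv.Perm (Fin 5), σ.IsSwap → φ σ ∈ D := by
    intro σ hσ
    obtain ⟨c, rfl⟩ := hconj σ hσ
    rw [map_mul, map_mul, map_inv, h0]
    exact L.conj _ a ha
  have hNa : ∀ y ∈ NN D a, ∃ σ : Equiv.Perm (Fin 5), σ.IsSwap ∧ φ σ = y := by
    intro y hy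
    rw [L.nn_eq ha hx hz hxzne] at hy
    simp only [Set.mem_insert_iff, Set.mem_singleton_iff] at hy
    rcases hy with rfl | rfl | rfl
    · exact ⟨Equiv.swap 2 3, ⟨2, 3, by decide, rfl⟩, h2⟩
    · exact ⟨Equiv.swap 3 4, ⟨3, 4, by decide, rfl⟩, h3⟩
    · refine ⟨Equiv.swap 2 4, ⟨2, 4, by decide, rfl⟩, ?_⟩
      have e : (Equiv.swap 2 4 : Equiv.Perm (Fin 5)) = Equiv.swap 2 3 * Equiv.swap 3 4 * Equiv.swap 2 3 := by decide
      rw [e, map_mul, map_mul, h2, h3]
  have hNσ : ∀ σ : Equiv.Perm (Fin 5), σ.IsSwap → ∀ y ∈ NN D (φ σ), ∃ ρ : Equiv.Perm (Fin 5), ρ.IsSwap ∧ φ ρ = y := by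
    intro σ hσ y hy
    obtain ⟨c, rfl⟩ := hconj σ hσ
    rw [map_mul, map_mul, map_inv, h0] at hy
    have h5 := (L.nn_conj_iff (φ c)).1 hy
    obtain ⟨ρ, hρ, h6⟩ := hNa _ h5
    refine ⟨c * ρ * c⁻¹, hswapconj c ρ hρ, ?_⟩
    rw [map_mul, map_mul, map_inv, h6]
    group
  have hcover : ∀ e ∈ D, ∃ σ : Equiv.Perm (Fin 5), σ.IsSwap ∧ φ σ = e := by
    intro e he
    by_cases h5 : a * e = e * a
    · by_cases h6 : e = a
      · exact ⟨Equiv.swap 0 1, ⟨0, 1, by decide, rfl⟩, by rw [h0, h6]⟩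
      · exact hNa e ⟨he, h6, h5⟩
    · by_contra hcon
      have hdisj : ∀ q ∈ NN D a, q ∉ NN D e := by
        intro q hq hq2
        obtain ⟨σ, hσ, rfl⟩ := hNa q hq
        exact hcon (hNσ σ hσ e (L.nn_symm he hq2))
      exact NT e he (L.twin_of_disj ha he h5 hdisj)
  have hD : D = φ '' {σ | σ.IsSwap} := by
    ext e
    constructor
    · intro he
      obtain ⟨σ, hσ, rfl⟩ := hcover e he
      exact ⟨σ, hσ, rfl⟩
    · rintro ⟨σ, hσ, rfl⟩
      exact hImD σ hσ
  have hrange : φ.range = closure D := by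
    rw [hD, ← MonoidHom.map_closure, Equiv.Perm.closure_isSwap, MonoidHom.range_eq_map]
  exact ⟨(MulEquiv.subgroupCongr hrange).symm.trans (MonoidHom.ofInjective hinj).symm⟩

end NoTwins

end Cfsg.Agent.Lib.ThreeT.LocS
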