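import Cfsg.Agent.Lib.ThreeT.Prim

set_option autoImplicit false

/-!
Primitive 3-transposition groups: central cores, connectivity of the commuting graph, and modules of the
commuting relation; maximality of the subgroup generated by the commuting set.
-/

namespace Cfsg.Agent.Lib.ThreeT

open Cfsg Subgroup Cfsg.Agent.Lib.FStar Cfsg.Agent.Lib.Core

variable {G : Type*} [Group G] {D : Set G}

/-- A primitive group makes every invariant equivalence with a non-trivial class universal. -/
theorem eq_of_primitive_of_rel (hprim : IsPrimitiveUnderConj D) (hsub : ∀ g : G, ∀ a ∈ D, g * a * g⁻¹ ∈ D)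
    (R : G → G → Prop) (hsymm : ∀ {a b}, R a b → R b a) (htrans : ∀ {a b c}, R a b → R b c → R a c)
    (hinv : ∀ (g : G) {a b}, R a b → R (g * a * g⁻¹) (g * b * g⁻¹)) {a b : G} (ha : a ∈ D) (hb : b ∈ D)
    (hne : a ≠ b) (hab : R a b) : ∀ x ∈ D, R a x := by
  set B : Set G := {x | x ∈ D ∧ R a x} with hB
  have haa : R a a := htrans hab (hsymm hab)
  have hblock : ∀ g : G, (fun x => g * x * g⁻¹) '' B = B ∨ Disjoint ((fun x => g * x * g⁻¹) '' B) B := by
    intro g
    by_cases hd : Disjoint ((fun x => g * x * g⁻¹) '' B) B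
    · exact Or.inr hd
    left
    rw [Set.not_disjoint_iff] at hd
    obtain ⟨y, ⟨x, hx, rfl⟩, hy⟩ := hd
    have h1 : R (g * a * g⁻¹) (g * x * g⁻¹) := hinv g hx.2
    have h2 : R a (g * a * g⁻¹) := htrans hy.2 (hsymm h1)
    ext z
    constructor
    · rintro ⟨x', hx', rfl⟩
      exact ⟨hsub g _ hx'.1, htrans h2 (hinv g hx'.2)⟩
    · rintro ⟨hz, h3⟩
      refine ⟨g⁻¹ * z * g, ?_, by group⟩
      have hz' : g⁻¹ * z * g ∈ D := by
        have := hsub g⁻¹ z hz
        rwa [inv_inv] at this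
      refine ⟨hz', ?_⟩
      have h4 : R (g * a * g⁻¹) z := htrans (hsymm h2) h3
      have h5 := hinv g⁻¹ h4
      have e1 : g⁻¹ * (g * a * g⁻¹) * g⁻¹⁻¹ = a := by group
      have e2 : g⁻¹ * z * g⁻¹⁻¹ = g⁻¹ * z * g := by group
      rwa [e1, e2] at h5
  rcases hprim.2.2 B (fun x hx => hx.1) hblock with h | h
  · exact absurd (h ⟨ha, haa⟩ ⟨hb, hab⟩) hne
  · intro x hx
    rw [← h] at hx
    exact hx.2

/-- The commuting reachability relation. -/
def CR (D : Set G) : G → G → Prop :=
  Relation.ReflTransGen (fun u v => u ∈ D ∧ v ∈ D ∧ Commute u v)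

theorem CR_symm {a b : G} (h : CR D a b) : CR D b a := by
  induction h with
  | refl => exact Relation.ReflTransGen.refl
  | tail _ h2 ih =>
    exact Relation.ReflTransGen.head ⟨h2.2.1, h2.1, h2.2.2.symm⟩ ih

theorem CR_conj (hsub : ∀ g : G, ∀ a ∈ D, g * a * g⁻¹ ∈ D) (g : G) {a b : G} (h : CR D a b) :
    CR D (g * a * g⁻¹) (g * b * g⁻¹) := by
  induction h with
  | refl => exact Relation.ReflTransGen.refl
  | tail _ h2 ih =>
    refine Relation.ReflTransGen.tail ih ⟨hsub g _ h2.1, hsub g _ h2.2.1, ?_⟩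
    have h3 := h2.2.2
    show g * _ * g⁻¹ * (g * _ * g⁻¹) = g * _ * g⁻¹ * (g * _ * g⁻¹)
    have e : ∀ x y : G, g * x * g⁻¹ * (g * y * g⁻¹) = g * (x * y) * g⁻¹ := by intro x y; group
    rw [e, e, h3.eq]

/-- The set of products of the commuting relation is universal in the primitive case. -/
theorem CR_all (hprim : IsPrimitiveUnderConj D) (hsub : ∀ g : G, ∀ a ∈ D, g * a * g⁻¹ ∈ D)
    (hw : ∃ a ∈ D, ∃ b ∈ D, a ≠ b ∧ Commute a b) : ∀ x ∈ D, ∀ y ∈ D, CR D x y := by
  obtain ⟨a, ha, b, hb, hne, hab⟩ := hw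
  have h1 := eq_of_primitive_of_rel hprim hsub (CR D) CR_symm Relation.ReflTransGen.trans
    (fun g _ _ h => CR_conj hsub g h) ha hb hne (Relation.ReflTransGen.single ⟨ha, hb, hab⟩)
  intro x hx y hy
  exact Relation.ReflTransGen.trans (CR_symm (h1 x hx)) (h1 y hy)

theorem connected_of_CR {a : G} (ha : a ∈ D) (h : ∀ x ∈ D, ∀ y ∈ D, CR D x y) :
    (commutingGraph D).Connected := by
  have key : ∀ (x : G), CR D a x → ∀ hx : x ∈ D, (commutingGraph D).Reachable ⟨a, ha⟩ ⟨x, hx⟩ := by
    intro x hax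
    induction hax with
    | refl => exact fun _ => SimpleGraph.Reachable.refl _
    | @tail u v hu hst ih =>
      intro hv
      have h1 := ih hst.1
      by_cases hne : u = v
      · subst hne
        exact h1
      · refine h1.trans (SimpleGraph.Adj.reachable ?_)
        rw [commutingGraph, SimpleGraph.fromRel_adj]
        exact ⟨fun h => hne (congrArg Subtype.val h), Or.inl hst.2.2⟩
  have : Nonempty D := ⟨⟨a, ha⟩⟩
  refine SimpleGraph.Connected.mk ?_
  rintro ⟨x, hx⟩ ⟨y, hy⟩
  exact (key x (h a ha x hx) hx).symm.trans (key y (h a ha y hy) hy)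

/-- `A` is a module of the commuting relation on `D`. -/
def IsMod (D A : Set G) : Prop :=
  A ⊆ D ∧ ∀ w ∈ D, w ∉ A → (∀ f ∈ A, Commute w f) ∨ (∀ f ∈ A, ¬ Commute w f)

theorem IsMod.union {A A' : Set G} (h : IsMod D A) (h' : IsMod D A') {x : G} (hx : x ∈ A) (hx' : x ∈ A') :
    IsMod D (A ∪ A') := by
  refine ⟨Set.union_subset h.1 h'.1, ?_⟩
  intro w hw hwn
  have h1 : w ∉ A := fun hh => hwn (Or.inl hh)
  have h2 : w ∉ A' := fun hh => hwn (Or.inr hh)
  rcases h.2 w hw h1 with h3 | h3 <;> rcases h'.2 w hw h2 with h4 | h4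
  · left
    rintro f (hf | hf)
    · exact h3 f hf
    · exact h4 f hf
  · exact absurd (h3 x hx) (h4 x hx')
  · exact absurd (h4 x hx') (h3 x hx)
  · right
    rintro f (hf | hf)
    · exact h3 f hf
    · exact h4 f hf

theorem IsMod.conj (hsub : ∀ g : G, ∀ a ∈ D, g * a * g⁻¹ ∈ D) {A : Set G} (h : IsMod D A) (g : G) :
    IsMod D ((fun x => g * x * g⁻¹) '' A) := by
  refine ⟨?_, ?_⟩
  · rintro _ ⟨x, hx, rfl⟩
    exact hsub g x (h.1 hx)
  · intro w hw hwn
    have hw' : g⁻¹ * w * g ∈ D := by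
      have := hsub g⁻¹ w hw
      rwa [inv_inv] at this
    have hn : g⁻¹ * w * g ∉ A := by
      intro hh
      apply hwn
      exact ⟨_, hh, by group⟩
    have key : ∀ f, Commute (g⁻¹ * w * g) f ↔ Commute w (g * f * g⁻¹) := by
      intro f
      have := commute_conj_iff g⁻¹ w f
      rw [inv_inv] at this
      exact this
    rcases h.2 _ hw' hn with h1 | h1
    · left
      rintro _ ⟨f, hf, rfl⟩
      exact (key f).1 (h1 f hf)
    · right
      rintro _ ⟨f, hf, rfl⟩
      exact fun h2 => h1 f hf ((key f).2 h2)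

section Sep

variable [Finite G]

/-- A class does not split into two mutually commuting parts. -/
theorem sep_comm (hD : IsThreeTranspositionClass D) {A : Set G} (hA : A ⊆ D) {z₀ p₀ : G} (hz : z₀ ∈ A)
    (hp : p₀ ∈ D) (hpn : p₀ ∉ A) (hall : ∀ p ∈ D, p ∉ A → ∀ z ∈ A, Commute p z) : False := by
  have hT := hD.1
  have hc := fun (g : G) (a : G) (ha : a ∈ D) => class_conj_mem hD g ha
  have hstep : ∀ s ∈ D, ∀ z ∈ A, s * z * s⁻¹ ∈ A := by
    intro s hs z hzA
    by_cases hsz : Commute s z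
    · rw [hsz.eq, mul_assoc, mul_inv_cancel, mul_one]
      exact hzA
    by_contra hn
    by_cases hsA : s ∈ A
    · have h1 := hall _ (hc s z (hA hzA)) hn s hsA
      apply hsz
      have hsi := inv_of_mem hT hs
      have hss := mul_self_of_mem hT hs
      rw [hsi] at h1
      have h2 : s * z * s * s = s * (s * z * s) := h1
      have h3 : s * z = z * s := by
        calc s * z = s * z * (s * s) := by rw [hss, mul_one]
          _ = s * z * s * s := by group
          _ = s * (s * z * s) := h2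
          _ = (s * s) * z * s := by group
          _ = z * s := by rw [hss, one_mul]
      exact h3
    · exact hsz (hall s hs hsA z hzA)
  have hgen : ∀ g ∈ closure D, (∀ z ∈ A, g * z * g⁻¹ ∈ A) ∧ (∀ z ∈ A, g⁻¹ * z * g ∈ A) := by
    intro g hg
    induction hg using closure_induction with
    | mem x hx =>
      refine ⟨hstep x hx, fun z hz => ?_⟩
      have := hstep x hx z hz
      rwa [inv_of_mem hT hx] at this ⊢
    | one => exact ⟨fun z hz => by simpa using hz, fun z hz => by simpa using hz⟩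
    | mul x y _ _ h1 h2 =>
      refine ⟨fun z hz => ?_, fun z hz => ?_⟩
      · have := h1.1 _ (h2.1 z hz)
        simpa [mul_assoc] using this
      · have := h2.2 _ (h1.2 z hz)
        simpa [mul_assoc] using this
    | inv x _ h1 =>
      refine ⟨fun z hz => ?_, fun z hz => ?_⟩
      · simpa using h1.2 z hz
      · simpa using h1.1 z hz
  obtain ⟨g, rfl⟩ := class_exists_conj hD (hA hz) hp
  have hg : g ∈ closure D := by rw [hD.2.2]; trivial
  exact hpn ((hgen g hg).1 z₀ hz)

/-- A primitive class does not split into two parts with no commuting across. -/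
theorem sep_noncomm {A : Set G} (hCR : ∀ x ∈ D, ∀ y ∈ D, CR D x y) (hA : A ⊆ D) {z₀ p₀ : G} (hz : z₀ ∈ A)
    (hp : p₀ ∈ D) (hpn : p₀ ∉ A) (hall : ∀ p ∈ D, p ∉ A → ∀ z ∈ A, ¬ Commute p z) : False := by
  have key : ∀ x, CR D z₀ x → x ∈ A := by
    intro x hx
    induction hx with
    | refl => exact hz
    | @tail u v _ hst ih =>
      by_contra hv
      exact hall v hst.2.1 hv u ih hst.2.2.symm
  exact hpn (key _ (hCR z₀ (hA hz) p₀ hp))

/-- A non-trivial module of a primitive class is everything. -/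
theorem module_eq (hD : IsThreeTranspositionClass D) (hprim : IsPrimitiveUnderConj D)
    (hCR : ∀ x ∈ D, ∀ y ∈ D, CR D x y) {U : Set G} (hU : IsMod D U) (hU2 : U.Nontrivial) : U = D := by
  have hc := fun (g : G) (a : G) (ha : a ∈ D) => class_conj_mem hD g ha
  by_contra hne
  set M : Set (Set G) := {A | U ⊆ A ∧ IsMod D A ∧ A ≠ D} with hM
  have hUM : U ∈ M := ⟨le_rfl, hU, hne⟩
  obtain ⟨A, hUA, hmax⟩ := (Set.toFinite M).exists_le_maximal hUM
  obtain ⟨⟨h1, hAm, hAD⟩, hmax2⟩ := hmax
  have hinj : ∀ g : G, Function.Injective (fun x : G => g * x * g⁻¹) := by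
    intro g x y h
    exact mul_left_cancel (mul_right_cancel h)
  have hcard : ∀ g : G, ((fun x => g * x * g⁻¹) '' A).ncard = A.ncard := by
    intro g
    exact Set.ncard_image_of_injective _ (hinj g)
  have hblock : ∀ g : G, (fun x => g * x * g⁻¹) '' A = A ∨ Disjoint ((fun x => g * x * g⁻¹) '' A) A := by
    intro g
    by_cases hd : Disjoint ((fun x => g * x * g⁻¹) '' A) A
    · exact Or.inr hd
    left
    rw [Set.not_disjoint_iff] at hd
    obtain ⟨x₀, hx₀', hx₀⟩ := hd
    set A' := (fun x => g * x * g⁻¹) '' A with hA'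
    have hA'm : IsMod D A' := hAm.conj hc g
    by_contra hne'
    have hnle : ¬ A' ⊆ A := by
      intro hh
      exact hne' (Set.eq_of_subset_of_ncard_le hh (hcard g).ge (Set.toFinite _))
    have hnle2 : ¬ A ⊆ A' := by
      intro hh
      exact hne' (Set.eq_of_subset_of_ncard_le hh (hcard g).le (Set.toFinite _)).symm
    have hun : A ∪ A' = D := by
      by_contra hund
      have h2 : A ∪ A' ∈ M := ⟨h1.trans Set.subset_union_left, hAm.union hA'm hx₀ hx₀', hund⟩
      have h3 := hmax2 h2 Set.subset_union_left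
      exact hnle (Set.subset_union_right.trans h3)
    have hADs : A ⊆ D := hAm.1
    have hA'D : A' ≠ D := by
      intro h
      apply hAD
      have h2 : A.ncard = D.ncard := by rw [← h, hcard g]
      exact Set.eq_of_subset_of_ncard_le hADs h2.ge (Set.toFinite _)
    -- elements
    obtain ⟨p₀, hp₀⟩ : ∃ p₀, p₀ ∈ D ∧ p₀ ∉ A' := by
      by_contra hh
      push Not at hh
      exact hA'D (le_antisymm hA'm.1 hh)
    obtain ⟨q₀, hq₀⟩ : ∃ q₀, q₀ ∈ D ∧ q₀ ∉ A := by
      by_contra hh
      push Not at hh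
      exact hAD (le_antisymm hADs hh)
    have hmemA : ∀ p, p ∈ D → p ∉ A' → p ∈ A := by
      intro p hp hpn
      rw [← hun] at hp
      exact hp.resolve_right hpn
    have hq₀A' : q₀ ∈ A' := by
      have := hq₀.1
      rw [← hun] at this
      exact this.resolve_left hq₀.2
    rcases hA'm.2 p₀ hp₀.1 hp₀.2 with hcase | hcase
    · -- all commute
      have h2 : Commute q₀ p₀ := (hcase q₀ hq₀A').symm
      have h3 : ∀ f ∈ A, Commute q₀ f := by
        rcases hAm.2 q₀ hq₀.1 hq₀.2 with h4 | h4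
        · exact h4
        · exact absurd h2 (h4 p₀ (hmemA p₀ hp₀.1 hp₀.2))
      refine sep_comm hD hA'm.1 hq₀A' hp₀.1 hp₀.2 ?_
      intro p hp hpn z hz
      have h5 : Commute p q₀ := (h3 p (hmemA p hp hpn)).symm
      rcases hA'm.2 p hp hpn with h6 | h6
      · exact h6 z hz
      · exact absurd h5 (h6 q₀ hq₀A')
    · have h2 : ¬ Commute q₀ p₀ := fun h => hcase q₀ hq₀A' h.symm
      have h3 : ∀ f ∈ A, ¬ Commute q₀ f := by
        rcases hAm.2 q₀ hq₀.1 hq₀.2 with h4 | h4
        · exact absurd (h4 p₀ (hmemA p₀ hp₀.1 hp₀.2)) h2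
        · exact h4
      refine sep_noncomm hCR hA'm.1 hq₀A' hp₀.1 hp₀.2 ?_
      intro p hp hpn z hz
      have h5 : ¬ Commute p q₀ := fun h => h3 p (hmemA p hp hpn) h.symm
      rcases hA'm.2 p hp hpn with h6 | h6
      · exact absurd (h6 q₀ hq₀A') h5
      · exact h6 z hz
  rcases hprim.2.2 A hAm.1 hblock with h | h
  · exact hU2.not_subsingleton (h.anti h1)
  · exact hAD h

/-- The cores of a primitive group are central. -/
theorem cores_central_of_primitive (hD : IsThreeTranspositionClass D) (hprim : IsPrimitiveUnderConj D)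
    (hw : ∃ a ∈ D, ∃ b ∈ D, a ≠ b ∧ Commute a b) :
    pCore 2 G ≤ center G ∧ pCore 3 G ≤ center G := by
  have hT := hD.1
  have hc := fun (g : G) (a : G) (ha : a ∈ D) => class_conj_mem hD g ha
  obtain ⟨a, ha, -⟩ := hD.2.1
  constructor
  · by_contra h
    have : Fact (Nat.Prime 2) := ⟨Nat.prime_two⟩
    obtain ⟨b, hb, hne, hab⟩ := exists_partner hD (pCore_normal 2 G) h ha
    have hV : Vrel D a b :=
      Vrel_of_mul_mem hT (pCore_normal 2 G) (no3_of_isPGroup2 (pCore_isPGroup 2 G)) ha hb hab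
    have hall := eq_of_primitive_of_rel hprim hc (Vrel D) Vrel.symm Vrel.trans
      (fun g _ _ h => h.conj hc g) ha hb hne hV
    exact hne (class_eq_of_commute_all hD ha hb (fun e he => Vrel_commute ha (hall e he))).symm
  · by_contra h
    have : Fact (Nat.Prime 3) := ⟨Nat.prime_three⟩
    obtain ⟨b, hb, hne, hab⟩ := exists_partner hD (pCore_normal 3 G) h ha
    have hW : Wrel D a b :=
      Wrel_of_mul_mem hT (pCore_normal 3 G) (no2_of_isPGroup3 (pCore_isPGroup 3 G)) ha hb hab
    have hall := eq_of_primitive_of_rel hprim hc (Wrel D) Wrel.symm Wrel.trans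
      (fun g _ _ h => h.conj hc g) ha hb hne hW
    obtain ⟨u, hu, v, hv, huv, hcomm⟩ := hw
    exact huv (Wrel_eq_of_commute hv ((hall u hu).symm.trans (hall v hv)) hcomm)

/-- The existence of the quasisimple normal subgroup. -/
theorem exists_quasisimple_normal (hD : IsThreeTranspositionClass D) (hD2 : ∃ a ∈ D, ∃ b ∈ D, a ≠ b)
    (h2 : pCore 2 G ≤ center G) (h3 : pCore 3 G ≤ center G) :
    ∃ K : Subgroup G, K.Normal ∧ IsQuasisimple K ∧ generalizedFittingSubgroup G = K ⊔ center G := by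
  obtain ⟨K, hK⟩ := exists_component hD hD2 h2 h3
  have hc := fun (g : G) (a : G) (ha : a ∈ D) => class_conj_mem hD g ha
  have hKn := component_normal hD.1 hc hD.2.2 hK
  refine ⟨K, hKn, hK.2, ?_⟩
  rw [generalizedFittingSubgroup]
  have e1 : layer G = K :=
    le_antisymm (sSup_le fun K' hK' => (component_unique hD hK' hK).le) (component_le_layer hK)
  have e2 : fittingSubgroup G = center G :=
    le_antisymm (fitting_le_center hD h2 h3) center_le_fitting
  rw [e1, e2]

/-- The subgroup generated by the commuting set is a maximal `D`-subgroup. -/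
theorem closure_commuting_maximal (hD : IsThreeTranspositionClass D) (hprim : IsPrimitiveUnderConj D)
    (hCR : ∀ x ∈ D, ∀ y ∈ D, CR D x y) {d : G} (hd : d ∈ D) (H : Subgroup G)
    (hH : IsDSubgroup D H) (hle : closure {y : G | y ∈ D ∧ Commute d y} ≤ H) :
    H = closure {y : G | y ∈ D ∧ Commute d y} ∨ H = ⊤ := by
  have hT := hD.1
  have hc := fun (g : G) (a : G) (ha : a ∈ D) => class_conj_mem hD g ha
  by_cases hsub : ∀ e ∈ D, e ∈ H → Commute d e
  · left
    apply le_antisymm _ hle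
    rw [← hH, closure_le]
    rintro e ⟨he, heH⟩
    exact subset_closure ⟨he, hsub e he heH⟩
  right
  push Not at hsub
  obtain ⟨e, he, heH, hde⟩ := hsub
  have hdH : d ∈ H := hle (subset_closure ⟨hd, Commute.refl d⟩)
  set U : Set G := {f | ∃ h ∈ H, f = h * d * h⁻¹} with hU
  have hUD : U ⊆ D := by
    rintro _ ⟨h, _, rfl⟩
    exact hc h d hd
  -- elements commuting with members of `U` lie in `H`
  have hb : ∀ f ∈ U, ∀ w ∈ D, Commute f w → w ∈ H := by
    rintro _ ⟨h, hh, rfl⟩ w hw hcomm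
    have h1 : Commute d (h⁻¹ * w * h) := (commute_conj_iff h d w).1 hcomm
    have hw' : h⁻¹ * w * h ∈ D := by
      have := hc h⁻¹ w hw
      rwa [inv_inv] at this
    have h2 : h⁻¹ * w * h ∈ H := hle (subset_closure ⟨hw', h1⟩)
    have h3 : w = h * (h⁻¹ * w * h) * h⁻¹ := by group
    rw [h3]
    exact mul_mem (mul_mem hh h2) (inv_mem hh)
  -- members of `H` outside `U` commute with `U`
  have hcom : ∀ y ∈ D, y ∈ H → y ∉ U → ∀ f ∈ U, Commute y f := by
    intro y hy hyH hyU f hf
    by_contra hnc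
    apply hyU
    obtain ⟨h, hh, rfl⟩ := hf
    have hfD := hc h d hd
    have h1 := conj_of_not_commute hT hfD hy (fun h2 => hnc h2.symm)
    have hmemH : (h * d * h⁻¹) * y ∈ H := mul_mem (mul_mem (mul_mem hh hdH) (inv_mem hh)) hyH
    refine ⟨(h * d * h⁻¹ * y) * h, mul_mem hmemH hh, ?_⟩
    have e : (h * d * h⁻¹ * y * h) * d * (h * d * h⁻¹ * y * h)⁻¹ =
        (h * d * h⁻¹ * y) * (h * d * h⁻¹) * (h * d * h⁻¹ * y)⁻¹ := by group
    rw [e, h1]
  have hmod : IsMod D U := by
    refine ⟨hUD, ?_⟩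
    intro w hw hwn
    by_cases h1 : ∃ f ∈ U, Commute w f
    · left
      obtain ⟨f, hf, hcomm⟩ := h1
      exact hcom w hw (hb f hf w hw hcomm.symm) hwn
    · right
      push Not at h1
      exact h1
  have hdU : d ∈ U := ⟨1, one_mem _, by simp⟩
  have heU : e ∈ U := by
    by_contra hn
    exact hde (hcom e he heH hn d hdU).symm
  have hne : d ≠ e := by
    rintro rfl
    exact hde (Commute.refl d)
  have hUeq : U = D := module_eq hD hprim hCR hmod ⟨d, hdU, e, heU, hne⟩
  rw [eq_top_iff, ← hD.2.2, closure_le]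
  intro x hx
  rw [← hUeq] at hx
  obtain ⟨h, hh, rfl⟩ := hx
  exact mul_mem (mul_mem hh hdH) (inv_mem hh)

end Sep

end Cfsg.Agent.Lib.ThreeT
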