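import Cfsg.Agent.Lib.Classical.OrthBridge
import Cfsg.Agent.Lib.Classical.LinAlg
import Cfsg.Agent.Lib.Known3.OmegaTrans
import Cfsg.Prelude.Def_SporadicB

/-!
# Orthogonal transvections over the field of two elements are 3-transpositions
-/

set_option autoImplicit false

open scoped Matrix
open Matrix

namespace Cfsg.Agent.Lib.ThreeT.OrthTv

open Cfsg.Agent.Lib.Classical Cfsg.Agent.Lib.Classical.Witt Cfsg.Agent.Lib.Classical.Abs Cfsg.Agent.Lib.Classical.Orth

variable {ι : Type} [Fintype ι] [DecidableEq ι] (Q : QuadraticForm (ZMod 2) (ι → ZMod 2))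

local notation "P" => QuadraticMap.polarBilin
local notation "Vv" => (ι → ZMod 2)
set_option quotPrecheck false in
local notation "Gg" => Cfsg.isometryGroup (ZMod 2) (⇑Q)
set_option quotPrecheck false in
local notation "B" => QuadraticMap.polar (⇑Q)

/-- The matrix of an isometry. -/
abbrev mat (g : Cfsg.isometryGroup (ZMod 2) (⇑Q)) : Matrix ι ι (ZMod 2) :=
  ((g : Matrix.GeneralLinearGroup ι (ZMod 2)) : Matrix ι ι (ZMod 2))

omit [Fintype ι] [DecidableEq ι] in
theorem one_of_ne {c : ZMod 2} (h : c ≠ 0) : c = 1 := by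
  revert c
  decide

theorem g_ext {g h : Gg} (H : ∀ x, mat Q g *ᵥ x = mat Q h *ᵥ x) : g = h := by
  apply Subtype.ext
  apply Units.ext
  apply Matrix.toLin'.injective
  apply LinearMap.ext
  intro x
  rw [Matrix.toLin'_apply, Matrix.toLin'_apply]
  exact H x

theorem mat_mul (g h : Gg) : mat Q (g * h) = mat Q g * mat Q h := rfl

theorem g_pres (g : Gg) (x : Vv) : Q (mat Q g *ᵥ x) = Q x :=
  (mem_isometryGroup_iff (⇑Q) g.1).1 g.2 x

theorem g_polar (g : Gg) (x y : Vv) : B (mat Q g *ᵥ x) (mat Q g *ᵥ y) = B x y :=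
  polar_preserved Q _ (g_pres Q g) x y

theorem polar_self_zero (x : Vv) : B x x = 0 := by
  rw [QuadraticMap.polar_self, two_nsmul]
  exact (by decide : ∀ c : ZMod 2, c + c = 0) _

/-- The orthogonal transvection. -/
noncomputable def t (u : Vv) (hu : Q u ≠ 0) : Gg := reflIso Q u hu

theorem t_apply (u : Vv) (hu : Q u ≠ 0) (x : Vv) : mat Q (t Q u hu) *ᵥ x = x + (B u x) • u := by
  have h1 : Q u = 1 := one_of_ne hu
  change Cfsg.reflectionMatrix (⇑Q) u *ᵥ x = _
  rw [reflectionMatrix_mulVec, h1, inv_one, one_mul, sub_eq_add_neg, ← neg_smul, ZMod.neg_eq_self_mod_two]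

theorem t_sq (u : Vv) (hu : Q u ≠ 0) : t Q u hu * t Q u hu = 1 := by
  apply g_ext
  intro x
  have h2 : ∀ c : ZMod 2, c + c = 0 := by decide
  rw [mat_mul, ← Matrix.mulVec_mulVec, t_apply, t_apply]
  change _ = (1 : Matrix ι ι (ZMod 2)) *ᵥ x
  rw [Matrix.one_mulVec]
  have h3 : B u (x + (B u x) • u) = B u x := by
    rw [QuadraticMap.polar_add_right, QuadraticMap.polar_smul_right, polar_self_zero]
    simp
  rw [h3, add_assoc, ← add_smul, h2, zero_smul, add_zero]

theorem t_inv (u : Vv) (hu : Q u ≠ 0) : (t Q u hu)⁻¹ = t Q u hu :=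
  inv_eq_of_mul_eq_one_left (t_sq Q u hu)

theorem ne_zero_of {u : Vv} (hu : Q u ≠ 0) : u ≠ 0 := by
  rintro rfl
  simp at hu

variable {Q}

theorem exists_polar_one (hQ : (P Q).Nondegenerate) {u : Vv} (hu : u ≠ 0) : ∃ y, B u y = 1 := by
  obtain ⟨y, hy⟩ := exists_P_eq_one hQ hu
  exact ⟨y, hy⟩

theorem t_ne_one (hQ : (P Q).Nondegenerate) {u : Vv} (hu : Q u ≠ 0) : t Q u hu ≠ 1 := by
  intro h
  obtain ⟨y, hy⟩ := exists_polar_one hQ (ne_zero_of Q hu)
  have h1 := t_apply Q u hu y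
  rw [h, hy, one_smul] at h1
  change (1 : Matrix ι ι (ZMod 2)) *ᵥ y = _ at h1
  rw [Matrix.one_mulVec] at h1
  exact ne_zero_of Q hu (left_eq_add.1 h1)

theorem rank_t (hQ : (P Q).Nondegenerate) {u : Vv} (hu : Q u ≠ 0) : (mat Q (t Q u hu) - 1).rank = 1 := by
  set N : Matrix ι ι (ZMod 2) := mat Q (t Q u hu) - 1 with hN
  have hNx : ∀ x : Vv, N *ᵥ x = (B u x) • u := by
    intro x
    rw [hN, Matrix.sub_mulVec, t_apply, Matrix.one_mulVec]
    simp
  have hr : LinearMap.range N.mulVecLin = Submodule.span (ZMod 2) {u} := by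
    apply le_antisymm
    · rintro _ ⟨x, rfl⟩
      rw [Matrix.mulVecLin_apply, hNx]
      exact Submodule.smul_mem _ _ (Submodule.mem_span_singleton_self u)
    · rw [Submodule.span_singleton_le_iff_mem]
      obtain ⟨y, hy⟩ := exists_polar_one hQ (ne_zero_of Q hu)
      refine ⟨y, ?_⟩
      rw [Matrix.mulVecLin_apply, hNx, hy, one_smul]
  show Module.finrank (ZMod 2) (LinearMap.range N.mulVecLin) = 1
  rw [hr]
  exact finrank_span_singleton (ne_zero_of Q hu)

theorem exists_t_of_rank (hQ : (P Q).Nondegenerate) {g : Gg} (h : (mat Q g - 1).rank = 1) :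
    ∃ (a : Vv) (ha : Q a ≠ 0), g = t Q a ha := by
  obtain ⟨a, w, hN⟩ := exists_vecMulVec_of_rank_one _ h
  have hgx : ∀ x : Vv, mat Q g *ᵥ x = x + (w ⬝ᵥ x) • a := by
    intro x
    have h1 : mat Q g = 1 + vecMulVec a w := by
      rw [← hN]
      abel
    rw [h1, Matrix.add_mulVec, Matrix.one_mulVec, vecMulVec_mulVec']
  have hN0 : (mat Q g - 1) ≠ 0 := by
    intro h0
    rw [h0, Matrix.rank_zero] at h
    exact zero_ne_one h
  have ha0 : a ≠ 0 := by
    rintro rfl
    apply hN0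
    rw [hN]
    ext i j
    simp [vecMulVec_apply]
  obtain ⟨y₀, hy₀⟩ : ∃ y₀ : Vv, w ⬝ᵥ y₀ ≠ 0 := by
    by_contra hcon
    push Not at hcon
    apply hN0
    apply Matrix.toLin'.injective
    apply LinearMap.ext
    intro x
    rw [Matrix.toLin'_apply, hN, vecMulVec_mulVec', hcon x]
    simp
  have hw0 : w ⬝ᵥ y₀ = 1 := one_of_ne hy₀
  -- preservation of the form
  have hpres : ∀ x : Vv, (w ⬝ᵥ x) * (Q a + B x a) = 0 := by
    intro x
    have h1 := g_pres Q g x
    rw [hgx, Q_add_smul] at h1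
    have h2 : ∀ c : ZMod 2, c * c = c := by decide
    have h3 : (w ⬝ᵥ x) * (w ⬝ᵥ x) * Q a + (w ⬝ᵥ x) * B x a = 0 := by
      have := h1
      rw [add_assoc] at this
      exact left_eq_add.1 this.symm
    rw [h2] at h3
    rw [mul_add]
    exact h3
  have hy₀a : B y₀ a = Q a := by
    have h1 := hpres y₀
    rw [hw0, one_mul] at h1
    have h2 : ∀ c d : ZMod 2, c + d = 0 → d = c := by decide
    exact h2 _ _ h1
  -- the key relation
  have hrel : ∀ y : Vv, B y a = (w ⬝ᵥ y) * Q a := by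
    intro y
    by_cases hy : w ⬝ᵥ y = 0
    · have h1 := hpres (y₀ + y)
      have h2 : w ⬝ᵥ (y₀ + y) = 1 := by rw [dotProduct_add, hy, hw0, add_zero]
      rw [h2, one_mul, QuadraticMap.polar_add_left, hy₀a] at h1
      have h3 : ∀ c d : ZMod 2, c + (c + d) = 0 → d = 0 := by decide
      rw [hy, zero_mul]
      exact h3 _ _ h1
    · have h1 := hpres y
      rw [one_of_ne hy, one_mul] at h1
      have h2 : ∀ c d : ZMod 2, c + d = 0 → d = c := by decide
      rw [one_of_ne hy, one_mul]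
      exact h2 _ _ h1
  have hQa : Q a ≠ 0 := by
    intro h0
    apply ha0
    by_contra hcon
    obtain ⟨y, hy⟩ := exists_polar_one hQ hcon
    have h1 := hrel y
    rw [h0, mul_zero, polar_comm', hy] at h1
    exact one_ne_zero h1
  have hQ1 : Q a = 1 := one_of_ne hQa
  refine ⟨a, hQa, g_ext Q fun x => ?_⟩
  rw [hgx, t_apply, polar_comm', hrel, hQ1, mul_one]

theorem conj_t (g : Gg) (u : Vv) (hu : Q u ≠ 0) (hu' : Q (mat Q g *ᵥ u) ≠ 0) :
    g * t Q u hu * g⁻¹ = t Q (mat Q g *ᵥ u) hu' := by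
  apply g_ext
  intro x
  have hgi : mat Q g *ᵥ (mat Q g⁻¹ *ᵥ x) = x := by
    rw [Matrix.mulVec_mulVec, ← mat_mul, mul_inv_cancel]
    exact Matrix.one_mulVec x
  rw [mat_mul, mat_mul, ← Matrix.mulVec_mulVec, ← Matrix.mulVec_mulVec, t_apply, t_apply,
    Matrix.mulVec_add, Matrix.mulVec_smul, hgi]
  congr 2
  rw [← g_polar Q g u, hgi]

theorem t_pair {u v : Vv} (hu : Q u ≠ 0) (hv : Q v ≠ 0) :
    (t Q u hu * t Q v hv) ^ 2 = 1 ∨ (t Q u hu * t Q v hv) ^ 3 = 1 := by
  by_cases h : B u v = 0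
  · left
    have hc : t Q u hu * t Q v hv = t Q v hv * t Q u hu := by
      apply g_ext
      intro x
      have h' : B v u = 0 := by rw [polar_comm', h]
      rw [mat_mul, mat_mul, ← Matrix.mulVec_mulVec, ← Matrix.mulVec_mulVec, t_apply, t_apply, t_apply, t_apply,
        QuadraticMap.polar_add_right, QuadraticMap.polar_add_right, QuadraticMap.polar_smul_right,
        QuadraticMap.polar_smul_right, h, h']
      simp only [smul_eq_mul, mul_zero, add_zero]
      abel
    rw [pow_two]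
    calc t Q u hu * t Q v hv * (t Q u hu * t Q v hv) = t Q u hu * (t Q v hv * t Q u hu) * t Q v hv := by group
      _ = t Q u hu * (t Q u hu * t Q v hv) * t Q v hv := by rw [hc]
      _ = (t Q u hu * t Q u hu) * (t Q v hv * t Q v hv) := by group
      _ = 1 := by rw [t_sq, t_sq, one_mul]
  · right
    have h1 : B u v = 1 := one_of_ne h
    have h2 : B v u = 1 := by rw [polar_comm', h1]
    have hQu : Q u = 1 := one_of_ne hu
    have hQv : Q v = 1 := one_of_ne hv
    have hw : Q (t Q u hu |> mat Q |> (· *ᵥ v)) ≠ 0 := by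
      simp only
      rw [g_pres]
      exact hv
    have hw2 : Q (t Q v hv |> mat Q |> (· *ᵥ u)) ≠ 0 := by
      simp only
      rw [g_pres]
      exact hu
    have huv : u + v = v + u := add_comm u v
    have e1 := conj_t (t Q u hu) v hv hw
    have e2 := conj_t (t Q v hv) u hu hw2
    rw [t_inv] at e1 e2
    have h3 : mat Q (t Q u hu) *ᵥ v = u + v := by
      rw [t_apply, h1, one_smul, add_comm]
    have h4 : mat Q (t Q v hv) *ᵥ u = u + v := by
      rw [t_apply, h2, one_smul]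
    have hw' : Q (u + v) ≠ 0 := by
      rw [← h3, g_pres]
      exact hv
    have e3 : t Q (mat Q (t Q u hu) *ᵥ v) hw = t Q (u + v) hw' := by
      simp only [h3]
    have e4 : t Q (mat Q (t Q v hv) *ᵥ u) hw2 = t Q (u + v) hw' := by
      simp only [h4]
    calc (t Q u hu * t Q v hv) ^ 3 = (t Q u hu * t Q v hv * t Q u hu) * (t Q v hv * t Q u hu * t Q v hv) := by
          rw [pow_succ, pow_two]
          group
      _ = 1 := by rw [e1, e2, e3, e4, t_sq]

/-- Transitivity on the non-singular vectors. -/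
theorem exists_move (hQ : (P Q).Nondegenerate) {u v : Vv} (hu : Q u ≠ 0) (hv : Q v ≠ 0) :
    ∃ g : Gg, mat Q g *ᵥ u = v := by
  have hu0 := ne_zero_of Q hu
  have hv0 := ne_zero_of Q hv
  have hQu : Q u = 1 := one_of_ne hu
  have hQv : Q v = 1 := one_of_ne hv
  let φ : Submodule.span (ZMod 2) {u} ≃ₗ[ZMod 2] Submodule.span (ZMod 2) {v} :=
    (LinearEquiv.toSpanNonzeroSingleton (ZMod 2) _ u hu0).symm ≪≫ₗ LinearEquiv.toSpanNonzeroSingleton (ZMod 2) _ v hv0
  have hφ0 : ∀ c : ZMod 2, (φ ((LinearEquiv.toSpanNonzeroSingleton (ZMod 2) _ u hu0) c) : Vv) = c • v := by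
    intro c
    change (((LinearEquiv.toSpanNonzeroSingleton (ZMod 2) _ u hu0).symm ≪≫ₗ LinearEquiv.toSpanNonzeroSingleton (ZMod 2) _ v hv0) ((LinearEquiv.toSpanNonzeroSingleton (ZMod 2) _ u hu0) c) : Vv) = _
    rw [LinearEquiv.trans_apply, LinearEquiv.symm_apply_apply]
    simp
  have hφ : ∀ x : Submodule.span (ZMod 2) {u}, Q (φ x : Vv) = Q (x : Vv) := by
    intro x
    obtain ⟨c, rfl⟩ := (LinearEquiv.toSpanNonzeroSingleton (ZMod 2) _ u hu0).surjective x
    rw [hφ0]
    simp [QuadraticMap.map_smul, hQu, hQv]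
  obtain ⟨g, hg, -⟩ := Cfsg.Agent.Lib.Known3.OmegaTrans.exists_OG_of_equiv hQ _ _ φ hφ
  refine ⟨(toOG Q).symm g, ?_⟩
  rw [toOG_symm_apply]
  have h1 := hg ⟨u, Submodule.mem_span_singleton_self u⟩
  have h2 := hφ0 1
  simp only [one_smul] at h2
  simp only at h1
  rw [h1]
  have h3 : (LinearEquiv.toSpanNonzeroSingleton (ZMod 2) _ u hu0) 1 = ⟨u, Submodule.mem_span_singleton_self u⟩ := by
    apply Subtype.ext
    simp
  rw [h3] at h2
  exact h2

/-- The main theorem. -/
theorem threeT (hQ : (P Q).Nondegenerate) (hfin : Module.finrank (ZMod 2) Vv ≠ 4) {u₀ : Vv} (hu₀ : Q u₀ ≠ 0) :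
    Cfsg.IsThreeTranspositionClass {g : Gg | (mat Q g - 1).rank = 1} := by
  refine ⟨⟨?_, ?_⟩, ⟨t Q u₀ hu₀, rank_t hQ hu₀, ?_⟩, ?_⟩
  · intro d hd
    obtain ⟨a, ha, rfl⟩ := exists_t_of_rank hQ hd
    apply orderOf_eq_prime
    · rw [pow_two, t_sq]
    · exact t_ne_one hQ ha
  · intro d hd c hc
    obtain ⟨v, hv, rfl⟩ := exists_t_of_rank hQ hd
    obtain ⟨w, hw, rfl⟩ := exists_t_of_rank hQ hc
    exact t_pair hv hw
  · ext g
    constructor
    · intro hg
      obtain ⟨v, hv, rfl⟩ := exists_t_of_rank hQ hg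
      obtain ⟨A, hA⟩ := exists_move hQ hu₀ hv
      have hu' : Q (mat Q A *ᵥ u₀) ≠ 0 := by rw [g_pres]; exact hu₀
      refine isConj_iff.2 ⟨A, ?_⟩
      rw [conj_t A u₀ hu₀ hu']
      simp only [hA]
    · intro hg
      obtain ⟨A, rfl⟩ := isConj_iff.1 hg
      have hu' : Q (mat Q A *ᵥ u₀) ≠ 0 := by rw [g_pres]; exact hu₀
      rw [conj_t A u₀ hu₀ hu']
      exact rank_t hQ hu'
  · rw [eq_top_iff, ← closure_reflections_top Q (Rf_eq_top hQ (Or.inr hfin)), Subgroup.closure_le]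
    rintro g ⟨v, hv, hg⟩
    have : g = t Q v hv := Subtype.ext (Units.ext hg)
    rw [this]
    exact Subgroup.subset_closure (rank_t hQ hv)

/-- A non-degenerate form in positive dimension has a non-singular vector. -/
theorem exists_nonsingular (hQ : (P Q).Nondegenerate) (i : ι) : ∃ u : Vv, Q u ≠ 0 := by
  have h0 : (Pi.single i 1 : Vv) ≠ 0 := by
    intro h
    have := congrFun h i
    simp at this
  obtain ⟨y, hy⟩ := exists_polar_one hQ h0
  by_contra hcon
  push Not at hcon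
  rw [QuadraticMap.polar, hcon, hcon, hcon] at hy
  simp at hy

/-- The main theorem, for a function equal to the quadratic form. -/
theorem threeT' (hQ : (P Q).Nondegenerate) (hfin : Fintype.card ι ≠ 4) (i : ι) (q : Vv → ZMod 2) (hq : ⇑Q = q) :
    Cfsg.IsThreeTranspositionClass {g : Cfsg.isometryGroup (ZMod 2) q |
      (((g : Matrix.GeneralLinearGroup ι (ZMod 2)) : Matrix ι ι (ZMod 2)) - 1).rank = 1} := by
  subst hq
  obtain ⟨u, hu⟩ := exists_nonsingular hQ i
  exact threeT hQ (by rwa [Module.finrank_fintype_fun_eq_card]) hu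

end Cfsg.Agent.Lib.ThreeT.OrthTv
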