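import Mathlib
import Cfsg.Prelude.Def_Sporadic_a

/-!
# Projective planes of order 4: basic incidence, hyperovals
-/

set_option autoImplicit false

namespace Cfsg.Agent.Lib.ThreeT.Plane4

open Cfsg Finset

variable {α : Type*} [Fintype α] [DecidableEq α] {L : Set (Finset α)}

section Basic

variable (hL : IsSteinerSystem 2 5 L)
include hL

theorem line_card {l : Finset α} (hl : l ∈ L) : l.card = 5 := hL.1 l hl

theorem exists_line {p q : α} (hpq : p ≠ q) : ∃ l ∈ L, p ∈ l ∧ q ∈ l := by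
  obtain ⟨l, ⟨hl, hs⟩, -⟩ := hL.2 {p, q} (card_pair hpq)
  exact ⟨l, hl, hs (by simp), hs (by simp)⟩

theorem line_unique {p q : α} (hpq : p ≠ q) {l m : Finset α} (hl : l ∈ L) (hm : m ∈ L)
    (hpl : p ∈ l) (hql : q ∈ l) (hpm : p ∈ m) (hqm : q ∈ m) : l = m := by
  obtain ⟨b, -, hb⟩ := hL.2 {p, q} (card_pair hpq)
  have hsub : ∀ n : Finset α, p ∈ n → q ∈ n → ({p, q} : Finset α) ⊆ n := by
    intro n h1 h2 x hx
    simp only [mem_insert, mem_singleton] at hx
    rcases hx with rfl | rfl <;> assumption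
  rw [hb l ⟨hl, hsub l hpl hql⟩, hb m ⟨hm, hsub m hpm hqm⟩]

open Classical in
/-- The line through two points (junk if equal). -/
noncomputable def lnF (L : Set (Finset α)) (p q : α) : Finset α :=
  if h : ∃ l ∈ L, p ∈ l ∧ q ∈ l ∧ p ≠ q then Classical.choose h else ∅

theorem lnF_spec {p q : α} (hpq : p ≠ q) : lnF L p q ∈ L ∧ p ∈ lnF L p q ∧ q ∈ lnF L p q := by
  have h : ∃ l ∈ L, p ∈ l ∧ q ∈ l ∧ p ≠ q := by
    obtain ⟨l, h1, h2, h3⟩ := exists_line hL hpq
    exact ⟨l, h1, h2, h3, hpq⟩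
  unfold lnF
  rw [dif_pos h]
  obtain ⟨h1, h2, h3, -⟩ := Classical.choose_spec h
  exact ⟨h1, h2, h3⟩

theorem lnF_eq {p q : α} (hpq : p ≠ q) {l : Finset α} (hl : l ∈ L) (hp : p ∈ l) (hq : q ∈ l) :
    lnF L p q = l := by
  obtain ⟨h1, h2, h3⟩ := lnF_spec hL hpq
  exact line_unique hL hpq h1 hl h2 h3 hp hq

theorem lnF_comm {p q : α} (hpq : p ≠ q) : lnF L p q = lnF L q p := by
  obtain ⟨h1, h2, h3⟩ := lnF_spec hL hpq
  exact (lnF_eq hL hpq.symm h1 h3 h2).symm

omit hL in
open Classical in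
/-- The lines through a point. -/
noncomputable def pencil (L : Set (Finset α)) (p : α) : Finset (Finset α) :=
  (univ.filter (fun l : Finset α => l ∈ L)).filter (fun l => p ∈ l)

omit hL in
theorem mem_pencil {p : α} {l : Finset α} : l ∈ pencil L p ↔ l ∈ L ∧ p ∈ l := by
  classical
  simp [pencil]

theorem card_pencil (hα : Fintype.card α = 21) (p : α) : (pencil L p).card = 5 := by
  have h1 : (univ.erase p : Finset α) = (pencil L p).biUnion (fun l => l.erase p) := by
    ext q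
    simp only [mem_erase, mem_univ, and_true, mem_biUnion]
    constructor
    · intro hq
      obtain ⟨l, hl, hp, hq'⟩ := exists_line hL (Ne.symm hq)
      exact ⟨l, mem_pencil.2 ⟨hl, hp⟩, hq, hq'⟩
    · rintro ⟨l, -, hq, -⟩
      exact hq
  have h2 : (univ.erase p : Finset α).card = 20 := by
    rw [card_erase_of_mem (mem_univ p), card_univ, hα]
  have h3 : ((pencil L p).biUnion (fun l => l.erase p)).card = ∑ l ∈ pencil L p, (l.erase p).card := by
    apply card_biUnion
    intro l hl m hm hlm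
    show Disjoint (l.erase p) (m.erase p)
    rw [Finset.disjoint_left]
    intro q hql hqm
    obtain ⟨hql1, hql2⟩ := mem_erase.1 hql
    obtain ⟨hqm1, hqm2⟩ := mem_erase.1 hqm
    obtain ⟨hl1, hl2⟩ := mem_pencil.1 hl
    obtain ⟨hm1, hm2⟩ := mem_pencil.1 hm
    exact hlm (line_unique hL hql1 hl1 hm1 hql2 hl2 hqm2 hm2)
  have h4 : ∑ l ∈ pencil L p, (l.erase p).card = (pencil L p).card * 4 := by
    rw [sum_const_nat]
    intro l hl
    obtain ⟨hl1, hl2⟩ := mem_pencil.1 hl
    rw [card_erase_of_mem hl2, line_card hL hl1]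
  rw [← h1, h2, h4] at h3
  omega

theorem inter_card_le_one {l m : Finset α} (hl : l ∈ L) (hm : m ∈ L) (hlm : l ≠ m) : (l ∩ m).card ≤ 1 := by
  rw [card_le_one]
  intro a ha b hb
  by_contra hab
  rw [mem_inter] at ha hb
  exact hlm (line_unique hL hab hl hm ha.1 hb.1 ha.2 hb.2)

theorem lines_meet (hα : Fintype.card α = 21) {l m : Finset α} (hl : l ∈ L) (hm : m ∈ L) : (l ∩ m).Nonempty := by
  by_cases hlm : l = m
  · subst hlm
    rw [inter_self, ← card_pos, line_card hL hl]
    norm_num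
  have hns : ¬ m ⊆ l := by
    intro h
    exact hlm (eq_of_subset_of_card_le h (by rw [line_card hL hl, line_card hL hm])).symm
  obtain ⟨p, hpm, hpl⟩ := not_subset.1 hns
  have hne : ∀ q ∈ l, p ≠ q := fun q hq h => hpl (h ▸ hq)
  have hinj : Set.InjOn (lnF L p) (l : Set α) := by
    intro q hq q' hq' he
    by_contra hqq
    obtain ⟨h1, h2, h3⟩ := lnF_spec hL (hne q hq)
    obtain ⟨h1', h2', h3'⟩ := lnF_spec hL (hne q' hq')
    rw [← he] at h3'
    exact hpl ((line_unique hL hqq h1 hl h3 h3' hq hq') ▸ h2)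
  have himg : l.image (lnF L p) = pencil L p := by
    apply eq_of_subset_of_card_le
    · intro n hn
      obtain ⟨q, hq, rfl⟩ := mem_image.1 hn
      obtain ⟨h1, h2, -⟩ := lnF_spec hL (hne q hq)
      exact mem_pencil.2 ⟨h1, h2⟩
    · rw [card_image_of_injOn hinj, card_pencil hL hα, line_card hL hl]
  have hm' : m ∈ l.image (lnF L p) := by
    rw [himg]
    exact mem_pencil.2 ⟨hm, hpm⟩
  obtain ⟨q, hq, rfl⟩ := mem_image.1 hm'
  exact ⟨q, mem_inter.2 ⟨hq, (lnF_spec hL (hne q hq)).2.2⟩⟩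

end Basic

/-- Independent sets: no line meets them in more than two points. -/
def Ind (L : Set (Finset α)) (S : Finset α) : Prop := ∀ l ∈ L, (l ∩ S).card ≤ 2

section Hyp

variable (hL : IsSteinerSystem 2 5 L) (hα : Fintype.card α = 21)
include hL hα

/-- A line through a point of a hyperoval meets the hyperoval in exactly two points. -/
theorem secant_of_mem {H : Finset α} (hH : H.card = 6) (hI : Ind L H) {x : α} (hx : x ∈ H) {l : Finset α}
    (hl : l ∈ L) (hxl : x ∈ l) : ∃ y ∈ H, y ≠ x ∧ y ∈ l := by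
  have hne : ∀ y ∈ H.erase x, x ≠ y := fun y hy => (ne_of_mem_erase hy).symm
  have hinj : Set.InjOn (lnF L x) ((H.erase x : Finset α) : Set α) := by
    intro y hy y' hy' he
    by_contra hyy
    have hy0 : y ∈ H.erase x := hy
    have hy0' : y' ∈ H.erase x := hy'
    obtain ⟨h1, h2, h3⟩ := lnF_spec hL (hne y hy)
    obtain ⟨h1', h2', h3'⟩ := lnF_spec hL (hne y' hy')
    rw [← he] at h3'
    have hsub : ({x, y, y'} : Finset α) ⊆ lnF L x y ∩ H := by
      intro t ht
      simp only [mem_insert, mem_singleton] at ht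
      rcases ht with rfl | rfl | rfl
      · exact mem_inter.2 ⟨h2, hx⟩
      · exact mem_inter.2 ⟨h3, (mem_erase.1 hy0).2⟩
      · exact mem_inter.2 ⟨h3', (mem_erase.1 hy0').2⟩
    have hc : ({x, y, y'} : Finset α).card = 3 :=
      card_eq_three.2 ⟨x, y, y', hne y hy, hne y' hy', hyy, rfl⟩
    have := card_le_card hsub
    have h2' := hI _ h1
    omega
  have himg : (H.erase x).image (lnF L x) = pencil L x := by
    apply eq_of_subset_of_card_le
    · intro n hn
      obtain ⟨q, hq, rfl⟩ := mem_image.1 hn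
      obtain ⟨h1, h2, -⟩ := lnF_spec hL (hne q hq)
      exact mem_pencil.2 ⟨h1, h2⟩
    · rw [card_image_of_injOn hinj, card_pencil hL hα, card_erase_of_mem hx, hH]
  have hl' : l ∈ (H.erase x).image (lnF L x) := by
    rw [himg]
    exact mem_pencil.2 ⟨hl, hxl⟩
  obtain ⟨y, hy, rfl⟩ := mem_image.1 hl'
  exact ⟨y, (mem_erase.1 hy).2, (mem_erase.1 hy).1, (lnF_spec hL (hne y hy)).2.2⟩

end Hyp

open Classical in
/-- Points on no line through two points of `S`. -/
noncomputable def EE (L : Set (Finset α)) (S : Finset α) : Finset α :=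
  univ.filter (fun p => ∀ l ∈ L, 2 ≤ (l ∩ S).card → p ∉ l)

omit [Fintype α] in
theorem two_le_inter {S l : Finset α} {u v : α} (huv : u ≠ v) (hu : u ∈ S) (hv : v ∈ S)
    (hul : u ∈ l) (hvl : v ∈ l) : 2 ≤ (l ∩ S).card := by
  have h : ({u, v} : Finset α) ⊆ l ∩ S := by
    intro t ht
    simp only [mem_insert, mem_singleton] at ht
    rcases ht with rfl | rfl
    · exact mem_inter.2 ⟨hul, hu⟩
    · exact mem_inter.2 ⟨hvl, hv⟩
  have := card_le_card h
  rwa [card_pair huv] at this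

theorem mem_EE {S : Finset α} {p : α} : p ∈ EE L S ↔ ∀ l ∈ L, 2 ≤ (l ∩ S).card → p ∉ l := by
  classical
  simp [EE]

theorem not_mem_EE_of_mem {S : Finset α} {u v : α} (huv : u ≠ v) (hu : u ∈ S) (hv : v ∈ S) {l : Finset α} (hl : l ∈ L)
    (hul : u ∈ l) (hvl : v ∈ l) {x : α} (hx : x ∈ l) : x ∉ EE L S := by
  intro h
  exact mem_EE.1 h l hl (two_le_inter huv hu hv hul hvl) hx

section Ext

variable (hL : IsSteinerSystem 2 5 L) (hα : Fintype.card α = 21)
include hL hα

/-- A line meeting an independent 4-set in one point has exactly one point in `E`. -/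
theorem card_inter_EE {a b c d : α} (hab : a ≠ b) (hac : a ≠ c) (had : a ≠ d) (hbc : b ≠ c) (hbd : b ≠ d) (hcd : c ≠ d)
    (hI : Ind L {a, b, c, d}) {l : Finset α} (hl : l ∈ L) (ha : a ∈ l) (hb : b ∉ l) (hc : c ∉ l) (hd : d ∉ l) :
    (l ∩ EE L {a, b, c, d}).card = 1 := by
  set S : Finset α := {a, b, c, d} with hS
  have maS : a ∈ S := by simp [hS]
  have mbS : b ∈ S := by simp [hS]
  have mcS : c ∈ S := by simp [hS]
  have mdS : d ∈ S := by simp [hS]
  -- no three of the four points are collinear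
  have tri : ∀ {x y z : α}, x ∈ S → y ∈ S → z ∈ S → x ≠ y → x ≠ z → y ≠ z → ∀ m ∈ L, x ∈ m → y ∈ m → z ∉ m := by
    intro x y z hx hy hz hxy hxz hyz m hm hxm hym hzm
    have hsub : ({x, y, z} : Finset α) ⊆ m ∩ S := by
      intro t ht
      simp only [mem_insert, mem_singleton] at ht
      rcases ht with rfl | rfl | rfl
      · exact mem_inter.2 ⟨hxm, hx⟩
      · exact mem_inter.2 ⟨hym, hy⟩
      · exact mem_inter.2 ⟨hzm, hz⟩
    have h3 : ({x, y, z} : Finset α).card = 3 := card_eq_three.2 ⟨x, y, z, hxy, hxz, hyz, rfl⟩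
    have := card_le_card hsub
    have h2 := hI m hm
    omega
  obtain ⟨lbc, hlbc, hb1, hc1⟩ := exists_line hL hbc
  obtain ⟨lbd, hlbd, hb2, hd2⟩ := exists_line hL hbd
  obtain ⟨lcd, hlcd, hc3, hd3⟩ := exists_line hL hcd
  obtain ⟨q₁, hq₁⟩ := lines_meet hL hα hl hlbc
  obtain ⟨q₂, hq₂⟩ := lines_meet hL hα hl hlbd
  obtain ⟨q₃, hq₃⟩ := lines_meet hL hα hl hlcd
  rw [mem_inter] at hq₁ hq₂ hq₃
  obtain ⟨hq₁l, hq₁m⟩ := hq₁
  obtain ⟨hq₂l, hq₂m⟩ := hq₂
  obtain ⟨hq₃l, hq₃m⟩ := hq₃
  have ha1 : a ∉ lbc := tri mbS mcS maS hbc hab.symm hac.symm _ hlbc hb1 hc1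
  have ha2 : a ∉ lbd := tri mbS mdS maS hbd hab.symm had.symm _ hlbd hb2 hd2
  have ha3 : a ∉ lcd := tri mcS mdS maS hcd hac.symm had.symm _ hlcd hc3 hd3
  have hqa1 : a ≠ q₁ := fun h => ha1 (h ▸ hq₁m)
  have hqa2 : a ≠ q₂ := fun h => ha2 (h ▸ hq₂m)
  have hqa3 : a ≠ q₃ := fun h => ha3 (h ▸ hq₃m)
  have hq12 : q₁ ≠ q₂ := by
    rintro rfl
    by_cases hbq : b = q₁
    · exact hb (hbq ▸ hq₁l)
    · have := line_unique hL hbq hlbc hlbd hb1 hq₁m hb2 hq₂m
      exact tri mbS mcS mdS hbc hbd hcd _ hlbc hb1 hc1 (this ▸ hd2)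
  have hq13 : q₁ ≠ q₃ := by
    rintro rfl
    by_cases hcq : c = q₁
    · exact hc (hcq ▸ hq₁l)
    · have := line_unique hL hcq hlbc hlcd hc1 hq₁m hc3 hq₃m
      exact tri mbS mcS mdS hbc hbd hcd _ hlbc hb1 hc1 (this ▸ hd3)
  have hq23 : q₂ ≠ q₃ := by
    rintro rfl
    by_cases hdq : d = q₂
    · exact hd (hdq ▸ hq₂l)
    · have := line_unique hL hdq hlbd hlcd hd2 hq₂m hd3 hq₃m
      exact tri mbS mcS mdS hbc hbd hcd _ hlcd (this ▸ hb2) hc3 hd3
  set T : Finset α := {a, q₁, q₂, q₃} with hT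
  have hTl : T ⊆ l := by
    intro t ht
    simp only [hT, mem_insert, mem_singleton] at ht
    rcases ht with rfl | rfl | rfl | rfl <;> assumption
  have hTc : T.card = 4 := by
    rw [hT, card_insert_of_notMem, card_insert_of_notMem, card_pair hq23]
    · simp [hq12, hq13]
    · simp [hqa1, hqa2, hqa3]
  have hEeq : l ∩ EE L S = l \ T := by
    ext x
    simp only [mem_inter, mem_sdiff]
    constructor
    · rintro ⟨hxl, hxE⟩
      refine ⟨hxl, ?_⟩
      simp only [hT, mem_insert, mem_singleton]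
      rintro (rfl | rfl | rfl | rfl)
      · exact not_mem_EE_of_mem hab maS mbS (hl := (exists_line hL hab).choose_spec.1)
          (exists_line hL hab).choose_spec.2.1 (exists_line hL hab).choose_spec.2.2
          (exists_line hL hab).choose_spec.2.1 hxE
      · exact not_mem_EE_of_mem hbc mbS mcS hlbc hb1 hc1 hq₁m hxE
      · exact not_mem_EE_of_mem hbd mbS mdS hlbd hb2 hd2 hq₂m hxE
      · exact not_mem_EE_of_mem hcd mcS mdS hlcd hc3 hd3 hq₃m hxE
    · rintro ⟨hxl, hxT⟩
      refine ⟨hxl, mem_EE.2 ?_⟩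
      simp only [hT, mem_insert, mem_singleton, not_or] at hxT
      obtain ⟨hxa, hx1, hx2, hx3⟩ := hxT
      intro m hm h2 hxm
      obtain ⟨u, hu, v, hv, huv⟩ := one_lt_card.1 (by omega : 1 < (m ∩ S).card)
      rw [mem_inter] at hu hv
      obtain ⟨hum, huS⟩ := hu
      obtain ⟨hvm, hvS⟩ := hv
      have hmem : ∀ t ∈ S, t = a ∨ t = b ∨ t = c ∨ t = d := by
        intro t ht
        simpa [hS] using ht
      -- `m` contains a point among `b, c, d`, so differs from `l`
      have hne : m ≠ l := by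
        rintro rfl
        rcases hmem u huS with rfl | rfl | rfl | rfl
        · rcases hmem v hvS with rfl | rfl | rfl | rfl
          · exact huv rfl
          · exact hb hvm
          · exact hc hvm
          · exact hd hvm
        · exact hb hum
        · exact hc hum
        · exact hd hum
      have hone : ∀ y, y ∈ m → y ∈ l → y = x := by
        intro y hym hyl
        by_contra hyx
        exact hne (line_unique hL hyx hm hl hym hxm hyl hxl)
      by_cases ham : a ∈ m
      · exact hxa (hone a ham ha).symm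
      · -- `u, v` are two of `b, c, d`
        have huv' : (u = b ∧ v = c) ∨ (u = c ∧ v = b) ∨ (u = b ∧ v = d) ∨ (u = d ∧ v = b) ∨ (u = c ∧ v = d) ∨ (u = d ∧ v = c) := by
          rcases hmem u huS with rfl | rfl | rfl | rfl
          · exact absurd hum ham
          · rcases hmem v hvS with rfl | rfl | rfl | rfl
            · exact absurd hvm ham
            · exact absurd rfl huv
            · exact Or.inl ⟨rfl, rfl⟩
            · exact Or.inr (Or.inr (Or.inl ⟨rfl, rfl⟩))
          · rcases hmem v hvS with rfl | rfl | rfl | rfl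
            · exact absurd hvm ham
            · exact Or.inr (Or.inl ⟨rfl, rfl⟩)
            · exact absurd rfl huv
            · exact Or.inr (Or.inr (Or.inr (Or.inr (Or.inl ⟨rfl, rfl⟩))))
          · rcases hmem v hvS with rfl | rfl | rfl | rfl
            · exact absurd hvm ham
            · exact Or.inr (Or.inr (Or.inr (Or.inl ⟨rfl, rfl⟩)))
            · exact Or.inr (Or.inr (Or.inr (Or.inr (Or.inr ⟨rfl, rfl⟩))))
            · exact absurd rfl huv
        rcases huv' with ⟨rfl, rfl⟩ | ⟨rfl, rfl⟩ | ⟨rfl, rfl⟩ | ⟨rfl, rfl⟩ | ⟨rfl, rfl⟩ | ⟨rfl, rfl⟩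
        · have : m = lbc := line_unique hL hbc hm hlbc hum hvm hb1 hc1
          subst this
          exact hx1 (hone q₁ hq₁m hq₁l).symm
        · have : m = lbc := line_unique hL hbc hm hlbc hvm hum hb1 hc1
          subst this
          exact hx1 (hone q₁ hq₁m hq₁l).symm
        · have : m = lbd := line_unique hL hbd hm hlbd hum hvm hb2 hd2
          subst this
          exact hx2 (hone q₂ hq₂m hq₂l).symm
        · have : m = lbd := line_unique hL hbd hm hlbd hvm hum hb2 hd2
          subst this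
          exact hx2 (hone q₂ hq₂m hq₂l).symm
        · have : m = lcd := line_unique hL hcd hm hlcd hum hvm hc3 hd3
          subst this
          exact hx3 (hone q₃ hq₃m hq₃l).symm
        · have : m = lcd := line_unique hL hcd hm hlcd hvm hum hc3 hd3
          subst this
          exact hx3 (hone q₃ hq₃m hq₃l).symm
  rw [hEeq, card_sdiff_of_subset hTl, hTc, line_card hL hl]

theorem card_EE_explicit {a b c d : α} (hab : a ≠ b) (hac : a ≠ c) (had : a ≠ d) (hbc : b ≠ c) (hbd : b ≠ d) (hcd : c ≠ d)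
    (hI : Ind L {a, b, c, d}) : (EE L {a, b, c, d}).card = 2 := by
  set S : Finset α := {a, b, c, d} with hS
  have maS : a ∈ S := by simp [hS]
  have mbS : b ∈ S := by simp [hS]
  have mcS : c ∈ S := by simp [hS]
  have mdS : d ∈ S := by simp [hS]
  have tri : ∀ {x y z : α}, x ∈ S → y ∈ S → z ∈ S → x ≠ y → x ≠ z → y ≠ z → ∀ m ∈ L, x ∈ m → y ∈ m → z ∉ m := by
    intro x y z hx hy hz hxy hxz hyz m hm hxm hym hzm
    have hsub : ({x, y, z} : Finset α) ⊆ m ∩ S := by
      intro t ht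
      simp only [mem_insert, mem_singleton] at ht
      rcases ht with rfl | rfl | rfl
      · exact mem_inter.2 ⟨hxm, hx⟩
      · exact mem_inter.2 ⟨hym, hy⟩
      · exact mem_inter.2 ⟨hzm, hz⟩
    have h3 : ({x, y, z} : Finset α).card = 3 := card_eq_three.2 ⟨x, y, z, hxy, hxz, hyz, rfl⟩
    have := card_le_card hsub
    have h2 := hI m hm
    omega
  obtain ⟨lb, hlb, ha1, hb1⟩ := exists_line hL hab
  obtain ⟨lc, hlc, ha2, hc2⟩ := exists_line hL hac
  obtain ⟨ld, hld, ha3, hd3⟩ := exists_line hL had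
  have hbc' : lb ≠ lc := by
    rintro rfl
    exact tri maS mbS mcS hab hac hbc _ hlb ha1 hb1 hc2
  have hbd' : lb ≠ ld := by
    rintro rfl
    exact tri maS mbS mdS hab had hbd _ hlb ha1 hb1 hd3
  have hcd' : lc ≠ ld := by
    rintro rfl
    exact tri maS mcS mdS hac had hcd _ hlc ha2 hc2 hd3
  set Λ : Finset (Finset α) := pencil L a \ {lb, lc, ld} with hΛ
  have hsub : ({lb, lc, ld} : Finset (Finset α)) ⊆ pencil L a := by
    intro t ht
    simp only [mem_insert, mem_singleton] at ht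
    rcases ht with rfl | rfl | rfl
    · exact mem_pencil.2 ⟨hlb, ha1⟩
    · exact mem_pencil.2 ⟨hlc, ha2⟩
    · exact mem_pencil.2 ⟨hld, ha3⟩
  have hΛc : Λ.card = 2 := by
    rw [hΛ, card_sdiff_of_subset hsub, card_pencil hL hα, card_eq_three.2 ⟨lb, lc, ld, hbc', hbd', hcd', rfl⟩]
  have hmemΛ : ∀ l ∈ Λ, l ∈ L ∧ a ∈ l ∧ b ∉ l ∧ c ∉ l ∧ d ∉ l := by
    intro l hl
    simp only [hΛ, mem_sdiff, mem_insert, mem_singleton, not_or] at hl
    obtain ⟨h1, h2, h3, h4⟩ := hl
    obtain ⟨h5, h6⟩ := mem_pencil.1 h1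
    refine ⟨h5, h6, ?_, ?_, ?_⟩
    · intro h
      exact h2 (line_unique hL hab h5 hlb h6 h ha1 hb1)
    · intro h
      exact h3 (line_unique hL hac h5 hlc h6 h ha2 hc2)
    · intro h
      exact h4 (line_unique hL had h5 hld h6 h ha3 hd3)
  have haE : a ∉ EE L S := not_mem_EE_of_mem hab maS mbS hlb ha1 hb1 ha1
  have hEq : EE L S = Λ.biUnion (fun l => l ∩ EE L S) := by
    ext x
    simp only [mem_biUnion, mem_inter]
    constructor
    · intro hx
      have hax : a ≠ x := fun h => haE (h ▸ hx)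
      obtain ⟨h1, h2, h3⟩ := lnF_spec hL hax
      refine ⟨lnF L a x, ?_, h3, hx⟩
      simp only [hΛ, mem_sdiff, mem_insert, mem_singleton, not_or]
      refine ⟨mem_pencil.2 ⟨h1, h2⟩, ?_, ?_, ?_⟩
      · intro h
        rw [h] at h3
        exact not_mem_EE_of_mem hab maS mbS hlb ha1 hb1 h3 hx
      · intro h
        rw [h] at h3
        exact not_mem_EE_of_mem hac maS mcS hlc ha2 hc2 h3 hx
      · intro h
        rw [h] at h3
        exact not_mem_EE_of_mem had maS mdS hld ha3 hd3 h3 hx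
    · rintro ⟨l, -, -, hx⟩
      exact hx
  have hcard : (Λ.biUnion (fun l => l ∩ EE L S)).card = ∑ l ∈ Λ, (l ∩ EE L S).card := by
    apply card_biUnion
    intro l hl m hm hlm
    show Disjoint (l ∩ EE L S) (m ∩ EE L S)
    rw [Finset.disjoint_left]
    intro x hx hx'
    rw [mem_inter] at hx hx'
    obtain ⟨h1, h2, -⟩ := hmemΛ l hl
    obtain ⟨h3, h4, -⟩ := hmemΛ m hm
    have hax : a ≠ x := fun h => haE (h ▸ hx.2)
    exact hlm (line_unique hL hax h1 h3 h2 hx.1 h4 hx'.1)
  have hsum : ∑ l ∈ Λ, (l ∩ EE L S).card = Λ.card * 1 := by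
    rw [sum_const_nat]
    intro l hl
    obtain ⟨h1, h2, h3, h4, h5⟩ := hmemΛ l hl
    exact card_inter_EE hL hα hab hac had hbc hbd hcd hI h1 h2 h3 h4 h5
  rw [← hEq, hsum, hΛc] at hcard
  exact hcard

omit hL hα in
theorem four_of_card {S : Finset α} (hS : S.card = 4) {s : α} (hs : s ∈ S) :
    ∃ b c d : α, S = {s, b, c, d} ∧ s ≠ b ∧ s ≠ c ∧ s ≠ d ∧ b ≠ c ∧ b ≠ d ∧ c ≠ d := by
  have h1 : (S.erase s).card = 3 := by rw [card_erase_of_mem hs, hS]
  obtain ⟨b, c, d, hbc, hbd, hcd, he⟩ := card_eq_three.1 h1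
  have hb : b ∈ S.erase s := by simp [he]
  have hc : c ∈ S.erase s := by simp [he]
  have hd : d ∈ S.erase s := by simp [he]
  refine ⟨b, c, d, ?_, (mem_erase.1 hb).1.symm, (mem_erase.1 hc).1.symm, (mem_erase.1 hd).1.symm, hbc, hbd, hcd⟩
  rw [← he, insert_erase hs]

theorem card_EE {S : Finset α} (hS : S.card = 4) (hI : Ind L S) : (EE L S).card = 2 := by
  obtain ⟨s, hs⟩ : S.Nonempty := by rw [← card_pos, hS]; norm_num
  obtain ⟨b, c, d, rfl, h1, h2, h3, h4, h5, h6⟩ := four_of_card hS hs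
  exact card_EE_explicit hL hα h1 h2 h3 h4 h5 h6 hI

theorem card_inter_EE' {S : Finset α} (hS : S.card = 4) (hI : Ind L S) {l : Finset α} (hl : l ∈ L)
    (h1 : (l ∩ S).card = 1) : (l ∩ EE L S).card = 1 := by
  obtain ⟨s, hs⟩ := card_eq_one.1 h1
  have hs' : s ∈ l ∩ S := by rw [hs]; exact mem_singleton_self s
  obtain ⟨hsl, hsS⟩ := mem_inter.1 hs'
  obtain ⟨b, c, d, rfl, h2, h3, h4, h5, h6, h7⟩ := four_of_card hS hsS
  have hno : ∀ t ∈ ({s, b, c, d} : Finset α), t ≠ s → t ∉ l := by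
    intro t ht hts htl
    have : t ∈ l ∩ ({s, b, c, d} : Finset α) := mem_inter.2 ⟨htl, ht⟩
    rw [hs, mem_singleton] at this
    exact hts this
  exact card_inter_EE hL hα h2 h3 h4 h5 h6 h7 hI hl hsl (hno b (by simp) h2.symm) (hno c (by simp) h3.symm)
    (hno d (by simp) h4.symm)

theorem disjoint_EE {S : Finset α} (hS : S.card = 4) : Disjoint S (EE L S) := by
  rw [Finset.disjoint_left]
  intro s hs hE
  obtain ⟨b, c, d, rfl, h2, -⟩ := four_of_card hS hs
  obtain ⟨l, hl, h3, h4⟩ := exists_line hL h2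
  exact not_mem_EE_of_mem h2 hs (by simp) hl h3 h4 h3 hE

/-- An independent 4-set extends to an independent 6-set, uniquely. -/
theorem hyp_of_four {S : Finset α} (hS : S.card = 4) (hI : Ind L S) :
    (S ∪ EE L S).card = 6 ∧ Ind L (S ∪ EE L S) := by
  have hE := card_EE hL hα hS hI
  refine ⟨?_, ?_⟩
  · rw [card_union_of_disjoint (disjoint_EE hL hα hS), hS, hE]
  · intro l hl
    rw [inter_union_distrib_left]
    have h1 := card_union_le (l ∩ S) (l ∩ EE L S)
    have h2 := hI l hl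
    have hcases : (l ∩ S).card = 0 ∨ (l ∩ S).card = 1 ∨ (l ∩ S).card = 2 := by omega
    rcases hcases with h | h | h
    · have : (l ∩ EE L S).card ≤ 2 := by
        rw [← hE]
        exact card_le_card inter_subset_right
      omega
    · have := card_inter_EE' hL hα hS hI hl h
      omega
    · have h0 : l ∩ EE L S = ∅ := by
        ext x
        simp only [mem_inter, notMem_empty, iff_false, not_and]
        intro hx hxE
        exact mem_EE.1 hxE l hl (by omega) hx
      rw [h0, union_empty]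
      omega

theorem hyp_unique {S H : Finset α} (hS : S.card = 4) (hI : Ind L S) (hH : H.card = 6) (hIH : Ind L H) (hSH : S ⊆ H) :
    H = S ∪ EE L S := by
  have hE := card_EE hL hα hS hI
  have hsub : H \ S ⊆ EE L S := by
    intro x hx
    obtain ⟨hxH, hxS⟩ := mem_sdiff.1 hx
    refine mem_EE.2 fun l hl h2 hxl => ?_
    have hins : insert x (l ∩ S) ⊆ l ∩ H := by
      intro t ht
      rcases mem_insert.1 ht with rfl | ht
      · exact mem_inter.2 ⟨hxl, hxH⟩
      · exact mem_inter.2 ⟨(mem_inter.1 ht).1, hSH (mem_inter.1 ht).2⟩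
    have hc := card_le_card hins
    rw [card_insert_of_notMem (fun h => hxS (mem_inter.1 h).2)] at hc
    have := hIH l hl
    omega
  have heq : H \ S = EE L S := by
    apply eq_of_subset_of_card_le hsub
    rw [card_sdiff_of_subset hSH, hH, hS, hE]
  rw [← heq, union_sdiff_of_subset hSH]

/-- Independent 4-sets exist. -/
theorem exists_ind_four : ∃ S : Finset α, S.card = 4 ∧ Ind L S := by
  have hlarge : ∀ T : Finset α, T.card < 21 → ∃ x, x ∉ T := by
    intro T hT
    by_contra h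
    push Not at h
    have : T = univ := eq_univ_iff_forall.2 h
    rw [this, card_univ, hα] at hT
    omega
  obtain ⟨a, -⟩ := hlarge ∅ (by simp)
  obtain ⟨b, hb⟩ := hlarge {a} (by simp)
  have hab : a ≠ b := by
    intro h
    exact hb (by simp [h])
  obtain ⟨lab, h1, h2, h3⟩ := exists_line hL hab
  obtain ⟨c, hc⟩ := hlarge lab (by rw [line_card hL h1]; norm_num)
  have hac : a ≠ c := fun h => hc (h ▸ h2)
  have hbc : b ≠ c := fun h => hc (h ▸ h3)
  obtain ⟨lac, h4, h5, h6⟩ := exists_line hL hac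
  obtain ⟨lbc, h7, h8, h9⟩ := exists_line hL hbc
  have hU : (lab ∪ lac ∪ lbc).card < 21 := by
    have e1 := card_union_le (lab ∪ lac) lbc
    have e2 := card_union_le lab lac
    rw [line_card hL h1] at e2
    rw [line_card hL h4] at e2
    rw [line_card hL h7] at e1
    omega
  obtain ⟨d, hd⟩ := hlarge _ hU
  simp only [mem_union, not_or] at hd
  obtain ⟨⟨hd1, hd2⟩, hd3⟩ := hd
  have had : a ≠ d := fun h => hd1 (h ▸ h2)
  have hbd : b ≠ d := fun h => hd1 (h ▸ h3)
  have hcd : c ≠ d := fun h => hd2 (h ▸ h6)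
  refine ⟨{a, b, c, d}, ?_, ?_⟩
  · rw [card_insert_of_notMem, card_insert_of_notMem, card_pair hcd]
    · simp [hbc, hbd]
    · simp [hab, hac, had]
  · intro l hl
    by_contra hcon
    have h3l : 2 < (l ∩ {a, b, c, d}).card := by omega
    obtain ⟨x, y, z, hx, hy, hz, hxy, hxz, hyz⟩ := two_lt_card_iff.1 h3l
    have mem4 : ∀ t ∈ l ∩ ({a, b, c, d} : Finset α), t ∈ l ∧ (t = a ∨ t = b ∨ t = c ∨ t = d) := by
      intro t ht
      rw [mem_inter] at ht
      exact ⟨ht.1, by simpa using ht.2⟩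
    have t1 : ¬ (a ∈ l ∧ b ∈ l ∧ c ∈ l) := by
      rintro ⟨u, v, w⟩
      exact hc ((line_unique hL hab hl h1 u v h2 h3) ▸ w)
    have t2 : ¬ (a ∈ l ∧ b ∈ l ∧ d ∈ l) := by
      rintro ⟨u, v, w⟩
      exact hd1 ((line_unique hL hab hl h1 u v h2 h3) ▸ w)
    have t3 : ¬ (a ∈ l ∧ c ∈ l ∧ d ∈ l) := by
      rintro ⟨u, v, w⟩
      exact hd2 ((line_unique hL hac hl h4 u v h5 h6) ▸ w)
    have t4 : ¬ (b ∈ l ∧ c ∈ l ∧ d ∈ l) := by
      rintro ⟨u, v, w⟩
      exact hd3 ((line_unique hL hbc hl h7 u v h8 h9) ▸ w)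
    obtain ⟨ml, hx'⟩ := mem4 x hx
    obtain ⟨my, hy'⟩ := mem4 y hy
    obtain ⟨mz, hz'⟩ := mem4 z hz
    rcases hx' with rfl | rfl | rfl | rfl <;> rcases hy' with rfl | rfl | rfl | rfl <;>
      rcases hz' with rfl | rfl | rfl | rfl <;>
      first
      | exact hxy rfl
      | exact hxz rfl
      | exact hyz rfl
      | exact t1 ⟨by assumption, by assumption, by assumption⟩
      | exact t2 ⟨by assumption, by assumption, by assumption⟩
      | exact t3 ⟨by assumption, by assumption, by assumption⟩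
      | exact t4 ⟨by assumption, by assumption, by assumption⟩

theorem exists_hyp : ∃ H : Finset α, H.card = 6 ∧ Ind L H := by
  obtain ⟨S, hS, hI⟩ := exists_ind_four hL hα
  exact ⟨_, hyp_of_four hL hα hS hI⟩

end Ext

end Cfsg.Agent.Lib.ThreeT.Plane4
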