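import Mathlib
import Cfsg.Agent.Lib.ThreeT.Plane4

/-!
# The projective plane of order 4: the model on `Fin 21` built from a hyperoval
-/

set_option autoImplicit false

namespace Cfsg.Agent.Lib.ThreeT.Plane4

open Cfsg Finset

/-- The fifteen fixed-point-free involutions of `Fin 6`. -/
def mt : Fin 15 → Fin 6 → Fin 6 :=
  ![![1,0,3,2,5,4],
    ![1,0,4,5,2,3],
    ![1,0,5,4,3,2],
    ![2,3,0,1,5,4],
    ![2,4,0,5,1,3],
    ![2,5,0,4,3,1],
    ![3,2,1,0,5,4],
    ![3,4,5,0,1,2],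
    ![3,5,4,0,2,1],
    ![4,2,1,5,0,3],
    ![4,3,5,1,0,2],
    ![4,5,3,2,0,1],
    ![5,2,1,4,3,0],
    ![5,3,4,1,2,0],
    ![5,4,3,2,1,0]]

/-- The lines of the model. -/
def Mlines : Fin 21 → Finset (Fin 21) :=
  ![{0,1,6,7,8},
    {0,2,9,10,11},
    {0,3,12,13,14},
    {0,4,15,16,17},
    {0,5,18,19,20},
    {1,2,12,15,18},
    {1,3,9,16,19},
    {1,4,10,13,20},
    {1,5,11,14,17},
    {2,3,6,17,20},
    {2,4,7,14,19},
    {2,5,8,13,16},
    {3,4,8,11,18},
    {3,5,7,10,15},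
    {4,5,6,9,12},
    {6,10,14,16,18},
    {6,11,13,15,19},
    {7,9,13,17,18},
    {7,11,12,16,20},
    {8,9,14,15,20},
    {8,10,12,17,19}]

def pt (a : Fin 6) : Fin 21 := ⟨a.1, by omega⟩
def qt (k : Fin 15) : Fin 21 := ⟨6 + k.1, by omega⟩

theorem pt_inj : Function.Injective pt := by
  intro a b h
  exact Fin.ext (by simpa [pt] using h)

theorem qt_inj : Function.Injective qt := by
  intro a b h
  exact Fin.ext (by simpa [qt] using h)

theorem pt_ne_qt (a : Fin 6) (k : Fin 15) : pt a ≠ qt k := by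
  intro h
  have := congrArg Fin.val h
  simp only [pt, qt] at this
  omega

/-- Two matchings with no common pair. -/
def Dsj (k h : Fin 15) : Prop := ∀ a, mt k a ≠ mt h a

instance : DecidableRel Dsj := fun k h => by
  unfold Dsj
  infer_instance

def Sec (a b : Fin 6) : Finset (Fin 21) :=
  {pt a, pt b} ∪ (univ.filter (fun k => mt k a = b)).image qt

def Ext (k k' : Fin 15) : Finset (Fin 21) :=
  {qt k, qt k'} ∪ (univ.filter (fun h => Dsj k h ∧ Dsj k' h ∧
    ∃ g, Dsj k g ∧ Dsj k' g ∧ Dsj h g)).image qt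

theorem Sec_mem : ∀ a b : Fin 6, a ≠ b → (Sec a b).card = 5 ∧ ∃ i, Mlines i = Sec a b := by
  decide +kernel

theorem Ext_mem : ∀ k k' : Fin 15, k ≠ k' → Dsj k k' → (Ext k k').card = 5 ∧ ∃ i, Mlines i = Ext k k' := by
  decide +kernel

theorem M_inter : ∀ i j : Fin 21, i ≠ j → (Mlines i ∩ Mlines j).card ≤ 1 := by decide +kernel

theorem M_two : ∀ i : Fin 21, ∃ x ∈ Mlines i, ∃ y ∈ Mlines i, x ≠ y := by decide +kernel

theorem mt_inj : ∀ k k' : Fin 15, (∀ a, mt k a = mt k' a) → k = k' := by decide +kernel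

theorem mt_ne : ∀ (k : Fin 15) (a : Fin 6), mt k a ≠ a := by decide +kernel

theorem mt_inv : ∀ (k : Fin 15) (a : Fin 6), mt k (mt k a) = a := by decide +kernel

theorem mt_third : ∀ (k : Fin 15), ∃ a : Fin 6, a ≠ 0 ∧ a ≠ mt k 0 := by decide +kernel

set_option synthInstance.maxSize 2000 in
set_option synthInstance.maxHeartbeats 400000 in
theorem mt_classify_aux : ∀ a b c d e f : Fin 6,
    (a ≠ 0 ∧ b ≠ 1 ∧ c ≠ 2 ∧ d ≠ 3 ∧ e ≠ 4 ∧ f ≠ 5) →
    (∀ x : Fin 6, (![a,b,c,d,e,f] : Fin 6 → Fin 6) ((![a,b,c,d,e,f] : Fin 6 → Fin 6) x) = x) →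
    ∃ k : Fin 15, ∀ x : Fin 6, mt k x = (![a,b,c,d,e,f] : Fin 6 → Fin 6) x := by
  decide +kernel

theorem mt_classify (m : Fin 6 → Fin 6) (h1 : ∀ x, m x ≠ x) (h2 : ∀ x, m (m x) = x) :
    ∃ k : Fin 15, ∀ x, mt k x = m x := by
  have hm : (![m 0, m 1, m 2, m 3, m 4, m 5] : Fin 6 → Fin 6) = m := by
    funext x
    fin_cases x <;> rfl
  have := mt_classify_aux (m 0) (m 1) (m 2) (m 3) (m 4) (m 5)
    ⟨h1 0, h1 1, h1 2, h1 3, h1 4, h1 5⟩ (by rw [hm]; exact h2)
  rwa [hm] at this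

variable {α : Type*} [Fintype α] [DecidableEq α] {L : Set (Finset α)}
variable (hL : IsSteinerSystem 2 5 L) (hα : Fintype.card α = 21)
variable {H : Finset α} (hH : H.card = 6) (hI : Ind L H) (f : ↥H ≃ Fin 6)

/-- `f⁻¹`, as a map to points. -/
def uu (f : ↥H ≃ Fin 6) (a : Fin 6) : α := (f.symm a : α)

omit [Fintype α] [DecidableEq α] in
theorem uu_mem (a : Fin 6) : uu f a ∈ H := (f.symm a).2

omit [Fintype α] [DecidableEq α] in
theorem uu_inj : Function.Injective (uu f) := by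
  intro a b h
  exact f.symm.injective (Subtype.ext h)

omit [Fintype α] [DecidableEq α] in
theorem uu_apply (x : ↥H) : uu f (f x) = x := by
  simp [uu]

/-- Being the index of the matching defined by the point `p`. -/
def IsIdx (L : Set (Finset α)) (f : ↥H ≃ Fin 6) (p : α) (k : Fin 15) : Prop :=
  ∀ a, ∃ l ∈ L, p ∈ l ∧ uu f a ∈ l ∧ uu f (mt k a) ∈ l

include hI in
omit [Fintype α] in
theorem no_three {l : Finset α} (hl : l ∈ L) {a b c : Fin 6} (hab : a ≠ b) (hac : a ≠ c) (hbc : b ≠ c)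
    (ha : uu f a ∈ l) (hb : uu f b ∈ l) (hc : uu f c ∈ l) : False := by
  have hs : ({uu f a, uu f b, uu f c} : Finset α) ⊆ l ∩ H := by
    intro x hx
    simp only [mem_insert, mem_singleton] at hx
    rcases hx with rfl | rfl | rfl
    · exact mem_inter.2 ⟨ha, uu_mem f _⟩
    · exact mem_inter.2 ⟨hb, uu_mem f _⟩
    · exact mem_inter.2 ⟨hc, uu_mem f _⟩
  have h1 := card_le_card hs
  have h2 := hI l hl
  rw [card_insert_of_notMem, card_pair ((uu_inj f).ne hbc)] at h1
  · omega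
  · simp only [mem_insert, mem_singleton, not_or]
    exact ⟨(uu_inj f).ne hab, (uu_inj f).ne hac⟩

omit [Fintype α] [DecidableEq α] in
theorem ne_uu {p : α} (hp : p ∉ H) (a : Fin 6) : p ≠ uu f a := by
  rintro rfl
  exact hp (uu_mem f a)

include hL hα hH hI in
theorem exists_idx {p : α} (hp : p ∉ H) : ∃ k, IsIdx L f p k := by
  have h1 : ∀ a : Fin 6, ∃ b : Fin 6, b ≠ a ∧ ∃ l ∈ L, p ∈ l ∧ uu f a ∈ l ∧ uu f b ∈ l := by
    intro a
    obtain ⟨l, hl, hpl, hal⟩ := exists_line hL (ne_uu f hp a)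
    obtain ⟨y, hyH, hya, hyl⟩ := secant_of_mem hL hα hH hI (uu_mem f a) hl hal
    refine ⟨f ⟨y, hyH⟩, ?_, l, hl, hpl, hal, ?_⟩
    · intro h
      apply hya
      rw [← h, uu_apply]
    · rw [uu_apply]
      exact hyl
  choose m hm1 hm2 using h1
  have hinv : ∀ a, m (m a) = a := by
    intro a
    by_contra hne
    obtain ⟨l, hl, hpl, h1, h2⟩ := hm2 a
    obtain ⟨l', hl', hpl', h3, h4⟩ := hm2 (m a)
    have := line_unique hL (ne_uu f hp (m a)) hl hl' hpl h2 hpl' h3
    subst this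
    exact no_three hI f hl (hm1 a) (hm1 (m a)).symm (Ne.symm hne) h2 h1 h4
  obtain ⟨k, hk⟩ := mt_classify m hm1 hinv
  refine ⟨k, fun a => ?_⟩
  rw [hk]
  exact hm2 a

include hL hI in
theorem idx_line {p : α} (hp : p ∉ H) {k : Fin 15} (hk : IsIdx L f p k) {l : Finset α} (hl : l ∈ L)
    (hpl : p ∈ l) {a : Fin 6} (ha : uu f a ∈ l) : uu f (mt k a) ∈ l := by
  obtain ⟨l', hl', h1, h2, h3⟩ := hk a
  rw [line_unique hL (ne_uu f hp a) hl hl' hpl ha h1 h2]
  exact h3

include hL hI in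
/-- If `p ∉ H` and the line through `p` contains `a`, `b`, then `mt k a = b`. -/
theorem idx_eq {p : α} (hp : p ∉ H) {k : Fin 15} (hk : IsIdx L f p k) {l : Finset α} (hl : l ∈ L)
    (hpl : p ∈ l) {a b : Fin 6} (hab : a ≠ b) (ha : uu f a ∈ l) (hb : uu f b ∈ l) : mt k a = b := by
  by_contra hne
  exact no_three hI f hl hab (mt_ne k a).symm (Ne.symm hne) ha hb (idx_line hL hI f hp hk hl hpl ha)

include hL hI in
theorem idx_unique {p : α} (hp : p ∉ H) {k k' : Fin 15} (hk : IsIdx L f p k) (hk' : IsIdx L f p k') : k = k' := by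
  apply mt_inj
  intro a
  obtain ⟨l, hl, h1, h2, h3⟩ := hk a
  exact (idx_eq hL hI f hp hk' hl h1 (mt_ne k a).symm h2 h3).symm

include hL hI in
theorem idx_inj {p q : α} (hp : p ∉ H) (hq : q ∉ H) {k : Fin 15} (hk : IsIdx L f p k) (hk' : IsIdx L f q k) : p = q := by
  by_contra hpq
  obtain ⟨a, ha0, ham⟩ := mt_third k
  obtain ⟨l, hl, h1, h2, h3⟩ := hk 0
  obtain ⟨l', hl', h4, h5, h6⟩ := hk' 0
  obtain ⟨m, hm, h7, h8, h9⟩ := hk a
  obtain ⟨m', hm', h10, h11, h12⟩ := hk' a
  have e1 := line_unique hL ((uu_inj f).ne (mt_ne k 0).symm) hl hl' h2 h3 h5 h6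
  have e2 := line_unique hL ((uu_inj f).ne (mt_ne k a).symm) hm hm' h8 h9 h11 h12
  subst e1 e2
  have e3 := line_unique hL hpq hl hm h1 h4 h7 h10
  subst e3
  exact no_three hI f hl (mt_ne k 0).symm ha0.symm ham.symm h2 h3 h8

/-- The bijection (as a plain function). -/
noncomputable def eFun (f : ↥H ≃ Fin 6) (k : α → Fin 15) (p : α) : Fin 21 :=
  if hp : p ∈ H then pt (f ⟨p, hp⟩) else qt (k p)

omit [Fintype α] in
theorem eFun_mem (k : α → Fin 15) (x : ↥H) : eFun f k x = pt (f x) := by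
  simp [eFun]

omit [Fintype α] in
theorem eFun_uu (k : α → Fin 15) (a : Fin 6) : eFun f k (uu f a) = pt a := by
  have := eFun_mem f k (f.symm a)
  rw [Equiv.apply_symm_apply] at this
  exact this

omit [Fintype α] in
theorem eFun_notMem (k : α → Fin 15) {p : α} (hp : p ∉ H) : eFun f k p = qt (k p) := by
  simp [eFun, hp]

include hL hI in
theorem eFun_inj {k : α → Fin 15} (hk : ∀ p, p ∉ H → IsIdx L f p (k p)) : Function.Injective (eFun f k) := by
  intro p q h
  by_cases hp : p ∈ H <;> by_cases hq : q ∈ H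
  · have e1 := eFun_mem f k ⟨p, hp⟩
    have e2 := eFun_mem f k ⟨q, hq⟩
    simp only at e1 e2
    rw [e1, e2] at h
    have := f.injective (pt_inj h)
    exact congrArg Subtype.val this
  · have e1 := eFun_mem f k ⟨p, hp⟩
    simp only at e1
    rw [e1, eFun_notMem f k hq] at h
    exact absurd h (pt_ne_qt _ _)
  · have e1 := eFun_mem f k ⟨q, hq⟩
    simp only at e1
    rw [e1, eFun_notMem f k hp] at h
    exact absurd h.symm (pt_ne_qt _ _)
  · rw [eFun_notMem f k hp, eFun_notMem f k hq] at h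
    have := qt_inj h
    have hkq := hk q hq
    rw [← this] at hkq
    exact idx_inj hL hI f hp hq (hk p hp) hkq

include hL hI in
theorem secant_image {k : α → Fin 15} (hk : ∀ p, p ∉ H → IsIdx L f p (k p)) {l : Finset α} (hl : l ∈ L)
    {a b : Fin 6} (hab : a ≠ b) (ha : uu f a ∈ l) (hb : uu f b ∈ l) : l.image (eFun f k) = Sec a b := by
  apply eq_of_subset_of_card_le
  · intro y hy
    obtain ⟨z, hz, rfl⟩ := mem_image.1 hy
    by_cases hzH : z ∈ H
    · have e1 := eFun_mem f k ⟨z, hzH⟩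
      simp only at e1
      rw [e1]
      set c := f ⟨z, hzH⟩ with hc
      have hcz : uu f c = z := uu_apply f _
      have hcl : uu f c ∈ l := hcz ▸ hz
      have : c = a ∨ c = b := by
        by_contra hcon
        push Not at hcon
        exact no_three hI f hl hab (Ne.symm hcon.1) (Ne.symm hcon.2) ha hb hcl
      unfold Sec
      rcases this with h | h <;> rw [h] <;> simp
    · rw [eFun_notMem f k hzH]
      unfold Sec
      refine mem_union_right _ (mem_image.2 ⟨k z, ?_, rfl⟩)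
      simp only [mem_filter, mem_univ, true_and]
      exact idx_eq hL hI f hzH (hk z hzH) hl hz hab ha hb
  · rw [card_image_of_injective _ (eFun_inj hL hI f hk), line_card hL hl, (Sec_mem a b hab).1]

include hL hI in
/-- Points on an external line have disjoint matchings. -/
theorem external_dsj {k : α → Fin 15} (hk : ∀ p, p ∉ H → IsIdx L f p (k p)) {l : Finset α} (hl : l ∈ L)
    (hlH : ∀ x ∈ l, x ∉ H) {p q : α} (hp : p ∈ l) (hq : q ∈ l) (hpq : p ≠ q) : Dsj (k p) (k q) := by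
  intro a hcon
  obtain ⟨m, hm, h1, h2, h3⟩ := hk p (hlH p hp) a
  obtain ⟨m', hm', h4, h5, h6⟩ := hk q (hlH q hq) a
  rw [hcon] at h3
  have e1 := line_unique hL ((uu_inj f).ne (mt_ne (k q) a).symm) hm hm' h2 h3 h5 h6
  subst e1
  have e2 := line_unique hL hpq hl hm hp hq h1 h4
  subst e2
  exact hlH _ h2 (uu_mem f a)

include hL hI in
theorem external_image {k : α → Fin 15} (hk : ∀ p, p ∉ H → IsIdx L f p (k p)) {l : Finset α} (hl : l ∈ L)
    (hlH : ∀ x ∈ l, x ∉ H) {p q : α} (hp : p ∈ l) (hq : q ∈ l) (hpq : p ≠ q) :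
    l.image (eFun f k) = Ext (k p) (k q) := by
  have hD := fun {u v : α} (hu : u ∈ l) (hv : v ∈ l) (huv : u ≠ v) => external_dsj hL hI f hk hl hlH hu hv huv
  have hkinj : ∀ {u v : α}, u ∉ H → v ∉ H → k u = k v → u = v := by
    intro u v hu hv h
    have hkv := hk v hv
    rw [← h] at hkv
    exact idx_inj hL hI f hu hv (hk u hu) hkv
  have hkne : k p ≠ k q := fun h => hpq (hkinj (hlH p hp) (hlH q hq) h)
  apply eq_of_subset_of_card_le
  · intro y hy
    obtain ⟨z, hz, rfl⟩ := mem_image.1 hy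
    rw [eFun_notMem f k (hlH z hz)]
    by_cases hzp : z = p
    · subst hzp
      simp [Ext]
    by_cases hzq : z = q
    · subst hzq
      simp [Ext]
    -- a further point
    have hc : ({p, q, z} : Finset α).card < l.card := by
      rw [line_card hL hl]
      exact lt_of_le_of_lt (card_le_three) (by norm_num)
    obtain ⟨w, hw, hwn⟩ := exists_mem_notMem_of_card_lt_card hc
    simp only [mem_insert, mem_singleton, not_or] at hwn
    refine mem_union_right _ (mem_image.2 ⟨k z, ?_, rfl⟩)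
    simp only [mem_filter, mem_univ, true_and]
    refine ⟨hD hp hz (Ne.symm hzp), hD hq hz (Ne.symm hzq), k w, hD hp hw (Ne.symm hwn.1),
      hD hq hw (Ne.symm hwn.2.1), hD hz hw (Ne.symm hwn.2.2)⟩
  · rw [card_image_of_injective _ (eFun_inj hL hI f hk), line_card hL hl,
      (Ext_mem _ _ hkne (hD hp hq hpq)).1]

include hL hα hH hI in
theorem image_line_mem {k : α → Fin 15} (hk : ∀ p, p ∉ H → IsIdx L f p (k p)) {l : Finset α} (hl : l ∈ L) :
    l.image (eFun f k) ∈ Set.range Mlines := by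
  by_cases hlH : ∃ x ∈ l, x ∈ H
  · obtain ⟨x, hxl, hxH⟩ := hlH
    obtain ⟨y, hyH, hyx, hyl⟩ := secant_of_mem hL hα hH hI hxH hl hxl
    have h1 := uu_apply f ⟨x, hxH⟩
    have h2 := uu_apply f ⟨y, hyH⟩
    simp only at h1 h2
    have hab : f ⟨x, hxH⟩ ≠ f ⟨y, hyH⟩ := by
      intro h
      apply hyx
      rw [← h2, ← h1, h]
    rw [secant_image hL hI f hk hl hab (by rw [h1]; exact hxl) (by rw [h2]; exact hyl)]
    obtain ⟨i, hi⟩ := (Sec_mem _ _ hab).2
    exact ⟨i, hi⟩
  · push Not at hlH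
    have h2 : 1 < l.card := by rw [line_card hL hl]; norm_num
    obtain ⟨p, hp, q, hq, hpq⟩ := one_lt_card.1 h2
    rw [external_image hL hI f hk hl hlH hp hq hpq]
    have hkne : k p ≠ k q := by
      intro h
      have hkv := hk q (hlH q hq)
      rw [← h] at hkv
      exact hpq (idx_inj hL hI f (hlH p hp) (hlH q hq) (hk p (hlH p hp)) hkv)
    obtain ⟨i, hi⟩ := (Ext_mem _ _ hkne (external_dsj hL hI f hk hl hlH hp hq hpq)).2
    exact ⟨i, hi⟩

include hL hα hH hI in
/-- The model theorem: a plane of order 4 with a labelled hyperoval is the model. -/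
theorem exists_model : ∃ e : α ≃ Fin 21, (∀ x : ↥H, e x = pt (f x)) ∧
    (fun l : Finset α => l.image e) '' L = Set.range Mlines := by
  have h1 : ∀ p : α, ∃ k : Fin 15, p ∉ H → IsIdx L f p k := by
    intro p
    by_cases hp : p ∈ H
    · exact ⟨0, fun h => absurd hp h⟩
    · obtain ⟨k, hk⟩ := exists_idx hL hα hH hI f hp
      exact ⟨k, fun _ => hk⟩
  choose k hk using h1
  have hinj := eFun_inj hL hI f hk
  have hbij : Function.Bijective (eFun f k) :=
    (Fintype.bijective_iff_injective_and_card _).2 ⟨hinj, by simp [hα]⟩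
  let e : α ≃ Fin 21 := Equiv.ofBijective _ hbij
  have he : ∀ p, e p = eFun f k p := fun _ => rfl
  have himg : ∀ l : Finset α, l.image e = l.image (eFun f k) := fun l => rfl
  refine ⟨e, fun x => eFun_mem f k x, ?_⟩
  ext l₀
  simp only [Set.mem_image]
  constructor
  · rintro ⟨l, hl, rfl⟩
    rw [himg]
    exact image_line_mem hL hα hH hI f hk hl
  · rintro ⟨i, rfl⟩
    obtain ⟨x, hx, y, hy, hxy⟩ := M_two i
    have hne : e.symm x ≠ e.symm y := fun h => hxy (e.symm.injective h)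
    obtain ⟨l, hl, h1, h2⟩ := exists_line hL hne
    refine ⟨l, hl, ?_⟩
    obtain ⟨j, hj⟩ := image_line_mem hL hα hH hI f hk hl
    rw [himg, ← hj]
    by_contra hij
    have hij' : j ≠ i := fun h => hij (by rw [h])
    have h3 := M_inter j i hij'
    have hx' : x ∈ Mlines j := by
      rw [hj, ← himg]
      exact mem_image.2 ⟨_, h1, by simp⟩
    have hy' : y ∈ Mlines j := by
      rw [hj, ← himg]
      exact mem_image.2 ⟨_, h2, by simp⟩
    exact hxy (card_le_one.1 h3 x (mem_inter.2 ⟨hx', hx⟩) y (mem_inter.2 ⟨hy', hy⟩))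

omit [Fintype α] in
/-- Composing two model identifications. -/
theorem iso_of_models {β γ : Type*} [DecidableEq β] [DecidableEq γ] {L' : Set (Finset β)} {M : Set (Finset γ)}
    (e : α ≃ γ) (e' : β ≃ γ) (he : (fun l : Finset α => l.image e) '' L = M)
    (he' : (fun l : Finset β => l.image e') '' L' = M) :
    (fun l : Finset α => l.image (e.trans e'.symm)) '' L = L' := by
  have key : ∀ l : Finset α, l.image (e.trans e'.symm) = (l.image e).image e'.symm := by
    intro l
    rw [image_image]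
    rfl
  have key' : ∀ l : Finset β, (l.image e').image e'.symm = l := by
    intro l
    rw [image_image]
    simp
  ext l'
  simp only [Set.mem_image]
  constructor
  · rintro ⟨l, hl, rfl⟩
    have : l.image e ∈ M := he ▸ ⟨l, hl, rfl⟩
    rw [← he'] at this
    obtain ⟨l'', hl'', h⟩ := this
    simp only at h
    rw [key, ← h, key']
    exact hl''
  · intro hl'
    have : l'.image e' ∈ M := he' ▸ ⟨l', hl', rfl⟩
    rw [← he] at this
    obtain ⟨l, hl, h⟩ := this
    simp only at h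
    refine ⟨l, hl, ?_⟩
    rw [key, h, key']

open scoped Pointwise in
omit [Fintype α] in
theorem mem_aut_iff {g : Equiv.Perm α} :
    g ∈ setSystemAut L ↔ (fun b : Finset α => b.image g) '' L = L := by
  rw [MulAction.mem_stabilizer_iff]
  have : ∀ b : Finset α, g • b = b.image g := fun b => by
    rw [Finset.smul_finset_def]
    rfl
  constructor
  · intro h
    conv_rhs => rw [← h]
    ext x
    simp only [Set.mem_image, Set.mem_smul_set]
    constructor
    · rintro ⟨b, hb, rfl⟩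
      exact ⟨b, hb, this b⟩
    · rintro ⟨b, hb, rfl⟩
      exact ⟨b, hb, (this b).symm⟩
  · intro h
    conv_rhs => rw [← h]
    ext x
    simp only [Set.mem_image, Set.mem_smul_set]
    constructor
    · rintro ⟨b, hb, rfl⟩
      exact ⟨b, hb, (this b).symm⟩
    · rintro ⟨b, hb, rfl⟩
      exact ⟨b, hb, this b⟩

include hL hα hH hI in
/-- An automorphism fixing a hyperoval pointwise is trivial. -/
theorem aut_fix {g : Equiv.Perm α} (hg : g ∈ setSystemAut L) (hfix : ∀ p ∈ H, g p = p) : g = 1 := by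
  have hg' := mem_aut_iff.1 hg
  have himg : ∀ l ∈ L, l.image g ∈ L := fun l hl => hg' ▸ ⟨l, hl, rfl⟩
  have hf : Nonempty (↥H ≃ Fin 6) := ⟨Fintype.equivFinOfCardEq (by simp [hH])⟩
  obtain ⟨f⟩ := hf
  ext p
  by_cases hp : p ∈ H
  · simp [hfix p hp]
  obtain ⟨k, hk⟩ := exists_idx hL hα hH hI f hp
  have hfixl : ∀ a : Fin 6, ∀ l ∈ L, p ∈ l → uu f a ∈ l → g p ∈ l := by
    intro a l hl hpl hal
    have h1 : uu f (mt k a) ∈ l := idx_line hL hI f hp hk hl hpl hal
    have h2 : l.image g = l := by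
      apply line_unique hL ((uu_inj f).ne (mt_ne k a).symm) (himg l hl) hl
      · exact mem_image.2 ⟨_, hal, hfix _ (uu_mem f a)⟩
      · exact mem_image.2 ⟨_, h1, hfix _ (uu_mem f _)⟩
      · exact hal
      · exact h1
    rw [← h2]
    exact mem_image_of_mem _ hpl
  obtain ⟨a, ha0, ham⟩ := mt_third k
  obtain ⟨l, hl, h1, h2, h3⟩ := hk 0
  obtain ⟨m, hm, h7, h8, h9⟩ := hk a
  have hlm : l ≠ m := by
    rintro rfl
    exact no_three hI f hl (mt_ne k 0).symm ha0.symm ham.symm h2 h3 h8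
  have h4 := inter_card_le_one hL hl hm hlm
  have := card_le_one.1 h4 (g p) (mem_inter.2 ⟨hfixl 0 l hl h1 h2, hfixl a m hm h7 h8⟩) p (mem_inter.2 ⟨h1, h7⟩)
  simpa using this

end Cfsg.Agent.Lib.ThreeT.Plane4
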