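import Mathlib
import Cfsg.Agent.Lib.ThreeT.Plane4Model

/-!
# Counting independent sets in the plane of order 4
-/

set_option autoImplicit false

namespace Cfsg.Agent.Lib.ThreeT.Plane4

open Cfsg Finset

theorem count4 : ((powersetCard 4 (univ : Finset (Fin 21))).filter
    (fun S => ∀ i, (Mlines i ∩ S).card ≤ 2)).card = 2520 := by
  decide +kernel

variable {α : Type*} [Fintype α] [DecidableEq α] {L : Set (Finset α)}

open Classical in
/-- Independent 4-sets, as a `Finset`. -/
noncomputable def I4 (L : Set (Finset α)) : Finset (Finset α) :=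
  univ.filter (fun S => S.card = 4 ∧ Ind L S)

open Classical in
/-- Independent 6-sets, as a `Finset`. -/
noncomputable def H6 (L : Set (Finset α)) : Finset (Finset α) :=
  univ.filter (fun S => S.card = 6 ∧ Ind L S)

theorem mem_I4 {S : Finset α} : S ∈ I4 L ↔ S.card = 4 ∧ Ind L S := by
  classical
  simp [I4]

theorem mem_H6 {S : Finset α} : S ∈ H6 L ↔ S.card = 6 ∧ Ind L S := by
  classical
  simp [H6]

variable (hL : IsSteinerSystem 2 5 L) (hα : Fintype.card α = 21)

include hL hα in
theorem card_I4 : (I4 L).card = 2520 := by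
  obtain ⟨H, hH, hI⟩ := exists_hyp hL hα
  have hf : Nonempty (↥H ≃ Fin 6) := ⟨Fintype.equivFinOfCardEq (by simp [hH])⟩
  obtain ⟨f⟩ := hf
  obtain ⟨e, -, he⟩ := exists_model hL hα hH hI f
  rw [← count4]
  have hinj : Function.Injective (fun S : Finset α => S.image e) := image_injective e.injective
  rw [← card_image_of_injective (I4 L) hinj]
  congr 1
  ext T
  simp only [mem_image, mem_filter, mem_powersetCard, subset_univ, true_and]
  have hcardinter : ∀ l S : Finset α, ((l.image e) ∩ (S.image e)).card = (l ∩ S).card := by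
    intro l S
    rw [← image_inter _ _ e.injective, card_image_of_injective _ e.injective]
  have hL1 : ∀ l ∈ L, ∃ i, Mlines i = l.image e := by
    intro l hl
    have : l.image e ∈ Set.range Mlines := he ▸ ⟨l, hl, rfl⟩
    exact this
  have hL2 : ∀ i, ∃ l ∈ L, l.image e = Mlines i := by
    intro i
    have : Mlines i ∈ (fun l : Finset α => l.image e) '' L := he ▸ ⟨i, rfl⟩
    exact this
  constructor
  · rintro ⟨S, hS, rfl⟩
    obtain ⟨h4, hind⟩ := mem_I4.1 hS
    refine ⟨by rw [card_image_of_injective _ e.injective, h4], fun i => ?_⟩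
    obtain ⟨l, hl, hli⟩ := hL2 i
    rw [← hli, hcardinter]
    exact hind l hl
  · rintro ⟨h4, hind⟩
    refine ⟨T.image e.symm, mem_I4.2 ⟨?_, ?_⟩, ?_⟩
    · rw [card_image_of_injective _ e.symm.injective, h4]
    · intro l hl
      obtain ⟨i, hi⟩ := hL1 l hl
      have h1 := hind i
      rw [hi] at h1
      have h2 : T = (T.image e.symm).image e := by
        rw [image_image]
        simp
      rw [h2, hcardinter] at h1
      exact h1
    · rw [image_image]
      simp

include hL hα in
theorem card_H6 : (H6 L).card = 168 := by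
  classical
  have h := card_mul_eq_card_mul (s := I4 L) (t := H6 L) (m := 1) (n := 15) (fun S H => S ⊆ H) ?_ ?_
  · rw [card_I4 hL hα] at h
    omega
  · intro S hS
    obtain ⟨h4, hind⟩ := mem_I4.1 hS
    rw [card_eq_one]
    obtain ⟨h1, h2⟩ := hyp_of_four hL hα h4 hind
    refine ⟨S ∪ EE L S, ?_⟩
    ext H
    simp only [bipartiteAbove, mem_filter, mem_singleton, mem_H6]
    constructor
    · rintro ⟨⟨hH, hIH⟩, hSH⟩
      exact hyp_unique hL hα h4 hind hH hIH hSH
    · rintro rfl
      exact ⟨⟨h1, h2⟩, subset_union_left⟩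
  · intro H hH
    obtain ⟨h6, hind⟩ := mem_H6.1 hH
    have : (I4 L).bipartiteBelow (fun S H => S ⊆ H) H = powersetCard 4 H := by
      ext S
      simp only [bipartiteBelow, mem_filter, mem_I4, mem_powersetCard]
      constructor
      · rintro ⟨⟨h4, -⟩, hSH⟩
        exact ⟨hSH, h4⟩
      · rintro ⟨hSH, h4⟩
        refine ⟨⟨h4, fun l hl => ?_⟩, hSH⟩
        exact (card_le_card (inter_subset_inter_left hSH)).trans (hind l hl)
    rw [this, card_powersetCard, h6]
    rfl

end Cfsg.Agent.Lib.ThreeT.Plane4
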