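import Mathlib
import Cfsg.Agent.Lib.Known3.OmegaTrans

/-!
# Reflections over the field with three elements
-/

set_option autoImplicit false
set_option linter.unusedSectionVars false

namespace Cfsg.Agent.Lib.ThreeT.Refl3

open Cfsg.Agent.Lib.Classical.Witt Cfsg.Agent.Lib.Classical.Abs Cfsg.Agent.Lib.Classical
open Cfsg.Agent.Lib.Classical.Orth
open Module

local notation "P" => QuadraticMap.polarBilin

variable {V : Type*} [AddCommGroup V] [Module (ZMod 3) V] {Q : QuadraticForm (ZMod 3) V}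

local notation "orth" => LinearMap.BilinForm.orthogonal (P Q)

theorem zmod3_cases (a : ZMod 3) : a = 0 ∨ a = 1 ∨ a = -1 := by
  revert a; decide

theorem zmod3_mul_self {a : ZMod 3} (ha : a ≠ 0) : a * a = 1 := by
  revert a; decide

theorem zmod3_inv {a : ZMod 3} (ha : a ≠ 0) : a⁻¹ = a :=
  (eq_inv_of_mul_eq_one_left (zmod3_mul_self ha)).symm

/-- The product of two reflections of the same norm. -/
theorem prod_apply {u v : V} {c : ZMod 3} (hc : c ≠ 0) (hu : Q u = c) (hv : Q v = c) (hu0 : Q u ≠ 0) (hv0 : Q v ≠ 0) (x : V) :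
    (refl Q u hu0 * refl Q v hv0).1 x =
      x - (c * P Q v x) • v - (c * P Q u x - c * P Q v x * (c * P Q u v)) • u := by
  rw [mul_apply', refl_apply, refl_apply, hu, hv, zmod3_inv hc, map_sub, map_smul, smul_eq_mul]
  congr 2
  ring

/-- Two reflections of the same norm multiply to an element of order at most `3`. -/
theorem prod_order {u v : V} {c : ZMod 3} (hc : c ≠ 0) (hu : Q u = c) (hv : Q v = c) (hu0 : Q u ≠ 0) (hv0 : Q v ≠ 0) :
    (refl Q u hu0 * refl Q v hv0) ^ 2 = 1 ∨ (refl Q u hu0 * refl Q v hv0) ^ 3 = 1 := by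
  set T := refl Q u hu0 * refl Q v hv0 with hT
  have hPuu : c * P Q u u = 2 := by
    rw [pol_self, hu, mul_left_comm, zmod3_mul_self hc, mul_one]
  have hPvv : c * P Q v v = 2 := by
    rw [pol_self, hv, mul_left_comm, zmod3_mul_self hc, mul_one]
  have hPvu : P Q v u = P Q u v := pol_comm Q v u
  obtain ⟨a, ha⟩ : ∃ a, a = c * P Q u v := ⟨_, rfl⟩
  have hTx : ∀ x, T.1 x = x - (c * P Q v x) • v - (c * P Q u x - c * P Q v x * a) • u := by
    intro x
    rw [ha]
    exact prod_apply hc hu hv hu0 hv0 x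
  have hαT : ∀ x, c * P Q u (T.1 x) = -(c * P Q u x) + c * P Q v x * a := by
    intro x
    rw [hTx]
    simp only [map_sub, map_smul, smul_eq_mul]
    have e1 : c * (P Q u x - c * P Q v x * P Q u v - (c * P Q u x - c * P Q v x * a) * P Q u u)
        = c * P Q u x - c * P Q v x * (c * P Q u v) - (c * P Q u x - c * P Q v x * a) * (c * P Q u u) := by ring
    rw [e1, hPuu, ← ha]
    ring
  have hβT : ∀ x, c * P Q v (T.1 x) = -(c * P Q v x) - (c * P Q u x - c * P Q v x * a) * a := by
    intro x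
    rw [hTx]
    simp only [map_sub, map_smul, smul_eq_mul]
    have e1 : c * (P Q v x - c * P Q v x * P Q v v - (c * P Q u x - c * P Q v x * a) * P Q v u)
        = c * P Q v x - c * P Q v x * (c * P Q v v) - (c * P Q u x - c * P Q v x * a) * (c * P Q v u) := by ring
    rw [e1, hPvv, hPvu, ← ha]
    ring
  rcases zmod3_cases a with h | h | h
  · left
    apply OG_ext
    intro x
    rw [pow_two, mul_apply', one_apply', hTx (T.1 x), hαT, hβT, hTx x, h]
    (module)
  · right
    apply OG_ext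
    intro x
    rw [pow_succ, pow_two, mul_apply', mul_apply', one_apply', hTx (T.1 (T.1 x)), hαT, hβT, hαT, hβT, hTx (T.1 x), hαT, hβT, hTx x, h]
    (module)
  · right
    apply OG_ext
    intro x
    rw [pow_succ, pow_two, mul_apply', mul_apply', one_apply', hTx (T.1 (T.1 x)), hαT, hβT, hαT, hβT, hTx (T.1 x), hαT, hβT, hTx x, h]
    (module)

/-- The reflections of norm `c`. -/
def Dc (Q : QuadraticForm (ZMod 3) V) (c : ZMod 3) : Set (OG Q) :=
  {g | ∃ (v : V) (hv : Q v ≠ 0), Q v = c ∧ g = refl Q v hv}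

/-- The subgroup generated by them. -/
def Rc (Q : QuadraticForm (ZMod 3) V) (c : ZMod 3) : Subgroup (OG Q) := Subgroup.closure (Dc Q c)

theorem refl_mem_Rc {c : ZMod 3} {v : V} (hv : Q v ≠ 0) (h : Q v = c) : refl Q v hv ∈ Rc Q c :=
  Subgroup.subset_closure ⟨v, hv, h, rfl⟩

theorem refl_congr' {a b : V} (h : a = b) (ha : Q a ≠ 0) (hb : Q b ≠ 0) : refl Q a ha = refl Q b hb := by
  subst h; rfl

theorem refl_neg {v : V} (hv : Q v ≠ 0) (hv' : Q (-v) ≠ 0) : refl Q (-v) hv' = refl Q v hv := by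
  have h1 : (-v) = (-1 : ZMod 3) • v := by simp
  have h2 : Q ((-1 : ZMod 3) • v) ≠ 0 := by rwa [← h1]
  rw [refl_congr' h1 hv' h2]
  exact refl_smul hv (by decide) h2

/-- Conjugacy of reflections of norm `c` for non-orthogonal centres. -/
theorem conj_step {c : ZMod 3} (hc : c ≠ 0) {u v : V} (hu : Q u = c) (hv : Q v = c) (hu0 : Q u ≠ 0) (hv0 : Q v ≠ 0)
    (huv : P Q u v ≠ 0) : ∃ g ∈ Rc Q c, g * refl Q u hu0 * g⁻¹ = refl Q v hv0 := by
  have h2c : (2 : ZMod 3) * c = -c := by
    have : (2 : ZMod 3) = -1 := by decide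
    rw [this]; ring
  have hcases : P Q u v = c ∨ P Q u v = -c := by
    have hcc := zmod3_cases (P Q u v)
    have hc2 := zmod3_cases c
    rcases hcc with h | h | h
    · exact absurd h huv
    · rw [h]
      rcases hc2 with h2 | h2 | h2
      · exact absurd h2 hc
      · left; exact h2.symm
      · right; rw [h2]; simp
    · rw [h]
      rcases hc2 with h2 | h2 | h2
      · exact absurd h2 hc
      · right; rw [h2]
      · left; exact h2.symm
  rcases hcases with h | h
  · have hd : Q (u - v) = c := by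
      rw [Q_sub, hu, hv, h]
      ring
    have hd0 : Q (u - v) ≠ 0 := by rw [hd]; exact hc
    refine ⟨refl Q (u - v) hd0, refl_mem_Rc hd0 hd, ?_⟩
    have hmove := refl_move (Q := Q) (a := u) (b := v) (hu.trans hv.symm) hd0
    have hgv : Q ((refl Q (u - v) hd0).1 u) ≠ 0 := by rw [hmove]; exact hv0
    rw [refl_conj _ hu0 hgv]
    exact refl_congr' hmove _ _
  · have hd : Q (u - (-v)) = c := by
      rw [Q_sub, hu, QuadraticMap.map_neg, hv, map_neg, h, neg_neg]
      have : c + c - c = c := by ring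
      rw [this]
    have hd0 : Q (u - (-v)) ≠ 0 := by rw [hd]; exact hc
    refine ⟨refl Q (u - (-v)) hd0, refl_mem_Rc hd0 hd, ?_⟩
    have hmove := refl_move (Q := Q) (a := u) (b := -v) (by rw [QuadraticMap.map_neg, hu, hv]) hd0
    have hgv : Q ((refl Q (u - (-v)) hd0).1 u) ≠ 0 := by
      rw [hmove, QuadraticMap.map_neg]; exact hv0
    rw [refl_conj _ hu0 hgv, refl_congr' hmove hgv (by rw [QuadraticMap.map_neg]; exact hv0)]
    exact refl_neg hv0 _

variable [FiniteDimensional (ZMod 3) V]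

/-- A vector of norm `c` not orthogonal to two given orthogonal vectors. -/
theorem exists_connecting (hQ : (P Q).Nondegenerate) (hn : 5 ≤ finrank (ZMod 3) V) {c : ZMod 3} (hc : c ≠ 0) {u v : V}
    (hu : Q u = c) (hv : Q v = c) (huv : P Q u v = 0) :
    ∃ w, Q w = c ∧ P Q u w ≠ 0 ∧ P Q w v ≠ 0 := by
  classical
  have h20 : (2 : ZMod 3) ≠ 0 := by decide
  set T : Submodule (ZMod 3) V := Submodule.span (ZMod 3) {u, v} with hT
  have hvu : P Q v u = 0 := by rw [pol_comm]; exact huv
  have h2c : (2 : ZMod 3) * c ≠ 0 := mul_ne_zero h20 hc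
  have hTorth : T ⊓ orth T = ⊥ := by
    rw [eq_bot_iff]
    rintro x ⟨hx, hx'⟩
    obtain ⟨a, b, rfl⟩ := Submodule.mem_span_pair.mp hx
    have h1 : P Q u (a • u + b • v) = 0 := (mem_orth.1 hx') u (Submodule.subset_span (by simp))
    have h2 : P Q v (a • u + b • v) = 0 := (mem_orth.1 hx') v (Submodule.subset_span (by simp))
    simp only [map_add, map_smul, smul_eq_mul, pol_self, huv, hvu, mul_zero, add_zero, zero_add, hu, hv] at h1 h2
    have ha : a = 0 := (mul_eq_zero.mp h1).resolve_right h2c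
    have hb : b = 0 := (mul_eq_zero.mp h2).resolve_right h2c
    simp [ha, hb]
  have hRefl : (P Q).IsRefl := P_refl
  have hoo : orth (orth T) = T := LinearMap.BilinForm.orthogonal_orthogonal hQ hRefl T
  have hW : orth T ⊓ orth (orth T) = ⊥ := by
    rw [hoo, inf_comm]; exact hTorth
  have hfin : finrank (ZMod 3) (orth T) = finrank (ZMod 3) V - finrank (ZMod 3) T :=
    LinearMap.BilinForm.finrank_orthogonal hQ T
  have hTle : finrank (ZMod 3) T ≤ 2 := by
    have := finrank_span_le_card (R := ZMod 3) ({u, v} : Set V)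
    have h3 : (({u, v} : Set V)).toFinset.card ≤ 2 := by
      rw [Set.toFinset_insert, Set.toFinset_singleton]
      exact Finset.card_le_two
    rw [hT]
    omega
  obtain ⟨t, ht, hQt⟩ := Cfsg.Agent.Lib.Known3.OmegaTrans.exists_value (Q := Q) hW (by omega) (-c) (neg_ne_zero.mpr hc)
  have htu : P Q u t = 0 := (mem_orth.1 ht) u (Submodule.subset_span (by simp))
  have htv : P Q v t = 0 := (mem_orth.1 ht) v (Submodule.subset_span (by simp))
  refine ⟨u + v + t, ?_, ?_, ?_⟩
  · rw [Q_add, Q_add, hu, hv, hQt]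
    simp only [map_add, LinearMap.add_apply, huv, htu, htv, add_zero]
    ring
  · simp only [map_add, pol_self, huv, htu, add_zero, hu]
    exact h2c
  · simp only [map_add, LinearMap.add_apply, pol_self, huv, hv]
    rw [pol_comm Q t v, htv]
    simpa using h2c

/-- Reflections of norm `c` are conjugate in the group they generate. -/
theorem conj_refl (hQ : (P Q).Nondegenerate) (hn : 5 ≤ finrank (ZMod 3) V) {c : ZMod 3} (hc : c ≠ 0) {u v : V}
    (hu : Q u = c) (hv : Q v = c) (hu0 : Q u ≠ 0) (hv0 : Q v ≠ 0) :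
    ∃ g ∈ Rc Q c, g * refl Q u hu0 * g⁻¹ = refl Q v hv0 := by
  by_cases huv : P Q u v = 0
  · obtain ⟨w, hw, h1, h2⟩ := exists_connecting hQ hn hc hu hv huv
    have hw0 : Q w ≠ 0 := by rw [hw]; exact hc
    obtain ⟨g, hg, hg1⟩ := conj_step hc hu hw hu0 hw0 h1
    obtain ⟨g', hg', hg2⟩ := conj_step hc hw hv hw0 hv0 h2
    refine ⟨g' * g, Subgroup.mul_mem _ hg' hg, ?_⟩
    rw [← hg2, ← hg1]
    group
  · exact conj_step hc hu hv hu0 hv0 huv

/-- Existence of a vector of norm `c`. -/
theorem exists_norm (hQ : (P Q).Nondegenerate) (hn : 2 ≤ finrank (ZMod 3) V) (c : ZMod 3) (hc : c ≠ 0) :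
    ∃ v, Q v = c := by
  have h : (⊤ : Submodule (ZMod 3) V) ⊓ orth ⊤ = ⊥ := by
    rw [top_inf_eq, eq_bot_iff]
    intro x hx
    rw [Submodule.mem_bot]
    apply hQ.2
    intro y
    exact (mem_orth.1 hx) y trivial
  obtain ⟨b, -, hb⟩ := Cfsg.Agent.Lib.Known3.OmegaTrans.exists_value (Q := Q) (T := ⊤) h (by
    rw [finrank_top]; exact hn) c hc
  exact ⟨b, hb⟩

end Cfsg.Agent.Lib.ThreeT.Refl3
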