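import Mathlib
import Cfsg.Agent.Lib.ThreeT.Refl3

/-!
# The subgroup generated by the reflections of a given norm over the field with three elements has index two
-/

set_option autoImplicit false
set_option linter.unusedSectionVars false

namespace Cfsg.Agent.Lib.ThreeT.Refl3

open Cfsg.Agent.Lib.Classical.Witt Cfsg.Agent.Lib.Classical.Abs Cfsg.Agent.Lib.Classical
open Cfsg.Agent.Lib.Classical.Orth
open Module

local notation "P" => QuadraticMap.polarBilin

variable {V : Type*} [AddCommGroup V] [Module (ZMod 3) V] {Q : QuadraticForm (ZMod 3) V}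

local notation "orth" => LinearMap.BilinForm.orthogonal (P Q)

/-- `Rc` is normal in the orthogonal group. -/
theorem Rc_normal (c : ZMod 3) : (Rc Q c).Normal := by
  refine ⟨fun n hn g => ?_⟩
  induction hn using Subgroup.closure_induction with
  | mem y hy =>
    obtain ⟨v, hv0, hv, rfl⟩ := hy
    have h : Q (g.1 v) ≠ 0 := by rw [OG_pres]; exact hv0
    rw [refl_conj g hv0 h]
    exact refl_mem_Rc h (by rw [OG_pres]; exact hv)
  | one => simp
  | mul a b _ _ ha hb =>
    have e : g * (a * b) * g⁻¹ = (g * a * g⁻¹) * (g * b * g⁻¹) := by group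
    rw [e]
    exact Subgroup.mul_mem _ ha hb
  | inv a _ ha =>
    have e : g * a⁻¹ * g⁻¹ = (g * a * g⁻¹)⁻¹ := by group
    rw [e]
    exact Subgroup.inv_mem _ ha

variable [FiniteDimensional (ZMod 3) V]

/-- Orthogonal vectors of norm `-c` are connected by a reflection of norm `c`. -/
theorem step_orth {c : ZMod 3} {x w : V} (hc : c ≠ 0) (hx : Q x = -c) (hw : Q w = -c) (hb : P Q x w = 0)
    (hx0 : Q x ≠ 0) (hw0 : Q w ≠ 0) : ∃ g ∈ Rc Q c, g * refl Q x hx0 * g⁻¹ = refl Q w hw0 := by
  have hd : Q (x - w) = c := by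
    rw [Q_sub, hx, hw, hb]
    have e : (-c + -c - 0 : ZMod 3) = (-2) * c := by ring
    rw [e]
    have h2 : (-2 : ZMod 3) = 1 := by decide
    rw [h2, one_mul]
  have hd0 : Q (x - w) ≠ 0 := by rw [hd]; exact hc
  refine ⟨refl Q (x - w) hd0, refl_mem_Rc hd0 hd, ?_⟩
  have hmove := refl_move (Q := Q) (a := x) (b := w) (hx.trans hw.symm) hd0
  have hgv : Q ((refl Q (x - w) hd0).1 x) ≠ 0 := by rw [hmove]; exact hw0
  rw [refl_conj _ hx0 hgv]
  exact refl_congr' hmove _ _

/-- A vector of norm `-c` orthogonal to two non-orthogonal vectors of norm `-c`. -/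
theorem exists_orth_both (hQ : (P Q).Nondegenerate) (hn : 5 ≤ finrank (ZMod 3) V) {c : ZMod 3} (hc : c ≠ 0) {x w : V}
    (hx : Q x = -c) (hw : Q w = -c) (hb : P Q x w ≠ 0) {ε : ZMod 3} (hε : ε ≠ 0) (hεb : P Q x w = ε * c)
    (he : x - ε • w ≠ 0) :
    ∃ t, Q t = -c ∧ P Q x t = 0 ∧ P Q w t = 0 := by
  classical
  have h20 : (2 : ZMod 3) ≠ 0 := by decide
  have hεε : ε * ε = 1 := zmod3_mul_self hε
  obtain ⟨e, hedef⟩ : ∃ e, e = x - ε • w := ⟨_, rfl⟩
  rw [← hedef] at he
  have hPxx : P Q x x = c := by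
    rw [pol_self, hx]
    have h2 : (2 : ZMod 3) * -c = c := by
      have : (2 : ZMod 3) = -1 := by decide
      rw [this]; ring
    exact h2
  have hPww : P Q w w = c := by
    rw [pol_self, hw]
    have h2 : (2 : ZMod 3) * -c = c := by
      have : (2 : ZMod 3) = -1 := by decide
      rw [this]; ring
    exact h2
  have hPwx : P Q w x = ε * c := by rw [pol_comm]; exact hεb
  have hPxe : P Q x e = 0 := by
    rw [hedef, map_sub, map_smul, smul_eq_mul, hPxx, hεb]
    have : c - ε * (ε * c) = c - (ε * ε) * c := by ring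
    rw [this, hεε]
    ring
  have hPwe : P Q w e = 0 := by
    rw [hedef, map_sub, map_smul, smul_eq_mul, hPww, hPwx]
    ring
  have hPex : P Q e x = 0 := by rw [pol_comm]; exact hPxe
  have hPee : P Q e e = 0 := by
    have h1 : P Q e e = P Q x e - ε * P Q w e := by
      calc P Q e e = P Q (x - ε • w) e := by rw [← hedef]
        _ = _ := by rw [map_sub, map_smul, LinearMap.sub_apply, LinearMap.smul_apply, smul_eq_mul]
    rw [h1, hPxe, hPwe]
    ring
  -- a partner of `e`
  obtain ⟨f₀, hf₀⟩ : ∃ f₀, P Q e f₀ ≠ 0 := by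
    by_contra hcon
    push Not at hcon
    exact he (hQ.1 e hcon)
  obtain ⟨f, hf⟩ : ∃ f, f = (P Q e f₀)⁻¹ • f₀ := ⟨_, rfl⟩
  have hPef : P Q e f = 1 := by
    rw [hf, map_smul, smul_eq_mul]
    exact inv_mul_cancel₀ hf₀
  have hcinv : c * c = 1 := zmod3_mul_self hc
  obtain ⟨f', hf'⟩ : ∃ f', f' = f - (c * P Q x f) • x := ⟨_, rfl⟩
  have hPxf' : P Q x f' = 0 := by
    rw [hf', map_sub, map_smul, smul_eq_mul, hPxx]
    have : P Q x f - c * P Q x f * c = P Q x f - (c * c) * P Q x f := by ring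
    rw [this, hcinv]
    ring
  have hPef' : P Q e f' = 1 := by
    rw [hf', map_sub, map_smul, smul_eq_mul, hPef, hPex]
    ring
  set T : Submodule (ZMod 3) V := Submodule.span (ZMod 3) {x, e, f'} with hT
  have hTorth : T ⊓ orth T = ⊥ := by
    rw [eq_bot_iff]
    rintro y ⟨hy, hy'⟩
    obtain ⟨a, b, d, rfl⟩ := Submodule.mem_span_triple.mp hy
    have h1 : P Q x (a • x + b • e + d • f') = 0 := (mem_orth.1 hy') x (Submodule.subset_span (by simp))
    have h2 : P Q e (a • x + b • e + d • f') = 0 := (mem_orth.1 hy') e (Submodule.subset_span (by simp))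
    have h3 : P Q f' (a • x + b • e + d • f') = 0 := (mem_orth.1 hy') f' (Submodule.subset_span (by simp))
    have hf'e : P Q f' e = 1 := by rw [pol_comm]; exact hPef'
    have hf'x : P Q f' x = 0 := by rw [pol_comm]; exact hPxf'
    simp only [map_add, map_smul, smul_eq_mul, hPxx, hPxe, hPxf', hPex, hPee, hPef', hf'e, hf'x, mul_zero, add_zero,
      zero_add, mul_one] at h1 h2 h3
    have ha : a = 0 := (mul_eq_zero.mp h1).resolve_right hc
    have hd : d = 0 := h2
    have hb' : b = 0 := by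
      rw [hd] at h3
      simpa using h3
    simp [ha, hd, hb']
  have hRefl : (P Q).IsRefl := P_refl
  have hoo : orth (orth T) = T := LinearMap.BilinForm.orthogonal_orthogonal hQ hRefl T
  have hW : orth T ⊓ orth (orth T) = ⊥ := by
    rw [hoo, inf_comm]; exact hTorth
  have hfin : finrank (ZMod 3) (orth T) = finrank (ZMod 3) V - finrank (ZMod 3) T :=
    LinearMap.BilinForm.finrank_orthogonal hQ T
  have hTle : finrank (ZMod 3) T ≤ 3 := by
    have := finrank_span_le_card (R := ZMod 3) ({x, e, f'} : Set V)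
    have h3 : (({x, e, f'} : Set V)).toFinset.card ≤ 3 := by
      rw [Set.toFinset_insert, Set.toFinset_insert, Set.toFinset_singleton]
      exact Finset.card_le_three
    rw [hT]
    omega
  obtain ⟨t, ht, hQt⟩ := Cfsg.Agent.Lib.Known3.OmegaTrans.exists_value (Q := Q) hW (by omega) (-c) (neg_ne_zero.mpr hc)
  have htx : P Q x t = 0 := (mem_orth.1 ht) x (Submodule.subset_span (by simp))
  have hte : P Q e t = 0 := (mem_orth.1 ht) e (Submodule.subset_span (by simp))
  refine ⟨t, hQt, htx, ?_⟩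
  have h1 : P Q e t = P Q x t - ε * P Q w t := by
    rw [hedef, map_sub, map_smul, LinearMap.sub_apply, LinearMap.smul_apply, smul_eq_mul]
  rw [hte, htx] at h1
  have h2 : ε * P Q w t = 0 := by
    have : (0 : ZMod 3) - ε * P Q w t = 0 := h1.symm
    simpa using this
  exact (mul_eq_zero.mp h2).resolve_left hε

/-- The product of two reflections of norm `-c` lies in `Rc`. -/
theorem prod_mem_Rc (hQ : (P Q).Nondegenerate) (hn : 5 ≤ finrank (ZMod 3) V) {c : ZMod 3} (hc : c ≠ 0) {x w : V}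
    (hx : Q x = -c) (hw : Q w = -c) (hx0 : Q x ≠ 0) (hw0 : Q w ≠ 0) : refl Q x hx0 * refl Q w hw0 ∈ Rc Q c := by
  have hnormal := Rc_normal (Q := Q) c
  -- conjugacy suffices
  suffices h : ∃ g ∈ Rc Q c, g * refl Q x hx0 * g⁻¹ = refl Q w hw0 by
    obtain ⟨g, hg, hgc⟩ := h
    have e : refl Q x hx0 * refl Q w hw0 = refl Q x hx0 * (g * refl Q x hx0 * g⁻¹) := by rw [hgc]
    have e2 : refl Q x hx0 * (g * refl Q x hx0 * g⁻¹) = (refl Q x hx0 * g * (refl Q x hx0)⁻¹) * g⁻¹ := by
      rw [refl_inv]; group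
    rw [e, e2]
    exact Subgroup.mul_mem _ (hnormal.conj_mem g hg _) (Subgroup.inv_mem _ hg)
  by_cases hb : P Q x w = 0
  · exact step_orth hc hx hw hb hx0 hw0
  · -- `ε`
    obtain ⟨ε, hε, hεb⟩ : ∃ ε : ZMod 3, ε ≠ 0 ∧ P Q x w = ε * c := by
      refine ⟨P Q x w * c, mul_ne_zero hb hc, ?_⟩
      rw [mul_assoc, zmod3_mul_self hc, mul_one]
    by_cases he : x - ε • w = 0
    · -- the same line
      have hxw : x = ε • w := sub_eq_zero.mp he
      refine ⟨1, Subgroup.one_mem _, ?_⟩
      have h2 : Q (ε • w) ≠ 0 := by rw [← hxw]; exact hx0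
      rw [one_mul, inv_one, mul_one, refl_congr' hxw hx0 h2]
      exact refl_smul hw0 hε h2
    · obtain ⟨t, ht, htx, htw⟩ := exists_orth_both hQ hn hc hx hw hb hε hεb he
      have ht0 : Q t ≠ 0 := by rw [ht]; exact neg_ne_zero.mpr hc
      obtain ⟨g, hg, h1⟩ := step_orth hc hx ht htx hx0 ht0
      obtain ⟨g', hg', h2⟩ := step_orth hc ht hw (by rw [pol_comm]; exact htw) ht0 hw0
      refine ⟨g' * g, Subgroup.mul_mem _ hg' hg, ?_⟩
      rw [← h2, ← h1]
      group

/-- Everything is in `Rc` or in the coset of a reflection of norm `-c`. -/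
theorem mem_or_mem (hQ : (P Q).Nondegenerate) (hn : 5 ≤ finrank (ZMod 3) V) {c : ZMod 3} (hc : c ≠ 0) {w : V}
    (hw : Q w = -c) (hw0 : Q w ≠ 0) (g : OG Q) : g ∈ Rc Q c ∨ g * refl Q w hw0 ∈ Rc Q c := by
  have hnormal := Rc_normal (Q := Q) c
  have hstep : ∀ (x y : OG Q), y ∈ {g | ∃ (v : V) (hv : Q v ≠ 0), g = refl Q v hv} →
      (x ∈ Rc Q c ∨ x * refl Q w hw0 ∈ Rc Q c) → (x * y ∈ Rc Q c ∨ x * y * refl Q w hw0 ∈ Rc Q c) := by
    rintro x _ ⟨v, hv, rfl⟩ h
    have hnv : Q v = c ∨ Q v = -c := by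
      have h1 := zmod3_cases (Q v)
      have h2 := zmod3_cases c
      rcases h1 with h1 | h1 | h1
      · exact absurd h1 hv
      · rcases h2 with h2 | h2 | h2
        · exact absurd h2 hc
        · left; rw [h1, h2]
        · right; rw [h1, h2]; simp
      · rcases h2 with h2 | h2 | h2
        · exact absurd h2 hc
        · right; rw [h1, h2]
        · left; rw [h1, h2]
    rcases hnv with hv' | hv'
    · -- norm `c`
      have hr := refl_mem_Rc hv hv'
      rcases h with h | h
      · exact Or.inl (Subgroup.mul_mem _ h hr)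
      · right
        have e : x * refl Q v hv * refl Q w hw0 = (x * refl Q w hw0) * ((refl Q w hw0)⁻¹ * refl Q v hv * refl Q w hw0) := by
          group
        rw [e]
        refine Subgroup.mul_mem _ h ?_
        have := hnormal.conj_mem _ hr (refl Q w hw0)⁻¹
        rwa [inv_inv] at this
    · -- norm `-c`
      have hr := prod_mem_Rc hQ hn hc hv' hw hv hw0
      rcases h with h | h
      · right
        rw [mul_assoc]
        exact Subgroup.mul_mem _ h hr
      · left
        have e : x * refl Q v hv = (x * refl Q w hw0) * (refl Q w hw0 * refl Q v hv) := by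
          rw [mul_assoc, ← mul_assoc (refl Q w hw0), refl_mul_self, one_mul]
        rw [e]
        refine Subgroup.mul_mem _ h ?_
        exact prod_mem_Rc hQ hn hc hw hv' hw0 hv
  have h20 : (2 : ZMod 3) ≠ 0 := by decide
  have htop : Rf Q = ⊤ := Rf_eq_top_odd h20 hQ
  have hgmem : g ∈ Rf Q := by rw [htop]; trivial
  induction hgmem using Subgroup.closure_induction_right with
  | one =>
    left
    exact Subgroup.one_mem _
  | mul_right x _ y hy ih => exact hstep x y hy ih
  | mul_inv_cancel x _ y hy ih =>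
    obtain ⟨v, hv, rfl⟩ := hy
    rw [refl_inv]
    exact hstep x _ ⟨v, hv, rfl⟩ ih

variable [Finite V]

/-- The index is two. -/
theorem index_Rc (hQ : (P Q).Nondegenerate) (hn : 5 ≤ finrank (ZMod 3) V) {c : ZMod 3} (hc : c ≠ 0) :
    (Rc Q c).index = 2 := by
  classical
  have h20 : (2 : ZMod 3) ≠ 0 := by decide
  obtain ⟨w, hw⟩ := exists_norm (Q := Q) hQ (by omega) (-c) (neg_ne_zero.mpr hc)
  have hw0 : Q w ≠ 0 := by rw [hw]; exact neg_ne_zero.mpr hc
  have hsq : ∀ a b : ZMod 3, a ≠ 0 → b ≠ 0 → (IsSquare (a / b) ↔ a = b) := by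
    intro a b ha hb
    constructor
    · rintro ⟨r, hr⟩
      have hr0 : r ≠ 0 := by
        rintro rfl
        rw [mul_zero] at hr
        exact (div_ne_zero ha hb) hr
      rw [zmod3_mul_self hr0] at hr
      exact (div_eq_one_iff_eq hb).mp hr
    · rintro rfl
      exact ⟨1, by rw [div_self ha, mul_one]⟩
  -- the character
  have hθw : chi Q (-c) (refl Q w hw0) = -1 :=
    (chi_refl h20 hw0 (-c) (neg_ne_zero.mpr hc)).1 ((hsq _ _ (neg_ne_zero.mpr hc) hw0).2 hw.symm)
  have hθ : ∀ {v : V} (hv0 : Q v ≠ 0), Q v = c → chi Q (-c) (refl Q v hv0) = 1 := by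
    intro v hv0 hv
    apply (chi_refl h20 hv0 (-c) (neg_ne_zero.mpr hc)).2
    rw [hsq _ _ (neg_ne_zero.mpr hc) hv0, hv]
    intro h
    apply hc
    have h2 : (2 : ZMod 3) * c = 0 := by
      rw [two_mul]
      nth_rewrite 1 [← h]
      simp
    exact (mul_eq_zero.mp h2).resolve_left h20
  have hle : Rc Q c ≤ (chi Q (-c)).ker := by
    rw [Rc, Subgroup.closure_le]
    rintro _ ⟨v, hv0, hv, rfl⟩
    exact hθ hv0 hv
  have hge : (chi Q (-c)).ker ≤ Rc Q c := by
    intro g hg
    rcases mem_or_mem hQ hn hc hw hw0 g with h | h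
    · exact h
    · exfalso
      have h1 := hle h
      rw [MonoidHom.mem_ker, map_mul, hθw, MonoidHom.mem_ker.mp hg] at h1
      exact absurd h1 (by decide)
  rw [le_antisymm hle hge]
  exact index_ker_units_of_neg _ hθw

end Cfsg.Agent.Lib.ThreeT.Refl3
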