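/-
Simplicity of PΩ in dimension at least five, by Iwasawa's criterion on the singular points
(the only step needing more room in `OrthSimple` is replaced here).
-/
import Mathlib
import Cfsg.Agent.Lib.Classical.OrthSimple

set_option autoImplicit false
set_option linter.unusedSectionVars false

namespace Cfsg.Agent.Lib.ThreeT.Simple5

open Cfsg.Agent.Lib.Classical.Witt Cfsg.Agent.Lib.Classical.Abs Cfsg.Agent.Lib.Classical.Orth
open scoped commutatorElement LinearAlgebra.Projectivization Pointwise
open Module

local notation "P" => QuadraticMap.polarBilin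

section abstract

variable {F V : Type*} [Field F] [AddCommGroup V] [Module F V] {Q : QuadraticForm F V}

variable [FiniteDimensional F V]

local notation "orth" => LinearMap.BilinForm.orthogonal (P Q)

variable [Fintype F] (hQ : (P Q).Nondegenerate) (hn : 5 ≤ finrank F V)

include hQ hn in
/-- A non-singular vector orthogonal to two given vectors. -/
lemma exists_nonsing_orth (a b : V) : ∃ y, P Q a y = 0 ∧ P Q b y = 0 ∧ Q y ≠ 0 := by
  classical
  by_contra hcon
  push Not at hcon
  set T : Submodule F V := Submodule.span F {a, b} with hT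
  have hTle : finrank F T ≤ 2 := finrank_span_pair_le _ _
  have hfin : finrank F (orth T) = finrank F V - finrank F T := LinearMap.BilinForm.finrank_orthogonal hQ T
  have hQ0 : ∀ y ∈ orth T, Q y = 0 := by
    intro y hy
    have h1 := mem_orth_pair.mp hy
    exact hcon y h1.1 h1.2
  have hle : orth T ≤ orth (orth T) := by
    intro x hx
    rw [mem_orth]
    intro u hu
    have h1 := hQ0 _ (Submodule.add_mem _ hu hx)
    rw [Q_add, hQ0 u hu, hQ0 x hx] at h1
    simpa using h1
  have h3 := Submodule.finrank_mono hle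
  have hfin2 : finrank F (orth (orth T)) = finrank F V - finrank F (orth T) :=
    LinearMap.BilinForm.finrank_orthogonal hQ (orth T)
  omega

include hQ hn in
/-- Step C, in dimension at least five. -/
lemma block_c5 {B : Set (singP Q)} (hB : MulAction.IsBlock (KK Q) B) {a b : V}
    (ha : a ≠ 0) (ha' : Q a = 0) (hb : b ≠ 0) (hb' : Q b = 0)
    (h1 : pt (Q := Q) a ha ha' ∈ B) (h3 : pt (Q := Q) b hb hb' ∈ B) (hne : pt (Q := Q) a ha ha' ≠ pt b hb hb') :
    B = Set.univ := by
  by_cases hab : P Q a b = 0
  · have hspan : b ∉ Submodule.span F {a} := by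
      intro h
      obtain ⟨t, ht⟩ := Submodule.mem_span_singleton.mp h
      subst ht
      have ht0 : t ≠ 0 := by
        rintro rfl
        simp at hb
      exact hne (pt_smul ht0 ha ha' _ _).symm
    obtain ⟨x, h4, h5⟩ := exists_pair hQ hspan
    obtain ⟨c, hc⟩ : ∃ c, c = x - Q x • b := ⟨_, rfl⟩
    have hQc : Q c = 0 := by
      rw [hc, Q_sub, Q_smul, hb', map_smul, pol_comm Q x b, h5]
      simp
    have hbc : P Q b c = 1 := by
      rw [hc, map_sub, map_smul, pol_self_of hb', h5]
      simp
    have hac : P Q a c = 0 := by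
      rw [hc, map_sub, map_smul, hab, h4]
      simp
    obtain ⟨y, hya, hyc, hyQ⟩ := exists_nonsing_orth hQ hn a c
    have hcb : P Q c b = 1 := by rw [pol_comm]; exact hbc
    -- the Siegel element
    have hfix : (sg Q c y).1 a = a := by
      apply sg_fix hQc hyc
      · rw [pol_comm]; exact hac
      · rw [pol_comm]; exact hya
    obtain ⟨d, hd⟩ : ∃ d, d = (sg Q c y).1 b := ⟨_, rfl⟩
    have hdform : d = b + y - P Q y b • c - Q y • c := by
      rw [hd, sg_apply hQc hyc, hcb, one_smul, mul_one]
    have hQd : Q d = 0 := by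
      rw [hd]
      have := OG_pres (sg Q c y) b
      rw [this, hb']
    have hbd : P Q b d = - Q y := by
      rw [hdform]
      simp only [map_sub, map_add, map_smul, smul_eq_mul, pol_self_of hb', hbc, pol_comm Q b y]
      ring
    have hbd0 : P Q b d ≠ 0 := by
      rw [hbd]
      exact neg_ne_zero.mpr hyQ
    have hd0 : d ≠ 0 := by
      rintro h
      rw [h, map_zero] at hbd0
      exact hbd0 rfl
    have h8 : pt (Q := Q) d hd0 hQd ∈ B :=
      block_move hQ hn hB hQc hyc ha ha' hb hb' hd0 hQd h1 h3 hfix hd.symm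
    exact block_b hQ hn hB hb hb' hd0 hQd h3 h8 hbd0
  · exact block_b hQ hn hB ha ha' hb hb' h1 h3 hab

include hQ hn in
/-- Ω is primitive on singular points in dimension at least five. -/
theorem sing_preprimitive5 : MulAction.IsPreprimitive (KK Q) (singP Q) := by
  haveI hT : MulAction.IsPretransitive (KK Q) (singP Q) := ⟨fun p q => by
      obtain ⟨a, ha, ha', rfl⟩ := exists_pt p
      obtain ⟨b, hb, hb', rfl⟩ := exists_pt q
      exact sing_trans hQ hn ha ha' hb hb'⟩
  refine ⟨?_⟩
  intro B hB
  by_cases hsub : B.Subsingleton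
  · exact Or.inl hsub
  right
  rw [Set.not_subsingleton_iff] at hsub
  obtain ⟨p, hp, q, hq, hpq⟩ := hsub
  obtain ⟨a, ha, ha', rfl⟩ := exists_pt p
  obtain ⟨b, hb, hb', rfl⟩ := exists_pt q
  exact block_c5 hQ hn hB ha ha' hb hb' hp hq hpq

set_option synthInstance.maxHeartbeats 400000 in
include hQ hn in
/-- Normal subgroups of Ω. -/
theorem K_normal5 (N : Subgroup (KK Q)) (hN : N.Normal) :
    N ≤ Subgroup.center (KK Q) ∨ N = ⊤ := by
  haveI := sing_preprimitive5 hQ hn
  by_cases hfix : MulAction.fixedPoints N (singP Q) = Set.univ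
  · left
    intro g hg
    have hs : ∀ c, c ≠ 0 → Q c = 0 → ∃ μ : F, g.1.1 c = μ • c := by
      intro c hc hc'
      have h1 : pt (Q := Q) c hc hc' ∈ MulAction.fixedPoints N (singP Q) := by
        rw [hfix]
        trivial
      have h3 : g • pt (Q := Q) c hc hc' = pt c hc hc' := h1 ⟨g, hg⟩
      rw [smul_pt g hc hc' (K_ne_zero g hc) (by rw [OG_pres]; exact hc'), pt_eq_iff] at h3
      obtain ⟨a, ha⟩ := h3
      exact ⟨a, ha.symm⟩
    obtain ⟨c, hc⟩ := scalar_of_fix hQ hn g.1 hs
    rw [Subgroup.mem_center_iff]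
    intro h
    apply Subtype.ext
    apply OG_ext
    intro x
    change h.1.1 (g.1.1 x) = g.1.1 (h.1.1 x)
    rw [hc, hc, map_smul]
  · right
    have h1 := (iwaO hQ hn).commutator_le N hfix
    rw [comm_perfect hQ hn] at h1
    exact eq_top_iff.mpr h1

include hQ hn in
/-- Ω is not central. -/
theorem center_ne_top5 : Subgroup.center (KK Q) ≠ ⊤ := by
  intro hcen
  have h1 : commutator (KK Q) = ⊥ := by
    rw [eq_bot_iff, commutator_def, Subgroup.commutator_le]
    intro a _ b _
    rw [Subgroup.mem_bot, commutatorElement_eq_one_iff_mul_comm]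
    have : a ∈ Subgroup.center (KK Q) := by
      rw [hcen]
      trivial
    exact (Subgroup.mem_center_iff.mp this b).symm
  rw [comm_perfect hQ hn] at h1
  obtain ⟨a, -, ha, ha'⟩ := exists_singular (Q := Q) ⊤ (by rw [finrank_top]; omega)
  obtain ⟨x, hx⟩ := exists_P_eq_one hQ ha
  -- a vector orthogonal to `a` outside its span
  have hr : finrank F (Submodule.span F {a}) ≤ 1 := finrank_sing_le _
  obtain ⟨w, hw, -, hwn⟩ := exists_singular_orth hQ (Submodule.span F {a}) (by omega)
  have hw' := mem_orth_singleton.mp hw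
  have h3 : (⟨sg Q a w, sg_mem_comm hQ hn ha' hw'⟩ : KK Q) ∈ (⊥ : Subgroup (KK Q)) := by
    rw [← h1]
    trivial
  have h4 : sg Q a w = 1 := congrArg Subtype.val (Subgroup.mem_bot.mp h3)
  have h5 : (sg Q a w).1 x = x := by rw [h4]; rfl
  rw [sg_apply ha' hw', hx, one_smul, mul_one] at h5
  apply hwn
  have h6 : w = (P Q w x + Q w) • a := by
    have : x + w - P Q w x • a - Q w • a - x = 0 := by
      rw [h5, sub_self]
    rw [add_smul]
    rw [← sub_eq_zero, ← this]
    abel
  rw [h6]
  exact Submodule.smul_mem _ _ (Submodule.mem_span_singleton_self a)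

include hQ hn in
/-- Ω modulo its centre is simple. -/
theorem K_quot_simple5 : IsSimpleGroup (KK Q ⧸ Subgroup.center (KK Q)) :=
  Cfsg.Agent.Lib.Classical.isSimple_quotient_center (center_ne_top5 hQ hn) (K_normal5 hQ hn)

end abstract

section bridge

variable {ι : Type} [Fintype ι] [DecidableEq ι] {F : Type*} [Field F] [Fintype F]

/-- Simplicity of PΩ in dimension at least five. -/
theorem pomega_simple5 (Q : QuadraticForm F (ι → F)) (hQ : (P Q).Nondegenerate) (hn : 5 ≤ Fintype.card ι) :
    IsSimpleGroup (Cfsg.POmega F (⇑Q)) := by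
  have hfr : 5 ≤ finrank F (ι → F) := by simpa using hn
  have := K_quot_simple5 hQ hfr
  let e := omegaEquiv Q
  have hc : (Subgroup.center (Cfsg.Omega F (⇑Q))).map e.toMonoidHom = Subgroup.center (commutator (OG Q)) :=
    Cfsg.Agent.Lib.Classical.RC.map_center_eq e
  exact (QuotientGroup.congr _ _ e hc).isSimpleGroup

end bridge

end Cfsg.Agent.Lib.ThreeT.Simple5
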