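import Cfsg.Agent.Lib.Classical.SpPerfect
import Cfsg.Agent.Lib.Classical.LinAlg
import Cfsg.Prelude.Def_SporadicB

/-!
# Symplectic transvections over the field of two elements are 3-transpositions
-/

set_option autoImplicit false

open scoped Matrix
open Matrix

namespace Cfsg.Agent.Lib.ThreeT.SpTv

open Cfsg.Agent.Lib.Classical

variable {m : ℕ}

local notation "Vv" => (Fin m ⊕ Fin m → ZMod 2)
local notation "f" => Cfsg.sympForm m (ZMod 2)
local notation "Mm" => Matrix (Fin m ⊕ Fin m) (Fin m ⊕ Fin m) (ZMod 2)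
local notation "Sp" => symplecticGroup (Fin m) (ZMod 2)

theorem one_of_ne {c : ZMod 2} (h : c ≠ 0) : c = 1 := by
  revert c
  decide

theorem tv_sq (v : Vv) : tv v (1 : ZMod 2) * tv v 1 = 1 := by
  rw [tv_mul]
  have : (1 : ZMod 2) + 1 = 0 := by decide
  rw [this, tv_zero]

theorem tv_inv' (v : Vv) : (tv v (1 : ZMod 2))⁻¹ = tv v 1 := inv_eq_of_mul_eq_one_left (tv_sq v)

theorem tv_apply (v x : Vv) : ((tv v (1 : ZMod 2) : Sp) : Mm) *ᵥ x = x + (f x v) • v := by
  rw [tv_mulVec, one_mul]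

theorem exists_form_one {v : Vv} (hv : v ≠ 0) : ∃ u : Vv, f u v = 1 := by
  obtain ⟨u, hu⟩ := exists_partner_one hv
  refine ⟨u, ?_⟩
  rw [sympForm_flip, hu]
  decide

theorem tv_ne_one {v : Vv} (hv : v ≠ 0) : tv v (1 : ZMod 2) ≠ 1 := by
  intro h
  obtain ⟨u, hu⟩ := exists_form_one hv
  have h1 := tv_apply v u
  rw [h, hu, one_smul] at h1
  have h2 : u = u + v := by simpa using h1
  exact hv (left_eq_add.1 h2)

theorem rank_tv {v : Vv} (hv : v ≠ 0) : (((tv v (1 : ZMod 2) : Sp) : Mm) - 1).rank = 1 := by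
  set N : Mm := ((tv v (1 : ZMod 2) : Sp) : Mm) - 1 with hN
  have hNx : ∀ x : Vv, N *ᵥ x = (f x v) • v := by
    intro x
    rw [hN, Matrix.sub_mulVec, tv_apply, Matrix.one_mulVec]
    simp
  have hr : LinearMap.range N.mulVecLin = Submodule.span (ZMod 2) {v} := by
    apply le_antisymm
    · rintro _ ⟨x, rfl⟩
      rw [Matrix.mulVecLin_apply, hNx]
      exact Submodule.smul_mem _ _ (Submodule.mem_span_singleton_self v)
    · rw [Submodule.span_singleton_le_iff_mem]
      obtain ⟨u, hu⟩ := exists_form_one hv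
      refine ⟨u, ?_⟩
      rw [Matrix.mulVecLin_apply, hNx, hu, one_smul]
  show Module.finrank (ZMod 2) (LinearMap.range N.mulVecLin) = 1
  rw [hr]
  exact finrank_span_singleton hv

theorem exists_tv_of_rank {g : Sp} (h : ((g : Mm) - 1).rank = 1) : ∃ v : Vv, v ≠ 0 ∧ g = tv v 1 := by
  obtain ⟨a, w, hN⟩ := exists_vecMulVec_of_rank_one _ h
  have hgx : ∀ x : Vv, (g : Mm) *ᵥ x = x + (w ⬝ᵥ x) • a := by
    intro x
    have h1 : (g : Mm) = 1 + vecMulVec a w := by
      rw [← hN]
      abel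
    rw [h1, Matrix.add_mulVec, Matrix.one_mulVec, vecMulVec_mulVec']
  have hN0 : ((g : Mm) - 1) ≠ 0 := by
    intro h0
    rw [h0, Matrix.rank_zero] at h
    exact zero_ne_one h
  have ha : a ≠ 0 := by
    rintro rfl
    apply hN0
    rw [hN]
    ext i j
    simp [vecMulVec_apply]
  obtain ⟨y₀, hy₀⟩ : ∃ y₀ : Vv, w ⬝ᵥ y₀ ≠ 0 := by
    by_contra hcon
    push Not at hcon
    apply hN0
    apply Matrix.toLin'.injective
    apply LinearMap.ext
    intro x
    rw [Matrix.toLin'_apply, hN, vecMulVec_mulVec', hcon x]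
    simp
  have hpres : ∀ x y : Vv, (w ⬝ᵥ y) * f x a = (w ⬝ᵥ x) * f y a := by
    intro x y
    have h1 := sp_preserves g x y
    rw [hgx, hgx, sympForm_add_left, sympForm_add_right, sympForm_add_right, sympForm_smul_right,
      sympForm_smul_left, sympForm_smul_left, sympForm_smul_right, sympForm_self, sympForm_flip y a] at h1
    linear_combination h1
  have hc : f y₀ a = 1 := by
    apply one_of_ne
    intro h0
    apply ha
    apply sympForm_eq_zero_iff
    intro x
    have h1 := hpres x y₀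
    rw [one_of_ne hy₀, h0] at h1
    simpa using h1
  have hφ : ∀ x : Vv, w ⬝ᵥ x = f x a := by
    intro x
    have h1 := hpres x y₀
    rw [one_of_ne hy₀, hc] at h1
    simpa using h1.symm
  refine ⟨a, ha, sp_ext fun x => ?_⟩
  rw [hgx, tv_apply, hφ]

/-- The two cases for the order of a product. -/
theorem tv_pair (u v : Vv) : (tv u (1 : ZMod 2) * tv v 1) ^ 2 = 1 ∨ (tv u (1 : ZMod 2) * tv v 1) ^ 3 = 1 := by
  by_cases h : f u v = 0
  · left
    have hc : tv u (1 : ZMod 2) * tv v 1 = tv v 1 * tv u 1 := by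
      apply sp_ext
      intro x
      have h' : f v u = 0 := by
        rw [sympForm_flip, h]
        simp
      rw [coe_sp_mul, coe_sp_mul, ← Matrix.mulVec_mulVec, ← Matrix.mulVec_mulVec, tv_apply, tv_apply, tv_apply, tv_apply,
        sympForm_add_left, sympForm_add_left, sympForm_smul_left, sympForm_smul_left, h, h']
      simp only [mul_zero, add_zero]
      abel
    rw [pow_two]
    calc tv u (1 : ZMod 2) * tv v 1 * (tv u 1 * tv v 1) = tv u 1 * (tv v 1 * tv u 1) * tv v 1 := by group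
      _ = tv u 1 * (tv u 1 * tv v 1) * tv v 1 := by rw [hc]
      _ = (tv u 1 * tv u 1) * (tv v 1 * tv v 1) := by group
      _ = 1 := by rw [tv_sq, tv_sq, one_mul]
  · right
    have h1 : f u v = 1 := one_of_ne h
    have h2 : f v u = 1 := by
      rw [sympForm_flip, h1]
      decide
    have e1 : tv u (1 : ZMod 2) * tv v 1 * tv u 1 = tv (u + v) 1 := by
      have := conj_tv (tv u (1 : ZMod 2)) v 1
      rw [tv_inv', tv_apply, h2, one_smul, add_comm v u] at this
      exact this
    have e2 : tv v (1 : ZMod 2) * tv u 1 * tv v 1 = tv (u + v) 1 := by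
      have := conj_tv (tv v (1 : ZMod 2)) u 1
      rw [tv_inv', tv_apply, h1, one_smul] at this
      exact this
    calc (tv u (1 : ZMod 2) * tv v 1) ^ 3 = (tv u 1 * tv v 1 * tv u 1) * (tv v 1 * tv u 1 * tv v 1) := by
          rw [pow_succ, pow_two]
          group
      _ = 1 := by rw [e1, e2, tv_sq]

end Cfsg.Agent.Lib.ThreeT.SpTv
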