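import Cfsg.Prelude.Def_Sporadic_a
import Mathlib

set_option autoImplicit false

/-!
Double counting in Steiner systems.
-/

namespace Cfsg.Agent.Lib.ThreeT

open Finset

variable {α : Type*} [DecidableEq α]

/-- The number of `k`-subsets of `U` containing `S`. -/
theorem card_powersetCard_filter_superset (S U : Finset α) (hSU : S ⊆ U) (k : ℕ) (hk : S.card ≤ k) :
    ((U.powersetCard k).filter (fun T => S ⊆ T)).card = (U.card - S.card).choose (k - S.card) := by
  have h1 : (U \ S).card = U.card - S.card := card_sdiff_of_subset hSU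
  rw [← h1, ← card_powersetCard]
  apply Finset.card_nbij' (fun T => T \ S) (fun T => T ∪ S)
  · intro T hT
    simp only [coe_filter, mem_powersetCard, Set.mem_setOf_eq] at hT
    simp only [mem_coe, mem_powersetCard]
    obtain ⟨⟨hTU, hTk⟩, hST⟩ := hT
    constructor
    · exact sdiff_subset_sdiff hTU (le_refl _)
    · rw [card_sdiff_of_subset hST, hTk]
  · intro T hT
    simp only [mem_coe, mem_powersetCard] at hT
    simp only [coe_filter, mem_powersetCard, Set.mem_setOf_eq]
    obtain ⟨hTU, hTk⟩ := hT
    have hd : Disjoint T S := by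
      rw [Finset.disjoint_left]
      intro x hx hxS
      have := hTU hx
      rw [mem_sdiff] at this
      exact this.2 hxS
    refine ⟨⟨?_, ?_⟩, subset_union_right⟩
    · exact union_subset (hTU.trans sdiff_subset) hSU
    · rw [card_union_of_disjoint hd, hTk]; omega
  · intro T hT
    simp only [coe_filter, mem_powersetCard, Set.mem_setOf_eq] at hT
    exact sdiff_union_of_subset hT.2
  · intro T hT
    simp only [mem_coe, mem_powersetCard] at hT
    have hd : Disjoint T S := by
      rw [Finset.disjoint_left]
      intro x hx hxS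
      have := hT.1 hx
      rw [mem_sdiff] at this
      exact this.2 hxS
    exact union_sdiff_cancel_right hd

variable [Fintype α]

/-- Double counting in a Steiner system `S(t, k, v)`: the number of blocks containing an `i`-set `S`. -/
theorem steiner_lambda (t k : ℕ) (B : Finset (Finset α)) (hB1 : ∀ b ∈ B, b.card = k)
    (hB2 : ∀ s : Finset α, s.card = t → ∃! b, b ∈ B ∧ s ⊆ b) (S : Finset α) (hS : S.card ≤ t)
    (hk : t ≤ k) :
    (B.filter (fun b => S ⊆ b)).card * (k - S.card).choose (t - S.card) =
      (Fintype.card α - S.card).choose (t - S.card) := by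
  classical
  have key := Finset.sum_card_bipartiteAbove_eq_sum_card_bipartiteBelow
    (s := ((univ : Finset α).powersetCard t).filter (fun T => S ⊆ T))
    (t := B.filter (fun b => S ⊆ b)) (fun T b => T ⊆ b)
  have hL : ∀ T ∈ ((univ : Finset α).powersetCard t).filter (fun T => S ⊆ T),
      (Finset.bipartiteAbove (fun T b => T ⊆ b) (B.filter (fun b => S ⊆ b)) T).card = 1 := by
    intro T hT
    simp only [mem_filter, mem_powersetCard] at hT
    obtain ⟨b, ⟨hb, hTb⟩, huniq⟩ := hB2 T hT.1.2
    rw [Finset.card_eq_one]
    refine ⟨b, ?_⟩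
    ext c
    simp only [bipartiteAbove, mem_filter, mem_singleton]
    constructor
    · rintro ⟨⟨hc, -⟩, hTc⟩
      exact huniq c ⟨hc, hTc⟩
    · rintro rfl
      exact ⟨⟨hb, hT.2.trans hTb⟩, hTb⟩
  have hR : ∀ b ∈ B.filter (fun b => S ⊆ b),
      (Finset.bipartiteBelow (fun T b => T ⊆ b)
        (((univ : Finset α).powersetCard t).filter (fun T => S ⊆ T)) b).card =
      (k - S.card).choose (t - S.card) := by
    intro b hb
    simp only [mem_filter] at hb
    have : Finset.bipartiteBelow (fun T b => T ⊆ b)
        (((univ : Finset α).powersetCard t).filter (fun T => S ⊆ T)) b =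
        (b.powersetCard t).filter (fun T => S ⊆ T) := by
      ext T
      simp only [bipartiteBelow, mem_filter, mem_powersetCard, subset_univ, true_and]
      tauto
    rw [this, card_powersetCard_filter_superset S b hb.2 t hS, hB1 b hb.1]
  rw [Finset.sum_congr rfl hL, Finset.sum_congr rfl hR] at key
  simp only [sum_const, smul_eq_mul, mul_one] at key
  rw [← key]
  have := card_powersetCard_filter_superset S (univ : Finset α) (subset_univ S) t hS
  rw [card_univ] at this
  exact this

omit [Fintype α] in
/-- `∑_b C(|b ∩ Y|, j) = ∑_{P ⊆ Y, |P| = j} #{b ⊇ P}`. -/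
theorem sum_choose_inter (B : Finset (Finset α)) (Y : Finset α) (j : ℕ) :
    ∑ b ∈ B, ((b ∩ Y).card).choose j =
      ∑ P ∈ Y.powersetCard j, (B.filter (fun b => P ⊆ b)).card := by
  classical
  have key := Finset.sum_card_bipartiteAbove_eq_sum_card_bipartiteBelow
    (s := B) (t := Y.powersetCard j) (fun b P => P ⊆ b)
  have hL : ∀ b ∈ B, (Finset.bipartiteAbove (fun b P => P ⊆ b) (Y.powersetCard j) b).card =
      ((b ∩ Y).card).choose j := by
    intro b _
    have : Finset.bipartiteAbove (fun b P => P ⊆ b) (Y.powersetCard j) b = (b ∩ Y).powersetCard j := by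
      ext P
      simp only [bipartiteAbove, mem_filter, mem_powersetCard, subset_inter_iff]
      tauto
    rw [this, card_powersetCard]
  rw [Finset.sum_congr rfl hL] at key
  rw [key]
  rfl

end Cfsg.Agent.Lib.ThreeT
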