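import Cfsg.Agent.Lib.ThreeT.Classes
import Cfsg.Agent.Lib.ZStar.SylowFusion

set_option autoImplicit false

/-!
Lifting an invariant `3`-subgroup over an elementary abelian normal `2`-subgroup.
-/

namespace Cfsg.Agent.Lib.ThreeT

open Cfsg Subgroup

variable {G : Type*} [Group G] [Finite G] {D : Set G}

theorem eq_one_of_two_three {x : G} {i j : ℕ} (h1 : x ^ 2 ^ i = 1) (h2 : x ^ 3 ^ j = 1) : x = 1 := by
  have := (pow_gcd_eq_one (a := x)).2 ⟨h1, h2⟩
  have hc : Nat.gcd (2 ^ i) (3 ^ j) = 1 := Nat.Coprime.pow _ _ (by norm_num)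
  rwa [hc, pow_one] at this

theorem inf_trivial {A P : Subgroup G} (hA : IsPGroup 2 A) (hP : IsPGroup 3 P) {y : G} (h1 : y ∈ A)
    (h2 : y ∈ P) : y = 1 := by
  obtain ⟨i, hi⟩ := hA ⟨y, h1⟩
  obtain ⟨j, hj⟩ := hP ⟨y, h2⟩
  exact eq_one_of_two_three (by simpa using congrArg Subtype.val hi) (by simpa using congrArg Subtype.val hj)

/-- Conjugacy of `3`-complements. -/
theorem exists_conj_complement {A P Q : Subgroup G} (hAn : A.Normal) (hA : IsPGroup 2 A)
    (hP : IsPGroup 3 P) (hQ : IsPGroup 3 Q) (hcard : Nat.card Q = Nat.card P) (hle : Q ≤ P ⊔ A) :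
    ∃ a ∈ A, ∀ h, h ∈ Q ↔ a⁻¹ * h * a ∈ P := by
  have : Fact (Nat.Prime 3) := ⟨Nat.prime_three⟩
  set T := P ⊔ A with hT
  have hPT : P ≤ T := le_sup_left
  have hdec : ∀ t ∈ T, ∃ p ∈ P, ∃ b ∈ A, t = p * b := by
    intro t ht
    have h1 : t ∈ ((P ⊔ A : Subgroup G) : Set G) := ht
    rw [Subgroup.mul_normal] at h1
    obtain ⟨p, hp, b, hb, rfl⟩ := Set.mem_mul.1 h1
    exact ⟨p, hp, b, hb, rfl⟩
  -- Sylow subgroups of `T` have order at most `|P|`
  have hcardS : ∀ S : Sylow 3 T, Nat.card S ≤ Nat.card P := by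
    intro S
    have hex : ∀ s : S, ∃ p : P, ∃ b ∈ A, ((s : T) : G) = p * b := by
      intro s
      obtain ⟨p, hp, b, hb, h⟩ := hdec _ (s : T).2
      exact ⟨⟨p, hp⟩, b, hb, h⟩
    choose f hf using hex
    refine Nat.card_le_card_of_injective f ?_
    intro s s' hss
    obtain ⟨b, hb, h1⟩ := hf s
    obtain ⟨b', hb', h2⟩ := hf s'
    rw [hss] at h1
    have h3 : ((s⁻¹ * s' : S) : T) = ((s : T)⁻¹ * (s' : T) : T) := by simp
    have hmem : (((s⁻¹ * s' : S) : T) : G) ∈ A := by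
      rw [h3]
      simp only [Subgroup.coe_mul, Subgroup.coe_inv]
      rw [h1, h2]
      have e : ((f s' : P) * b)⁻¹ * ((f s' : P) * b') = b⁻¹ * b' := by group
      rw [e]
      exact mul_mem (inv_mem hb) hb'
    obtain ⟨j, hj⟩ := S.isPGroup' (s⁻¹ * s')
    obtain ⟨i, hi⟩ := hA ⟨_, hmem⟩
    have h4 : (((s⁻¹ * s' : S) : T) : G) = 1 :=
      eq_one_of_two_three (by simpa using congrArg Subtype.val hi)
        (by simpa using congrArg (fun z : S => ((z : T) : G)) hj)
    have h5 : s⁻¹ * s' = 1 := by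
      apply Subtype.ext
      apply Subtype.ext
      simpa using h4
    exact inv_mul_eq_one.1 h5
  have hP' : IsPGroup 3 (P.subgroupOf T) := hP.comap_of_injective T.subtype T.subtype_injective
  have hQ' : IsPGroup 3 (Q.subgroupOf T) := hQ.comap_of_injective T.subtype T.subtype_injective
  obtain ⟨S₁, hS₁⟩ := hP'.exists_le_sylow
  obtain ⟨S₂, hS₂⟩ := hQ'.exists_le_sylow
  have hcP : Nat.card (P.subgroupOf T) = Nat.card P :=
    Nat.card_congr (Subgroup.subgroupOfEquivOfLe hPT).toEquiv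
  have hcQ : Nat.card (Q.subgroupOf T) = Nat.card Q :=
    Nat.card_congr (Subgroup.subgroupOfEquivOfLe hle).toEquiv
  have heq₁ : P.subgroupOf T = S₁ :=
    Subgroup.eq_of_le_of_card_ge hS₁ (by rw [hcP]; exact hcardS S₁)
  have heq₂ : Q.subgroupOf T = S₂ :=
    Subgroup.eq_of_le_of_card_ge hS₂ (by rw [hcQ, hcard]; exact hcardS S₂)
  obtain ⟨t, ht⟩ := MulAction.exists_smul_eq T S₁ S₂
  -- decompose `t`
  obtain ⟨b, hb, p, hp, htd⟩ : ∃ b ∈ A, ∃ p ∈ P, (t : G) = b * p := by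
    have h1 : (t : G) ∈ ((A ⊔ P : Subgroup G) : Set G) := by
      rw [sup_comm]
      exact t.2
    rw [Subgroup.normal_mul] at h1
    obtain ⟨b, hb, p, hp, h⟩ := Set.mem_mul.1 h1
    exact ⟨b, hb, p, hp, h.symm⟩
  refine ⟨b, hb, fun h => ?_⟩
  have hkey : ∀ w : T, (w ∈ Q.subgroupOf T) ↔ ((t : G)⁻¹ * (w : G) * t ∈ P) := by
    intro w
    rw [heq₂, ← ht, Cfsg.Agent.Lib.ZStar.mem_smul_sylow, ← heq₁, Subgroup.mem_subgroupOf]
    simp
  have hconv : ∀ u : G, ((t : G)⁻¹ * u * t ∈ P) ↔ b⁻¹ * u * b ∈ P := by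
    intro u
    rw [htd]
    have e : (b * p)⁻¹ * u * (b * p) = p⁻¹ * (b⁻¹ * u * b) * p := by group
    rw [e]
    constructor
    · intro h1
      have h2 := mul_mem (mul_mem hp h1) (inv_mem hp)
      have e2 : p * (p⁻¹ * (b⁻¹ * u * b) * p) * p⁻¹ = b⁻¹ * u * b := by group
      rwa [e2] at h2
    · intro h1
      exact mul_mem (mul_mem (inv_mem hp) h1) hp
  constructor
  · intro hq
    have := (hkey ⟨h, hle hq⟩).1 (by simpa [Subgroup.mem_subgroupOf] using hq)
    exact (hconv h).1 this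
  · intro hq
    have hhT : h ∈ T := by
      have e : h = b * (b⁻¹ * h * b) * b⁻¹ := by group
      rw [e]
      exact mul_mem (mul_mem ((le_sup_right : A ≤ T) hb) (hPT hq)) (inv_mem ((le_sup_right : A ≤ T) hb))
    have := (hkey ⟨h, hhT⟩).2 ((hconv h).2 hq)
    simpa [Subgroup.mem_subgroupOf] using this

/-- The conjugation action on an invariant set. -/
@[reducible] def conjActOn (S : Subgroup G) (Y : Set G) (h : ∀ s ∈ S, ∀ y ∈ Y, s * y * s⁻¹ ∈ Y) :
    MulAction S Y where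
  smul s y := ⟨(s : G) * y * (s : G)⁻¹, h s s.2 y y.2⟩
  one_smul y := Subtype.ext (by
    show ((1 : S) : G) * (y : G) * ((1 : S) : G)⁻¹ = y
    simp)
  mul_smul a b y := Subtype.ext (by
    show ((a * b : S) : G) * (y : G) * ((a * b : S) : G)⁻¹ = (a : G) * ((b : G) * y * (b : G)⁻¹) * (a : G)⁻¹
    simp only [Subgroup.coe_mul]
    group)

/-- The main step: some conjugate of `d` normalizes `P`. -/
theorem core_conj {A P : Subgroup G} (hAn : A.Normal) (hA : ∀ a ∈ A, a * a = 1) (hP : IsPGroup 3 P)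
    {d : G} (hdd : d * d = 1) (hdT : d ∈ normalizer ((P ⊔ A : Subgroup G) : Set G))
    (H1 : ∀ p ∈ P, p * d * p⁻¹ * d⁻¹ ∈ A → ∃ g ∈ A, p * d * p⁻¹ = g * d * g⁻¹) :
    ∃ m ∈ A, m * d * m⁻¹ ∈ normalizer (P : Set G) := by
  classical
  have : Fact (Nat.Prime 3) := ⟨Nat.prime_three⟩
  have hAinv : ∀ a ∈ A, a⁻¹ = a := fun a ha => inv_eq_of_mul_eq_one_left (hA a ha)
  have hAcomm : ∀ u ∈ A, ∀ v ∈ A, u * v = v * u := by
    intro u hu v hv
    have h1 := hA _ (mul_mem hu hv)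
    have h2 := inv_eq_of_mul_eq_one_left h1
    rw [mul_inv_rev, hAinv u hu, hAinv v hv] at h2
    exact h2.symm
  have hA2 : IsPGroup 2 A := by
    intro x
    refine ⟨1, ?_⟩
    apply Subtype.ext
    simpa [pow_two] using hA x x.2
  -- the element `x`
  have hQ : IsPGroup 3 (P.map (MulAut.conj d).toMonoidHom) := hP.map _
  have hcard : Nat.card (P.map (MulAut.conj d).toMonoidHom) = Nat.card P :=
    Subgroup.card_map_of_injective (MulAut.conj d).injective
  have hle : P.map (MulAut.conj d).toMonoidHom ≤ P ⊔ A := by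
    rintro _ ⟨p, hp, rfl⟩
    exact (mem_normalizer_iff.1 hdT p).1 ((le_sup_left : P ≤ P ⊔ A) hp)
  obtain ⟨a, haA, ha⟩ := exists_conj_complement hAn hA2 hP hQ hcard hle
  set x := a⁻¹ * d with hxd
  have hdx : d = a * x := by rw [hxd]; group
  have hxN : x ∈ normalizer (P : Set G) := by
    rw [mem_normalizer_iff]
    intro h
    have e : x * h * x⁻¹ = a⁻¹ * (d * h * d⁻¹) * a := by rw [hxd]; group
    rw [e]
    constructor
    · intro hh
      exact (ha _).1 ⟨h, hh, rfl⟩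
    · intro hh
      obtain ⟨h', hh', h2⟩ := (ha _).2 hh
      have h3 : d * h' * d⁻¹ = d * h * d⁻¹ := h2
      have : h' = h := mul_left_cancel (mul_right_cancel h3)
      rwa [← this]
  -- `x` permutes `P`
  have hxP : ∀ p ∈ P, x * p * x⁻¹ ∈ P := fun p hp => (mem_normalizer_iff.1 hxN p).1 hp
  set P₀ : Subgroup G := P ⊓ centralizer {x} with hP₀
  have hP₀p : IsPGroup 3 P₀ := hP.to_le inf_le_left
  have hP₀c : ∀ p ∈ P₀, p * x = x * p := by
    intro p hp
    exact (mem_centralizer_iff.1 hp.2 x rfl).symm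
  set Y : Set G := {f | ∃ g ∈ A, f = g * d * g⁻¹} with hY
  have hdY : d ∈ Y := ⟨1, one_mem _, by simp⟩
  have hYA : ∀ s ∈ A, ∀ y ∈ Y, s * y * s⁻¹ ∈ Y := by
    rintro s hs _ ⟨g, hg, rfl⟩
    exact ⟨s * g, mul_mem hs hg, by group⟩
  have hYP : ∀ s ∈ P₀, ∀ y ∈ Y, s * y * s⁻¹ ∈ Y := by
    rintro s hs _ ⟨g, hg, rfl⟩
    have h1 : s * d * s⁻¹ * d⁻¹ ∈ A := by
      have e : s * d * s⁻¹ * d⁻¹ = (s * a * s⁻¹) * a⁻¹ := by
        rw [hdx]
        have h2 : s * x * s⁻¹ = x := by rw [hP₀c s hs, mul_assoc, mul_inv_cancel, mul_one]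
        calc s * (a * x) * s⁻¹ * (a * x)⁻¹ = (s * a * s⁻¹) * (s * x * s⁻¹) * (x⁻¹ * a⁻¹) := by group
          _ = (s * a * s⁻¹) * a⁻¹ := by rw [h2]; group
      rw [e]
      exact mul_mem (hAn.conj_mem a haA s) (inv_mem haA)
    obtain ⟨g', hg', h2⟩ := H1 s hs.1 h1
    refine ⟨(s * g * s⁻¹) * g', mul_mem (hAn.conj_mem g hg s) hg', ?_⟩
    have e : s * (g * d * g⁻¹) * s⁻¹ = (s * g * s⁻¹) * (s * d * s⁻¹) * (s * g * s⁻¹)⁻¹ := by group
    rw [e, h2]
    group
  -- `3` does not divide the size of `Y`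
  have hYcard : ¬ 3 ∣ Nat.card Y := by
    let _ := conjActOn A Y hYA
    have : MulAction.IsPretransitive A Y := by
      have h0 : ∀ y : Y, ∃ s : A, s • (⟨d, hdY⟩ : Y) = y := by
        rintro ⟨_, g, hg, rfl⟩
        exact ⟨⟨g, hg⟩, Subtype.ext rfl⟩
      refine ⟨fun u v => ?_⟩
      obtain ⟨s, hs⟩ := h0 u
      obtain ⟨s', hs'⟩ := h0 v
      exact ⟨s' * s⁻¹, by rw [← hs, ← hs', mul_smul, inv_smul_smul]⟩
    have h1 := MulAction.index_stabilizer_of_transitive A (⟨d, hdY⟩ : Y)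
    have h2 : Nat.card Y ∣ Nat.card A := by
      rw [← h1]
      exact Subgroup.index_dvd_card _
    obtain ⟨k, hk⟩ := IsPGroup.iff_card.1 hA2
    rw [hk] at h2
    intro h3
    have h4 := (Nat.prime_three.dvd_of_dvd_pow (h3.trans h2))
    omega
  -- the fixed point
  obtain ⟨f, hf⟩ : ∃ f : Y, ∀ p ∈ P₀, p * (f : G) * p⁻¹ = f := by
    let _ := conjActOn P₀ Y hYP
    obtain ⟨f, hf⟩ := IsPGroup.nonempty_fixed_point_of_prime_not_dvd_card hP₀p Y hYcard
    refine ⟨f, fun p hp => ?_⟩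
    have := hf ⟨p, hp⟩
    exact congrArg Subtype.val this
  obtain ⟨f, hfY⟩ := f
  obtain ⟨g, hg, hfg⟩ := id hfY
  simp only at hf
  have hff : f * f = 1 := by
    rw [hfg]
    calc g * d * g⁻¹ * (g * d * g⁻¹) = g * (d * d) * g⁻¹ := by group
      _ = 1 := by rw [hdd]; group
  set θ := f * x⁻¹ with hθ
  have hθA : θ ∈ A := by
    have e : θ = g * a * (x * g⁻¹ * x⁻¹) := by
      rw [hθ, hfg, hdx]; group
    rw [e]
    exact mul_mem (mul_mem hg haA) (hAn.conj_mem _ (inv_mem hg) x)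
  have hfθ : f = θ * x := by rw [hθ]; group
  have hθP₀ : ∀ p ∈ P₀, p * θ * p⁻¹ = θ := by
    intro p hp
    have h1 : p * x⁻¹ * p⁻¹ = x⁻¹ := by
      have h2 := hP₀c p hp
      have h3 : p * x⁻¹ = x⁻¹ * p := by
        calc p * x⁻¹ = x⁻¹ * (x * p) * x⁻¹ := by group
          _ = x⁻¹ * (p * x) * x⁻¹ := by rw [h2]
          _ = x⁻¹ * p := by group
      rw [h3, mul_assoc, mul_inv_cancel, mul_one]
    calc p * θ * p⁻¹ = (p * f * p⁻¹) * (p * x⁻¹ * p⁻¹) := by rw [hθ]; group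
      _ = θ := by rw [hf p hp, h1]
  -- `c = x²`
  have hcA : x * x ∈ A := by
    have hxe : x = θ⁻¹ * f := by rw [hfθ]; group
    have e : x * x = θ⁻¹ * (f * θ⁻¹ * f⁻¹) * (f * f) := by
      nth_rewrite 1 [hxe]
      nth_rewrite 1 [hxe]
      group
    rw [e, hff, mul_one]
    exact mul_mem (inv_mem hθA) (hAn.conj_mem _ (inv_mem hθA) f)
  have hcP : ∀ p ∈ P, (x * x) * p * (x * x)⁻¹ = p := by
    intro p hp
    have h1 : (x * x) * p * (x * x)⁻¹ ∈ P := by
      have h2 := hxP _ (hxP p hp)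
      have e : (x * x) * p * (x * x)⁻¹ = x * (x * p * x⁻¹) * x⁻¹ := by group
      rw [e]; exact h2
    have h2 : (x * x) * p * (x * x)⁻¹ * p⁻¹ ∈ A := by
      have e : (x * x) * p * (x * x)⁻¹ * p⁻¹ = (x * x) * (p * (x * x)⁻¹ * p⁻¹) := by group
      rw [e]
      exact mul_mem hcA (hAn.conj_mem _ (inv_mem hcA) p)
    have h3 := inf_trivial hA2 hP h2 (mul_mem h1 (inv_mem hp))
    exact mul_inv_eq_one.1 h3
  -- the comm group structure on `A`
  let instA : CommGroup A :=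
    { (inferInstance : Group A) with
      mul_comm := fun u v => Subtype.ext (hAcomm u u.2 v v.2) }
  have : Fintype P := Fintype.ofFinite P
  let conjA : G → A → A := fun y u => ⟨y * u * y⁻¹, hAn.conj_mem u u.2 y⟩
  have conjA_mul : ∀ y u v, conjA y (u * v) = conjA y u * conjA y v := by
    intro y u v
    apply Subtype.ext
    show y * ((u : G) * (v : G)) * y⁻¹ = (y * u * y⁻¹) * (y * v * y⁻¹)
    group
  let σ : A →* A :=
    { toFun := conjA x
      map_one' := Subtype.ext (by show x * 1 * x⁻¹ = 1; group)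
      map_mul' := conjA_mul x }
  let τh : G → A →* A := fun y =>
    { toFun := conjA y
      map_one' := Subtype.ext (by show y * 1 * y⁻¹ = 1; group)
      map_mul' := conjA_mul y }
  let θ' : A := ⟨θ, hθA⟩
  let c' : A := ⟨x * x, hcA⟩
  let F : P → A := fun p => conjA p θ'
  let ι : P → P := fun p => ⟨x * p * x⁻¹, hxP p p.2⟩
  have hιι : ∀ p, ι (ι p) = p := by
    intro p
    apply Subtype.ext
    show x * (x * p * x⁻¹) * x⁻¹ = p
    have := hcP p p.2
    calc x * (x * p * x⁻¹) * x⁻¹ = (x * x) * p * (x * x)⁻¹ := by group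
      _ = p := this
  have hσθ : σ θ' = θ' * c' := by
    apply Subtype.ext
    show x * θ * x⁻¹ = θ * (x * x)
    have h1 : θ * (x * θ * x⁻¹) * (x * x) = 1 := by
      calc θ * (x * θ * x⁻¹) * (x * x) = (θ * x) * (θ * x) := by group
        _ = f * f := by rw [← hfθ]
        _ = 1 := hff
    have hsq : θ * θ = 1 := hA θ hθA
    have hcc : (x * x) * (x * x) = 1 := hA _ hcA
    have hmem : x * θ * x⁻¹ ∈ A := hAn.conj_mem θ hθA x
    -- solve in `A`
    have h2 : (x * θ * x⁻¹) = (θ * θ) * (x * θ * x⁻¹) * ((x * x) * (x * x)) := by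
      rw [hsq, hcc]; group
    rw [h2]
    calc (θ * θ) * (x * θ * x⁻¹) * ((x * x) * (x * x))
        = θ * (θ * (x * θ * x⁻¹) * (x * x)) * (x * x) := by group
      _ = θ * (x * x) := by rw [h1]; group
  have hFι : ∀ p, F (ι p) = σ (F p) * c' := by
    intro p
    apply Subtype.ext
    show (x * p * x⁻¹) * θ * (x * p * x⁻¹)⁻¹ = (x * (p * θ * (p : G)⁻¹) * x⁻¹) * (x * x)
    have h1 : x * θ * x⁻¹ = θ * (x * x) := congrArg Subtype.val hσθ
    have h3 := hcP _ (hxP p p.2)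
    have h4 : (x * x) * (x * p * x⁻¹) = (x * p * x⁻¹) * (x * x) := mul_inv_eq_iff_eq_mul.1 h3
    have h2 : (x * p * x⁻¹) * (x * x) * (x * p * x⁻¹)⁻¹ = x * x := by
      rw [← h4, mul_assoc, mul_inv_cancel, mul_one]
    have h5 : x * (p * θ * (p : G)⁻¹) * x⁻¹ = (x * p * x⁻¹) * (x * θ * x⁻¹) * (x * p * x⁻¹)⁻¹ := by group
    have h6 : (x * x) * (x * x) = 1 := hA _ hcA
    have h8 : (x * p * x⁻¹) * (θ * (x * x)) * (x * p * x⁻¹)⁻¹ =
        ((x * p * x⁻¹) * θ * (x * p * x⁻¹)⁻¹) * ((x * p * x⁻¹) * (x * x) * (x * p * x⁻¹)⁻¹) := by group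
    have h9 : ∀ u : G, u = u * (x * x) * (x * x) := fun u => by rw [mul_assoc, h6, mul_one]
    rw [h5, h1, h8, h2]
    exact h9 _
  -- the quotient
  let hB : A →* A := MonoidHom.id A * σ
  let B : Subgroup A := hB.range ⊔ Subgroup.zpowers c'
  let q : A →* A ⧸ B := QuotientGroup.mk' B
  have hqpair : ∀ p, q (F p) * q (F (ι p)) = 1 := by
    intro p
    rw [← map_mul, hFι, ← mul_assoc]
    show ((F p * σ (F p) * c' : A) : A ⧸ B) = 1
    rw [QuotientGroup.eq_one_iff]
    refine mul_mem ((le_sup_left : hB.range ≤ B) ⟨F p, rfl⟩) ((le_sup_right : Subgroup.zpowers c' ≤ B) (mem_zpowers c'))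
  -- the product
  let τ : A := ∏ p : P, F p
  have hτ : ∀ h ∈ P, h * (τ : G) * h⁻¹ = τ := by
    intro h hh
    have h1 : τh h τ = τ := by
      have h2 : ∀ p : P, τh h (F p) = F (⟨h, hh⟩ * p) := by
        intro p
        apply Subtype.ext
        show h * ((p : G) * θ * (p : G)⁻¹) * h⁻¹ = (h * (p : G)) * θ * (h * (p : G))⁻¹
        group
      show τh h (∏ p : P, F p) = ∏ p : P, F p
      rw [map_prod]
      simp_rw [h2]
      exact Equiv.prod_comp (Equiv.mulLeft (⟨h, hh⟩ : P)) F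
    exact congrArg Subtype.val h1
  have hθθ : (q θ') * (q θ') = 1 := by
    rw [← map_mul]
    have : θ' * θ' = 1 := Subtype.ext (hA θ hθA)
    rw [this, map_one]
  have hfix : ∀ p : P, ι p = p → F p = θ' := by
    intro p hp
    have h1 : x * p * x⁻¹ = p := congrArg Subtype.val hp
    have h2 : (p : G) ∈ P₀ := by
      refine ⟨p.2, mem_centralizer_iff.2 ?_⟩
      intro y hy
      rw [Set.mem_singleton_iff] at hy
      rw [hy]
      exact mul_inv_eq_iff_eq_mul.1 h1
    exact Subtype.ext (hθP₀ p h2)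
  have hnf : ∀ p : P, ι p ≠ p → ι (ι p) ≠ ι p := by
    intro p hp h
    rw [hιι] at h
    exact hp h.symm
  have hprodΦ : ∏ p : P, (if ι p = p then 1 else q (F p)) = 1 := by
    refine Finset.prod_involution (fun p _ => ι p) ?_ ?_ (fun _ _ => Finset.mem_univ _) (fun p _ => hιι p)
    · intro p _
      by_cases hp : ι p = p
      · rw [if_pos hp, hp, if_pos hp, one_mul]
      · rw [if_neg hp, if_neg (hnf p hp)]
        exact hqpair p
    · intro p _ hne hfx
      rw [if_pos hfx] at hne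
      exact hne rfl
  have hsplit : ∀ p : P, q (F p) = (if ι p = p then 1 else q (F p)) * (if ι p = p then q θ' else 1) := by
    intro p
    by_cases hp : ι p = p
    · rw [if_pos hp, if_pos hp, one_mul, hfix p hp]
    · rw [if_neg hp, if_neg hp, mul_one]
  have hodd : Odd (Finset.univ.filter (fun p : P => ι p = p)).card := by
    have e : (Finset.univ.filter (fun p : P => ι p = p)).card = Nat.card P₀ := by
      rw [← Fintype.card_subtype, ← Nat.card_eq_fintype_card]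
      refine Nat.card_congr ⟨fun p => ⟨p.1, p.1.2, mem_centralizer_iff.2 ?_⟩,
        fun p => ⟨⟨p.1, p.2.1⟩, ?_⟩, fun p => rfl, fun p => rfl⟩
      · intro y hy
        rw [Set.mem_singleton_iff] at hy
        rw [hy]
        have h1 : x * (p.1 : G) * x⁻¹ = p.1 := congrArg Subtype.val p.2
        exact mul_inv_eq_iff_eq_mul.1 h1
      · apply Subtype.ext
        show x * p.1 * x⁻¹ = p.1
        rw [← hP₀c p.1 p.2, mul_assoc, mul_inv_cancel, mul_one]
    rw [e]
    obtain ⟨k, hk⟩ := IsPGroup.iff_card.1 hP₀p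
    rw [hk]
    exact Odd.pow (by decide)
  have hqτ : q τ = q θ' := by
    have h1 : q τ = ∏ p : P, q (F p) := map_prod q F _
    rw [h1, Finset.prod_congr rfl (fun p _ => hsplit p)]
    rw [Finset.prod_mul_distrib, hprodΦ, one_mul, Finset.prod_ite, Finset.prod_const, Finset.prod_const_one,
      mul_one]
    obtain ⟨m, hm⟩ := hodd
    rw [hm, pow_succ, pow_mul, pow_two, hθθ, one_pow, one_mul]
  have hmemB : τ⁻¹ * θ' ∈ B := QuotientGroup.eq.1 hqτ
  obtain ⟨y, ⟨v, rfl⟩, z, hz, hyz⟩ := Subgroup.mem_sup.1 hmemB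
  obtain ⟨k, rfl⟩ := mem_zpowers_iff.1 hz
  have hθeq : θ' = τ * c' ^ k * (v * σ v) := by
    have h1 : θ' = τ * (hB v * c' ^ k) := by rw [hyz]; group
    rw [h1]
    have h2 : hB v = v * σ v := rfl
    rw [h2, mul_comm (v * σ v), mul_assoc]
  set cc : A := τ * c' ^ k with hcc
  have hcck : ∀ h ∈ P, (cc : G) * h = h * (cc : G) := by
    intro h hh
    have h1 : h * (τ : G) = τ * h := mul_inv_eq_iff_eq_mul.1 (hτ h hh)
    have h2 : Commute h (x * x) := mul_inv_eq_iff_eq_mul.1 (hcP h hh) |>.symm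
    have h3 : Commute h (((c' ^ k : A)) : G) := by
      have : ((c' ^ k : A) : G) = (x * x) ^ k := map_zpow A.subtype c' k
      rw [this]
      exact h2.zpow_right k
    have e : (cc : G) = (τ : G) * ((c' ^ k : A) : G) := rfl
    rw [e]
    calc (τ : G) * ((c' ^ k : A) : G) * h = (τ : G) * (((c' ^ k : A) : G) * h) := by group
      _ = (τ : G) * (h * ((c' ^ k : A) : G)) := by rw [h3.eq]
      _ = ((τ : G) * h) * ((c' ^ k : A) : G) := by group
      _ = h * (τ : G) * ((c' ^ k : A) : G) := by rw [h1]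
      _ = h * ((τ : G) * ((c' ^ k : A) : G)) := by group
  have hccN : (cc : G) ∈ normalizer (P : Set G) := by
    rw [mem_normalizer_iff]
    intro h
    constructor
    · intro hh
      rw [hcck h hh, mul_assoc, mul_inv_cancel, mul_one]
      exact hh
    · intro hh
      have h1 := hcck _ hh
      have h2 : h = (cc : G) * h * (cc : G)⁻¹ := by
        have h3 : (cc : G) * ((cc : G) * h * (cc : G)⁻¹) = ((cc : G) * h * (cc : G)⁻¹) * (cc : G) := h1
        have h4 : (cc : G) * h = (cc : G) * ((cc : G) * h * (cc : G)⁻¹) := by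
          rw [h3]; group
        exact mul_left_cancel h4
      rw [h2]
      exact hh
  refine ⟨(v : G)⁻¹ * g, mul_mem (inv_mem v.2) hg, ?_⟩
  have hθG : θ = (cc : G) * ((v : G) * (x * (v : G) * x⁻¹)) := congrArg Subtype.val hθeq
  have hvv : (v : G) * (v : G) = 1 := hA v v.2
  have hvi : (v : G)⁻¹ = v := hAinv v v.2
  have hccv : (cc : G) * (v : G) = (v : G) * (cc : G) := hAcomm _ cc.2 _ v.2
  have hfin : ((v : G)⁻¹ * g) * d * ((v : G)⁻¹ * g)⁻¹ = (cc : G) * x := by
    have e1 : ((v : G)⁻¹ * g) * d * ((v : G)⁻¹ * g)⁻¹ = (v : G)⁻¹ * (g * d * g⁻¹) * (v : G) := by group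
    rw [e1, ← hfg, hfθ, hθG, hvi]
    calc (v : G) * ((cc : G) * ((v : G) * (x * (v : G) * x⁻¹)) * x) * (v : G)
        = ((v : G) * (cc : G)) * (v : G) * x * ((v : G) * (v : G)) := by group
      _ = ((cc : G) * (v : G)) * (v : G) * x := by rw [← hccv, hvv, mul_one]
      _ = (cc : G) * ((v : G) * (v : G)) * x := by group
      _ = (cc : G) * x := by rw [hvv, mul_one]
  rw [hfin]
  exact mul_mem hccN hxN

omit [Finite G] in
/-- Images of classes of 3-transpositions. -/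
theorem class_map {H : Type*} [Group H] {D : Set G} (hD : IsThreeTranspositionClass D) (f : G →* H)
    (hf : Function.Surjective f) (hne : ∀ a ∈ D, f a ≠ 1) : IsThreeTranspositionClass (f '' D) := by
  refine ⟨⟨?_, ?_⟩, ?_, ?_⟩
  · rintro _ ⟨a, ha, rfl⟩
    apply orderOf_eq_prime _ (hne a ha)
    rw [← map_pow, pow_two, mul_self_of_mem hD.1 ha, map_one]
  · rintro _ ⟨a, ha, rfl⟩ _ ⟨b, hb, rfl⟩
    rcases hD.1.2 a ha b hb with h | h
    · left
      rw [← map_mul, ← map_pow, h, map_one]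
    · right
      rw [← map_mul, ← map_pow, h, map_one]
  · obtain ⟨d, hd, hdD⟩ := hD.2.1
    refine ⟨f d, ⟨d, hd, rfl⟩, ?_⟩
    ext x
    constructor
    · rintro ⟨a, ha, rfl⟩
      obtain ⟨g, rfl⟩ := class_exists_conj hD hd ha
      refine isConj_iff.2 ⟨f g, ?_⟩
      simp
    · intro hx
      obtain ⟨y, rfl⟩ := isConj_iff.1 (show IsConj (f d) x from hx)
      obtain ⟨g, rfl⟩ := hf y
      exact ⟨g * d * g⁻¹, class_conj_mem hD g hd, by simp⟩
  · rw [← MonoidHom.map_closure, hD.2.2, ← MonoidHom.range_eq_map]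
    exact MonoidHom.range_eq_top.2 hf

/-- Groups of width one. -/
theorem sup_pCore_three_eq_top (hD : IsThreeTranspositionGroup D) {d : G} (hd : d ∈ D)
    (hw : ∀ a ∈ D, ∀ b ∈ D, Commute a b → a = b) : Subgroup.zpowers d ⊔ pCore 3 G = ⊤ := by
  have : Fact (Nat.Prime 3) := ⟨Nat.prime_three⟩
  have hT := hD.1
  have hc := hD.2.1
  have hconj : ∀ a ∈ conjugatesOf d, a ∈ D := by
    intro a ha
    obtain ⟨g, rfl⟩ := isConj_iff.1 (show IsConj d a from ha)
    exact hc g d hd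
  have hprod : ∀ a ∈ conjugatesOf d, ∀ b ∈ conjugatesOf d, ∃ k : ℕ, orderOf (a * b) = 3 ^ k := by
    intro a ha b hb
    by_cases h : Commute a b
    · have h1 := hw a (hconj a ha) b (hconj b hb) h
      subst h1
      exact ⟨0, by rw [pow_zero, orderOf_eq_one_iff]; exact mul_self_of_mem hT (hconj a ha)⟩
    · exact ⟨1, by rw [pow_one]; exact orderOf_mul_of_not_commute hT (hconj a ha) (hconj b hb) h⟩
  have hmem := Cfsg.Agent.Lib.ZStar.prod_conj_mem_pCore Nat.prime_three (by norm_num) d (hT.1 d hd) hprod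
  rw [eq_top_iff, ← hD.2.2, Subgroup.closure_le]
  intro a ha
  have hda : a ∈ conjugatesOf d := by
    by_cases h : Commute d a
    · rw [← hw d hd a ha h]
      exact IsConj.refl _
    · exact isConj_iff.2 ⟨d * a, conj_of_not_commute hT hd ha h⟩
  have h1 := hmem d (IsConj.refl _) a hda
  have h2 : a = d * (d * a) := by
    rw [← mul_assoc, mul_self_of_mem hT hd, one_mul]
  rw [h2]
  exact mul_mem ((le_sup_left : Subgroup.zpowers d ≤ _) (Subgroup.mem_zpowers d)) ((le_sup_right : pCore 3 G ≤ _) h1)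

/-- The elementary abelian normal subgroup `Ω₁ Z(O₂(G))`. -/
def omegaZ (G : Type*) [Group G] [Finite G] : Subgroup G where
  carrier := {x | x ∈ pCore 2 G ∧ x ∈ centralizer (pCore 2 G : Set G) ∧ x * x = 1}
  mul_mem' := by
    rintro x y ⟨hx1, hx2, hx3⟩ ⟨hy1, hy2, hy3⟩
    refine ⟨mul_mem hx1 hy1, mul_mem hx2 hy2, ?_⟩
    have h := mem_centralizer_iff.1 hx2 y hy1
    calc x * y * (x * y) = x * (y * x) * y := by group
      _ = x * (x * y) * y := by rw [h]
      _ = (x * x) * (y * y) := by group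
      _ = 1 := by rw [hx3, hy3, one_mul]
  one_mem' := ⟨one_mem _, one_mem _, mul_one 1⟩
  inv_mem' := by
    rintro x ⟨hx1, hx2, hx3⟩
    refine ⟨inv_mem hx1, inv_mem hx2, ?_⟩
    rw [← mul_inv_rev, hx3, inv_one]

theorem omegaZ_normal : (omegaZ G).Normal := by
  have hn : (pCore 2 G).Normal := Cfsg.Agent.Lib.Core.pCore_normal 2 G
  refine ⟨fun x hx g => ?_⟩
  obtain ⟨hx1, hx2, hx3⟩ := hx
  refine ⟨hn.conj_mem x hx1 g, mem_centralizer_iff.2 (fun y hy => ?_), ?_⟩
  · have hy' : g⁻¹ * y * g ∈ pCore 2 G := by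
      have := hn.conj_mem y hy g⁻¹
      rwa [inv_inv] at this
    have h1 := mem_centralizer_iff.1 hx2 _ hy'
    have h2 : g * (g⁻¹ * y * g * x) * g⁻¹ = g * (x * (g⁻¹ * y * g)) * g⁻¹ := by rw [h1]
    have e1 : g * (g⁻¹ * y * g * x) * g⁻¹ = y * (g * x * g⁻¹) := by group
    have e2 : g * (x * (g⁻¹ * y * g)) * g⁻¹ = g * x * g⁻¹ * y := by group
    rwa [e1, e2] at h2
  · calc g * x * g⁻¹ * (g * x * g⁻¹) = g * (x * x) * g⁻¹ := by group
      _ = 1 := by rw [hx3]; group

theorem omegaZ_ne_bot (h : pCore 2 G ≠ ⊥) : omegaZ G ≠ ⊥ := by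
  have : Fact (Nat.Prime 2) := ⟨Nat.prime_two⟩
  have hp : IsPGroup 2 (pCore 2 G) := Cfsg.Agent.Lib.Core.pCore_isPGroup 2 G
  have hnt : Nontrivial (pCore 2 G) := Subgroup.nontrivial_iff_ne_bot _ |>.2 h
  have hc := hp.center_nontrivial
  have hp2 : IsPGroup 2 (center (pCore 2 G)) := hp.to_subgroup _
  have hd : 2 ∣ Nat.card (center (pCore 2 G)) := by
    obtain ⟨k, hk⟩ := IsPGroup.iff_card.1 hp2
    rw [hk]
    have hk0 : k ≠ 0 := by
      rintro rfl
      have := Finite.one_lt_card (α := center (pCore 2 G))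
      omega
    exact dvd_pow_self 2 hk0
  obtain ⟨z, hz⟩ := exists_prime_orderOf_dvd_card' 2 hd
  intro hbot
  have h1 : ((z : pCore 2 G) : G) ∈ omegaZ G := by
    refine ⟨(z : pCore 2 G).2, mem_centralizer_iff.2 (fun y hy => ?_), ?_⟩
    · have := mem_center_iff.1 z.2 ⟨y, hy⟩
      simpa using congrArg Subtype.val this
    · have h2 := pow_orderOf_eq_one z
      rw [hz, pow_two] at h2
      simpa using congrArg (fun u : center (pCore 2 G) => ((u : pCore 2 G) : G)) h2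
  rw [hbot] at h1
  have h2 : ((z : pCore 2 G) : G) = 1 := by simpa using h1
  have h3 : z = 1 := by
    apply Subtype.ext
    apply Subtype.ext
    simpa using h2
  rw [h3, orderOf_one] at hz
  omega

universe u

/-- The inductive statement. -/
theorem exists_invariant_three_subgroup :
    ∀ (n : ℕ) (G : Type u) [Group G] [Finite G] (D : Set G), IsThreeTranspositionClass D →
      ∀ d ∈ D, (∀ a ∈ D, ∀ b ∈ D, Commute a b → a * b ∈ pCore 2 G) → Nat.card G = n →
        ∃ P : Subgroup G, IsPGroup 3 P ∧ d ∈ normalizer (P : Set G) ∧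
          Subgroup.zpowers d ⊔ P ⊔ pCore 2 G = ⊤ := by
  intro n
  induction n using Nat.strong_induction_on with
  | _ n ih =>
  intro G _ _ D hD d hd hcomm hn
  have f3 : Fact (Nat.Prime 3) := ⟨Nat.prime_three⟩
  have f2 : Fact (Nat.Prime 2) := ⟨Nat.prime_two⟩
  have hT := hD.1
  have hc := fun (g : G) (a : G) (ha : a ∈ D) => class_conj_mem hD g ha
  have hNn : (pCore 2 G).Normal := Cfsg.Agent.Lib.Core.pCore_normal 2 G
  have hNp : IsPGroup 2 (pCore 2 G) := Cfsg.Agent.Lib.Core.pCore_isPGroup 2 G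
  by_cases hbot : pCore 2 G = ⊥
  · -- width one
    refine ⟨pCore 3 G, Cfsg.Agent.Lib.Core.pCore_isPGroup 3 G, ?_, ?_⟩
    · rw [normalizer_eq_top_iff.2 (Cfsg.Agent.Lib.Core.pCore_normal 3 G)]
      trivial
    · have hw : ∀ a ∈ D, ∀ b ∈ D, Commute a b → a = b := by
        intro a ha b hb h
        have h1 := hcomm a ha b hb h
        rw [hbot] at h1
        have h2 : a * b = 1 := by simpa using h1
        have := eq_inv_of_mul_eq_one_left h2
        rwa [inv_of_mem hT hb] at this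
      rw [sup_pCore_three_eq_top (class_toGroup hD) hd hw]
      exact top_sup_eq _
  by_cases hdN : d ∈ pCore 2 G
  · refine ⟨⊥, IsPGroup.of_bot, ?_, ?_⟩
    · exact (mem_normalizer_iff.2 (by
        intro h
        rw [Subgroup.mem_bot]
        constructor
        · rintro rfl
          simp
        · intro h1
          have : d * h * d⁻¹ = d * 1 * d⁻¹ := by simpa using h1
          exact mul_left_cancel (mul_right_cancel this)))
    · have : pCore 2 G = ⊤ := by
        rw [eq_top_iff, ← hD.2.2, closure_le]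
        intro a ha
        obtain ⟨g, rfl⟩ := class_exists_conj hD hd ha
        exact hNn.conj_mem d hdN g
      rw [this]
      exact sup_top_eq _
  -- the quotient
  set A := omegaZ G with hA
  have hAn : A.Normal := omegaZ_normal
  have hAbot : A ≠ ⊥ := omegaZ_ne_bot hbot
  have hAN : A ≤ pCore 2 G := fun x hx => hx.1
  have hAsq : ∀ a ∈ A, a * a = 1 := fun x hx => hx.2.2
  have hAp : IsPGroup 2 A := hNp.to_le hAN
  let π : G →* G ⧸ A := QuotientGroup.mk' A
  have hπs : Function.Surjective π := QuotientGroup.mk'_surjective A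
  have hπker : ∀ x, π x = 1 ↔ x ∈ A := fun x => QuotientGroup.eq_one_iff x
  have hnotN : ∀ a ∈ D, a ∉ pCore 2 G := by
    intro a ha hh
    obtain ⟨g, rfl⟩ := class_exists_conj hD ha hd
    exact hdN (hNn.conj_mem a hh g)
  have hD' : IsThreeTranspositionClass (π '' D) :=
    class_map hD π hπs (fun a ha h => hnotN a ha (hAN ((hπker a).1 h)))
  have hcomm' : ∀ a ∈ π '' D, ∀ b ∈ π '' D, Commute a b → a * b ∈ pCore 2 (G ⧸ A) := by
    rintro _ ⟨a, ha, rfl⟩ _ ⟨b, hb, rfl⟩ h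
    by_cases hab : Commute a b
    · exact Cfsg.Agent.Lib.Core.map_pCore_le_of_surjective π hπs ⟨a * b, hcomm a ha b hb hab, map_mul π a b⟩
    · have h3 := mul_cube_of_not_commute hT ha hb hab
      have h4 : (π a * π b) ^ 2 = 1 := by
        apply mul_sq_of_commute _ _ h
        · rw [← map_mul, mul_self_of_mem hT ha, map_one]
        · rw [← map_mul, mul_self_of_mem hT hb, map_one]
      have h5 : (π a * π b) ^ 3 = 1 := by
        rw [← map_mul, ← map_pow, h3, map_one]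
      have h6 : π a * π b = 1 := by
        rw [pow_succ, h4, one_mul] at h5
        exact h5
      rw [h6]
      exact one_mem _
  have hcard : Nat.card (G ⧸ A) < n := by
    rw [← hn, Subgroup.card_eq_card_quotient_mul_card_subgroup A]
    have h1 : 1 < Nat.card A := by
      have : Nontrivial A := (Subgroup.nontrivial_iff_ne_bot A).2 hAbot
      exact Finite.one_lt_card
    have h2 : 0 < Nat.card (G ⧸ A) := Nat.card_pos
    nlinarith
  obtain ⟨Pq, hPqp, hPqd, hPqtop⟩ := ih _ hcard (G ⧸ A) (π '' D) hD' (π d) ⟨d, hd, rfl⟩ hcomm' rfl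
  -- the preimage
  set R := Pq.comap π with hR
  have hAR : A ≤ R := by
    intro x hx
    show π x ∈ Pq
    rw [(hπker x).2 hx]
    exact one_mem _
  let S : Sylow 3 R := Classical.arbitrary _
  set P₂ : Subgroup G := (S : Subgroup R).map R.subtype with hP₂
  have hP₂p : IsPGroup 3 P₂ := S.isPGroup'.map _
  have hP₂R : P₂ ≤ R := Subgroup.map_subtype_le _
  -- every element of `R` is a product
  have hRdec : ∀ r ∈ R, ∃ s ∈ P₂, s⁻¹ * r ∈ A := by
    intro r hr
    let φ : R →* Pq := (π.comp R.subtype).codRestrict Pq (fun x => x.2)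
    have hφ : Function.Surjective φ := by
      rintro ⟨u, hu⟩
      obtain ⟨g, rfl⟩ := hπs u
      exact ⟨⟨g, hu⟩, rfl⟩
    let S' : Sylow 3 Pq := S.mapSurjective hφ
    have hS' : (S' : Subgroup Pq) = ⊤ := (S'.is_maximal' (hPqp.to_subgroup ⊤) le_top).symm
    have h1 : φ ⟨r, hr⟩ ∈ (S' : Subgroup Pq) := by
      rw [hS']
      trivial
    obtain ⟨s, hs, hs2⟩ := h1
    refine ⟨s, ⟨s, hs, rfl⟩, ?_⟩
    have h3 : π s = π r := congrArg Subtype.val hs2
    rw [← hπker, map_mul, map_inv, h3, inv_mul_cancel]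
  have hsup : P₂ ⊔ A = R := by
    refine le_antisymm (sup_le hP₂R hAR) (fun r hr => ?_)
    obtain ⟨s, hs, h⟩ := hRdec r hr
    have e : r = s * (s⁻¹ * r) := by group
    rw [e]
    exact mul_mem ((le_sup_left : P₂ ≤ P₂ ⊔ A) hs) ((le_sup_right : A ≤ P₂ ⊔ A) h)
  have hdR : d ∈ normalizer ((P₂ ⊔ A : Subgroup G) : Set G) := by
    rw [hsup, mem_normalizer_iff]
    intro h
    show π h ∈ Pq ↔ π (d * h * d⁻¹) ∈ Pq
    rw [map_mul, map_mul, map_inv]
    exact mem_normalizer_iff.1 hPqd (π h)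
  have H1 : ∀ p ∈ P₂, p * d * p⁻¹ * d⁻¹ ∈ A → ∃ g ∈ A, p * d * p⁻¹ = g * d * g⁻¹ := by
    intro p _ h
    have hf := hc p d hd
    have h2 : d * (p * d * p⁻¹) ∈ A := by
      have := inv_mem h
      rwa [mul_inv_rev, inv_inv, inv_of_mem hT hf] at this
    obtain ⟨g, hg, hg2⟩ := Vrel_orbit hD hAn (no3_of_isPGroup2 hAp) hd hf h2
    exact ⟨g, hg, hg2⟩
  obtain ⟨m, hm, hmN⟩ := core_conj hAn hAsq hP₂p (mul_self_of_mem hT hd) hdR H1
  set P' := P₂.map (MulAut.conj m⁻¹).toMonoidHom with hP'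
  have hP'p : IsPGroup 3 P' := hP₂p.map _
  have hmemP' : ∀ h, h ∈ P' ↔ m * h * m⁻¹ ∈ P₂ := by
    intro h
    constructor
    · rintro ⟨s, hs, rfl⟩
      have e : m * ((MulAut.conj m⁻¹).toMonoidHom s) * m⁻¹ = s := by
        simp
        group
      rw [e]
      exact hs
    · intro hh
      refine ⟨_, hh, ?_⟩
      simp
      group
  refine ⟨P', hP'p, ?_, ?_⟩
  · rw [mem_normalizer_iff]
    intro h
    rw [hmemP', hmemP']
    have e : m * (d * h * d⁻¹) * m⁻¹ = (m * d * m⁻¹) * (m * h * m⁻¹) * (m * d * m⁻¹)⁻¹ := by group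
    rw [e]
    exact mem_normalizer_iff.1 hmN _
  · set T := Subgroup.zpowers d ⊔ P' ⊔ pCore 2 G with hT'
    have hAT : A ≤ T := hAN.trans le_sup_right
    have hmap : ∀ g, π g ∈ T.map π → g ∈ T := by
      rintro g ⟨t, ht, h⟩
      have h1 : t⁻¹ * g ∈ A := by
        rw [← hπker, map_mul, map_inv, ← h, inv_mul_cancel]
      have e : g = t * (t⁻¹ * g) := by group
      rw [e]
      exact mul_mem ht (hAT h1)
    rw [eq_top_iff]
    intro g _
    apply hmap
    have hle : Subgroup.zpowers (π d) ⊔ Pq ⊔ pCore 2 (G ⧸ A) ≤ T.map π := by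
      refine sup_le (sup_le ?_ ?_) ?_
      · rw [Subgroup.zpowers_le]
        refine ⟨d, ?_, rfl⟩
        exact (le_sup_left : Subgroup.zpowers d ≤ Subgroup.zpowers d ⊔ P').trans le_sup_left (Subgroup.mem_zpowers d)
      · intro u hu
        obtain ⟨r, rfl⟩ := hπs u
        obtain ⟨s, hs, h⟩ := hRdec r hu
        have h1 : π s = π r := by
          have h2 := (hπker _).2 h
          rw [map_mul, map_inv] at h2
          exact (inv_mul_eq_one.1 h2)
        refine ⟨m⁻¹ * s * m⁻¹⁻¹, ?_, ?_⟩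
        · have : m⁻¹ * s * m⁻¹⁻¹ ∈ P' := ⟨s, hs, rfl⟩
          exact (le_sup_right : P' ≤ Subgroup.zpowers d ⊔ P').trans le_sup_left this
        · have hπm : π m = 1 := (hπker m).2 hm
          simp only [map_mul, map_inv, hπm, inv_one, one_mul, mul_one]
          exact h1
      · intro u hu
        obtain ⟨g', rfl⟩ := hπs u
        have hker : IsPGroup 2 π.ker := by
          have : π.ker = A := QuotientGroup.ker_mk' A
          rw [this]
          exact hAp
        have hcp : IsPGroup 2 ((pCore 2 (G ⧸ A)).comap π) :=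
          (Cfsg.Agent.Lib.Core.pCore_isPGroup 2 (G ⧸ A)).comap_of_ker_isPGroup π hker
        have hcn : ((pCore 2 (G ⧸ A)).comap π).Normal :=
          (Cfsg.Agent.Lib.Core.pCore_normal 2 (G ⧸ A)).comap π
        have h1 : g' ∈ pCore 2 G := Cfsg.Agent.Lib.Core.le_pCore hcn hcp hu
        exact ⟨g', (le_sup_right : pCore 2 G ≤ T) h1, rfl⟩
    rw [hPqtop] at hle
    exact hle (mem_top _)

/-- The invariant `3`-subgroup is a Sylow subgroup. -/
theorem exists_sylow_of_sup {P N : Subgroup G} {d : G} (hP : IsPGroup 3 P) (hNn : N.Normal)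
    (hN : IsPGroup 2 N) (hdd : d * d = 1) (hd : d ∈ normalizer (P : Set G))
    (htop : Subgroup.zpowers d ⊔ P ⊔ N = ⊤) : ∃ Q : Sylow 3 G, (Q : Subgroup G) = P := by
  have f3 : Fact (Nat.Prime 3) := ⟨Nat.prime_three⟩
  set M := P ⊔ N with hM
  have hdec : ∀ t ∈ M, ∃ p ∈ P, ∃ b ∈ N, t = p * b := by
    intro t ht
    have h1 : t ∈ ((P ⊔ N : Subgroup G) : Set G) := ht
    rw [Subgroup.mul_normal] at h1
    obtain ⟨p, hp, b, hb, rfl⟩ := Set.mem_mul.1 h1
    exact ⟨p, hp, b, hb, rfl⟩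
  have hdi : d⁻¹ = d := inv_eq_of_mul_eq_one_left hdd
  have hdM : ∀ t ∈ M, d * t * d⁻¹ ∈ M := by
    intro t ht
    obtain ⟨p, hp, b, hb, rfl⟩ := hdec t ht
    have e : d * (p * b) * d⁻¹ = (d * p * d⁻¹) * (d * b * d⁻¹) := by group
    rw [e]
    exact mul_mem ((le_sup_left : P ≤ M) ((mem_normalizer_iff.1 hd p).1 hp))
      ((le_sup_right : N ≤ M) (hNn.conj_mem b hb d))
  have hMn : M.Normal := by
    rw [← normalizer_eq_top_iff, eq_top_iff, ← htop, sup_assoc]
    refine sup_le ?_ le_normalizer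
    rw [Subgroup.zpowers_le, mem_normalizer_iff]
    intro t
    refine ⟨hdM t, fun h => ?_⟩
    have := hdM _ h
    have e : d * (d * t * d⁻¹) * d⁻¹ = t := by
      calc d * (d * t * d⁻¹) * d⁻¹ = (d * d) * t * (d⁻¹ * d⁻¹) := by group
        _ = t := by rw [hdd, hdi, hdd, one_mul, mul_one]
    rwa [e] at this
  have hcases : ∀ g : G, g * g ∈ M := by
    intro g
    have hmem : g ∈ ((Subgroup.zpowers d ⊔ M : Subgroup G) : Set G) := by
      rw [← sup_assoc, htop]
      trivial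
    rw [Subgroup.mul_normal] at hmem
    obtain ⟨y, hy, z, hz, rfl⟩ := Set.mem_mul.1 hmem
    have hz' : z ∈ M := hz
    obtain ⟨k, rfl⟩ := Subgroup.mem_zpowers_iff.1 hy
    have hdsq : d ^ (2 : ℤ) = 1 := by
      rw [show (2 : ℤ) = ((2 : ℕ) : ℤ) by norm_cast, zpow_natCast, pow_two, hdd]
    rcases Int.even_or_odd' k with ⟨m, rfl | rfl⟩
    · rw [zpow_mul, hdsq, one_zpow, one_mul]
      exact mul_mem hz' hz'
    · rw [zpow_add, zpow_mul, hdsq, one_zpow, one_mul, zpow_one]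
      have e : d * z * (d * z) = (d * z * d⁻¹) * ((d * d) * z) := by group
      rw [e, hdd, one_mul]
      exact mul_mem (hMn.conj_mem z hz' d) hz'
  obtain ⟨Q, hQ⟩ := hP.exists_le_sylow
  refine ⟨Q, ?_⟩
  have hQM : (Q : Subgroup G) ≤ M := by
    intro q hq
    obtain ⟨j, hj⟩ := Q.isPGroup' ⟨q, hq⟩
    have hj' : q ^ 3 ^ j = 1 := by simpa using congrArg Subtype.val hj
    have hodd : Odd (3 ^ j) := Odd.pow (by decide)
    obtain ⟨t, ht⟩ := hodd
    have e : q = (q * q) ^ (t + 1) := by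
      have h1 : (q * q) ^ (t + 1) = q ^ (3 ^ j) * q := by
        rw [← pow_two, ← pow_mul, ht, ← pow_succ]
        congr 1
      rw [h1, hj', one_mul]
    rw [e]
    exact pow_mem (hcases q) _
  have hex : ∀ q : (Q : Subgroup G), ∃ p : P, ∃ b ∈ N, (q : G) = p * b := by
    intro q
    obtain ⟨p, hp, b, hb, h⟩ := hdec _ (hQM q.2)
    exact ⟨⟨p, hp⟩, b, hb, h⟩
  choose f hf using hex
  have hinj : Function.Injective f := by
    intro s s' hss
    obtain ⟨b, hb, h1⟩ := hf s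
    obtain ⟨b', hb', h2⟩ := hf s'
    rw [hss] at h1
    have hmem : (((s⁻¹ * s' : (Q : Subgroup G))) : G) ∈ N := by
      simp only [Subgroup.coe_mul, Subgroup.coe_inv]
      rw [h1, h2]
      have e : ((f s' : P) * b)⁻¹ * ((f s' : P) * b') = b⁻¹ * b' := by group
      rw [e]
      exact mul_mem (inv_mem hb) hb'
    have h3 := inf_trivial hN Q.isPGroup' hmem (s⁻¹ * s').2
    have h5 : s⁻¹ * s' = 1 := Subtype.ext h3
    exact inv_mul_eq_one.1 h5
  exact (Subgroup.eq_of_le_of_card_ge hQ (Nat.card_le_card_of_injective f hinj)).symm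

end Cfsg.Agent.Lib.ThreeT
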