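import Cfsg.Agent.Lib.Classical.UTBridge
import Cfsg.Agent.Lib.Classical.UTTrans
import Cfsg.Agent.Lib.Classical.LinAlg
import Cfsg.Prelude.Def_SporadicB

/-!
# Unitary transvections over the field of four elements are 3-transpositions
-/

set_option autoImplicit false

open scoped Matrix
open Matrix

namespace Cfsg.Agent.Lib.ThreeT.UnitTv

open Cfsg.Agent.Lib.Classical Cfsg.Agent.Lib.Classical.UT Cfsg.Agent.Lib.Classical.Witt

variable {F : Type} [Field F] [Fintype F] (hF : Fintype.card F = 2 ^ 2) {n : ℕ}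

local notation "Vv" => (Fin n → F)
local notation "Gg" => (Cfsg.SU n F 2)
local notation "φ" => (fromSU n F 2)
local notation "Bb" => (hermB hF n)

include hF

theorem two_eq : (2 : F) = 0 := by
  have h := FiniteField.cast_card_eq_zero F
  rw [hF] at h
  push_cast at h
  have h4 : (2 : F) ^ 2 = 0 := by
    have e : (2 : F) ^ 2 = 4 := by norm_num
    rw [e]
    exact h
  exact pow_eq_zero_iff (two_ne_zero) |>.1 h4

theorem add_self' (c : F) : c + c = 0 := by
  rw [← two_mul, two_eq hF, zero_mul]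

theorem pow_three_of_ne {c : F} (hc : c ≠ 0) : c ^ 3 = 1 := by
  have h := FiniteField.pow_card_sub_one_eq_one c hc
  rw [hF] at h
  exact h

theorem tv_mem {v : Vv} (hv : Bb v v = 0) : tvE Bb v 1 hv ∈ TG Bb := by
  apply tvE_mem hv
  rw [one_pow]
  exact add_self' hF 1

/-- The transvection. -/
theorem exists_T {v : Vv} (hv : Bb v v = 0) : ∃ A : Gg, φ A = tvE Bb v 1 hv :=
  exists_fromSU hF _ (TG_iso (hermB_symm hF n) (tv_mem hF hv)) (TG_det (tv_mem hF hv))

/-- The transvection as an element. -/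
noncomputable def T (v : Vv) (hv : Bb v v = 0) : Gg := Classical.choose (exists_T hF hv)

omit hF in
theorem g_ext {A A' : Gg} (h : ∀ x, φ A x = φ A' x) : A = A' :=
  fromSU_injective (LinearEquiv.ext h)

theorem T_apply (v : Vv) (hv : Bb v v = 0) (x : Vv) : φ (T hF v hv) x = x + (Bb v x) • v := by
  rw [T, Classical.choose_spec (exists_T hF hv), tvE_apply, one_mul]

theorem T_sq (v : Vv) (hv : Bb v v = 0) : T hF v hv * T hF v hv = 1 := by
  apply g_ext
  intro x
  rw [map_mul, map_one]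
  change φ (T hF v hv) (φ (T hF v hv) x) = x
  rw [T_apply, T_apply, map_add, map_smul]
  simp only [smul_eq_mul, hv, mul_zero, add_zero]
  rw [add_assoc, ← add_smul, add_self' hF, zero_smul, add_zero]

theorem T_inv (v : Vv) (hv : Bb v v = 0) : (T hF v hv)⁻¹ = T hF v hv :=
  inv_eq_of_mul_eq_one_left (T_sq hF v hv)

theorem T_congr {v w : Vv} (hv : Bb v v = 0) (hw : Bb w w = 0) (h : v = w) : T hF v hv = T hF w hw := by
  subst h
  rfl

theorem iso_smul {v : Vv} (hv : Bb v v = 0) (c : F) : Bb (c • v) (c • v) = 0 := by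
  rw [smul_l, smul_r, hv]
  simp

theorem T_smul {v : Vv} (hv : Bb v v = 0) {c : F} (hc : c ≠ 0) : T hF (c • v) (iso_smul hF hv c) = T hF v hv := by
  apply g_ext
  intro x
  rw [T_apply, T_apply, smul_l, smul_smul]
  congr 2
  have h3 := pow_three_of_ne hF hc
  calc c ^ 2 * Bb v x * c = c ^ 3 * Bb v x := by ring
    _ = _ := by rw [h3, one_mul]

theorem exists_one {v : Vv} (hv0 : v ≠ 0) (hv : Bb v v = 0) : ∃ f : Vv, Bb v f = 1 ∧ Bb f v = 1 := by
  obtain ⟨f, h1, h2, -⟩ := exists_partner (hF := hF) (hermB_symm hF n) (hermB_nondeg hF n) hv0 hv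
  exact ⟨f, h1, h2⟩

theorem T_ne_one {v : Vv} (hv0 : v ≠ 0) (hv : Bb v v = 0) : T hF v hv ≠ 1 := by
  intro h
  obtain ⟨f, h1, -⟩ := exists_one hF hv0 hv
  have h2 := T_apply hF v hv f
  rw [h, map_one, h1, one_smul] at h2
  exact hv0 (left_eq_add.1 h2)

/-- The matrix of an element of SU. -/
abbrev mat (A : Cfsg.SU n F 2) : Matrix (Fin n) (Fin n) F :=
  ((A : Matrix.SpecialLinearGroup (Fin n) F) : Matrix (Fin n) (Fin n) F)

omit hF in
theorem phi_apply (A : Gg) (x : Vv) : φ A x = mat A *ᵥ x := fromSU_apply A x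

theorem rank_T {v : Vv} (hv0 : v ≠ 0) (hv : Bb v v = 0) : (mat (T hF v hv) - 1).rank = 1 := by
  set N : Matrix (Fin n) (Fin n) F := mat (T hF v hv) - 1 with hN
  have hNx : ∀ x : Vv, N *ᵥ x = (Bb v x) • v := by
    intro x
    rw [hN, Matrix.sub_mulVec, ← phi_apply, T_apply, Matrix.one_mulVec]
    simp
  have hr : LinearMap.range N.mulVecLin = Submodule.span F {v} := by
    apply le_antisymm
    · rintro _ ⟨x, rfl⟩
      rw [Matrix.mulVecLin_apply, hNx]
      exact Submodule.smul_mem _ _ (Submodule.mem_span_singleton_self v)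
    · rw [Submodule.span_singleton_le_iff_mem]
      obtain ⟨y, hy, -⟩ := exists_one hF hv0 hv
      refine ⟨y, ?_⟩
      rw [Matrix.mulVecLin_apply, hNx, hy, one_smul]
  show Module.finrank F (LinearMap.range N.mulVecLin) = 1
  rw [hr]
  exact finrank_span_singleton hv0

theorem exists_T_of_rank {A : Gg} (h : (mat A - 1).rank = 1) :
    ∃ (a : Vv) (_ : a ≠ 0) (ha : Bb a a = 0), A = T hF a ha := by
  obtain ⟨a, w, hN⟩ := exists_vecMulVec_of_rank_one _ h
  have hA : mat A = 1 + vecMulVec a w := by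
    rw [← hN]
    abel
  have hgx : ∀ x : Vv, φ A x = x + (w ⬝ᵥ x) • a := by
    intro x
    rw [phi_apply, hA, Matrix.add_mulVec, Matrix.one_mulVec, vecMulVec_mulVec']
  have hN0 : (mat A - 1) ≠ 0 := by
    intro h0
    rw [h0, Matrix.rank_zero] at h
    exact zero_ne_one h
  have ha0 : a ≠ 0 := by
    rintro rfl
    apply hN0
    rw [hN]
    ext i j
    simp [vecMulVec_apply]
  obtain ⟨y₀, hy₀⟩ : ∃ y₀ : Vv, w ⬝ᵥ y₀ ≠ 0 := by
    by_contra hcon
    push Not at hcon
    apply hN0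
    apply Matrix.toLin'.injective
    apply LinearMap.ext
    intro x
    rw [Matrix.toLin'_apply, hN, vecMulVec_mulVec', hcon x]
    simp
  -- determinant
  have hwa : w ⬝ᵥ a = 0 := by
    have h1 : (mat A).det = 1 := A.1.2
    rw [hA, vecMulVec_eq Unit, det_one_add_replicateCol_mul_replicateRow] at h1
    exact left_eq_add.1 h1.symm
  -- preservation of the form
  have hpres : ∀ x y : Vv, (w ⬝ᵥ y) * Bb x a + (w ⬝ᵥ x) ^ 2 * Bb a y + (w ⬝ᵥ x) ^ 2 * (w ⬝ᵥ y) * Bb a a = 0 := by
    intro x y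
    have h1 := fromSU_iso hF A x y
    rw [hgx, hgx, add_l, add_r, add_r, smul_l, smul_l, smul_r, smul_r] at h1
    have h2 := add_self' hF (Bb x y)
    linear_combination h1
  -- the normalised point
  set x₀ : Vv := (w ⬝ᵥ y₀)⁻¹ • y₀ with hx₀
  have hwx₀ : w ⬝ᵥ x₀ = 1 := by
    rw [hx₀, dotProduct_smul, smul_eq_mul, inv_mul_cancel₀ hy₀]
  set κ : F := Bb x₀ a + Bb a a with hκ
  have hrel : ∀ y : Vv, Bb a y = κ * (w ⬝ᵥ y) := by
    intro y
    have h1 := hpres x₀ y
    rw [hwx₀] at h1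
    have h2 := add_self' hF ((Bb x₀ a + Bb a a) * (w ⬝ᵥ y))
    rw [hκ]
    linear_combination h1 - h2
  obtain ⟨e, he⟩ : ∃ e : Vv, Bb a e = 1 := by
    obtain ⟨y, hy⟩ : ∃ y, Bb a y ≠ 0 := by
      by_contra hcon
      push Not at hcon
      exact ha0 ((hermB_nondeg hF n).1 a hcon)
    refine ⟨(Bb a y)⁻¹ • y, ?_⟩
    rw [smul_r, inv_mul_cancel₀ hy]
  have hκ0 : κ ≠ 0 := by
    intro h0
    have := hrel e
    rw [he, h0, zero_mul] at this
    exact one_ne_zero this
  have haa : Bb a a = 0 := by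
    rw [hrel, hwa, mul_zero]
  obtain ⟨f, hf1, hf2⟩ := exists_one hF ha0 haa
  have hcc : κ * κ = κ := by
    -- evaluate at the partner
    have h1 := hpres f f
    rw [hf1, hf2, haa] at h1
    have h2 := hrel f
    rw [hf1] at h2
    have hc : w ⬝ᵥ f = κ⁻¹ := by
      field_simp
      linear_combination -h2
    rw [hc] at h1
    have h3 : κ⁻¹ * κ = 1 := inv_mul_cancel₀ hκ0
    have h4 : κ⁻¹ + κ⁻¹ ^ 2 = 0 := by linear_combination h1
    have h5 := add_self' hF κ
    have h6 : κ⁻¹ = 1 := by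
      have h7 : κ⁻¹ * (1 + κ⁻¹) = 0 := by linear_combination h4
      rcases mul_eq_zero.1 h7 with h8 | h8
      · exact absurd h8 (inv_ne_zero hκ0)
      · have := add_self' hF (1 : F)
        linear_combination h8 - this
    have h8 : κ = 1 := by
      rw [inv_eq_iff_eq_inv.1 h6, inv_one]
    rw [h8, one_mul]
  have hκ1 : κ = 1 := mul_left_cancel₀ hκ0 (by rw [hcc, mul_one])
  refine ⟨a, ha0, haa, g_ext fun x => ?_⟩
  rw [hgx, T_apply, hrel, hκ1, one_mul]

theorem conj_T (A : Gg) (v : Vv) (hv : Bb v v = 0) (hv' : Bb (φ A v) (φ A v) = 0) :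
    A * T hF v hv * A⁻¹ = T hF (φ A v) hv' := by
  apply g_ext
  intro x
  have hgi : φ A (φ A⁻¹ x) = x := by
    rw [← LinearEquiv.mul_apply, ← map_mul, mul_inv_cancel, map_one]
    rfl
  rw [map_mul, map_mul]
  change φ A (φ (T hF v hv) (φ A⁻¹ x)) = _
  rw [T_apply, T_apply, map_add, map_smul, hgi]
  congr 2
  rw [← fromSU_iso hF A v, hgi]

theorem T_pair {u v : Vv} (hu : Bb u u = 0) (hv : Bb v v = 0) :
    (T hF u hu * T hF v hv) ^ 2 = 1 ∨ (T hF u hu * T hF v hv) ^ 3 = 1 := by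
  have hS := hermB_symm hF n
  by_cases h : Bb u v = 0
  · left
    have hc : T hF u hu * T hF v hv = T hF v hv * T hF u hu := by
      apply g_ext
      intro x
      have h' : Bb v u = 0 := flip_zero (hF := hF) hS h
      rw [map_mul, map_mul]
      change φ (T hF u hu) (φ (T hF v hv) x) = φ (T hF v hv) (φ (T hF u hu) x)
      rw [T_apply, T_apply, T_apply, T_apply, add_r, add_r, smul_r, smul_r, h, h']
      simp only [mul_zero, add_zero]
      abel
    rw [pow_two]
    calc T hF u hu * T hF v hv * (T hF u hu * T hF v hv) = T hF u hu * (T hF v hv * T hF u hu) * T hF v hv := by group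
      _ = T hF u hu * (T hF u hu * T hF v hv) * T hF v hv := by rw [hc]
      _ = (T hF u hu * T hF u hu) * (T hF v hv * T hF v hv) := by group
      _ = 1 := by rw [T_sq, T_sq, one_mul]
  · right
    have hvu : Bb v u = (Bb u v) ^ 2 := (flip_eq hS u v).symm
    have h3 := pow_three_of_ne hF h
    have iso_img : ∀ (A : Gg) (z : Vv), Bb z z = 0 → Bb (φ A z) (φ A z) = 0 := by
      intro A z hz
      rw [fromSU_iso hF, hz]
    have h1' := iso_img (T hF u hu) v hv
    have h2' := iso_img (T hF v hv) u hu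
    have e1 := conj_T hF (T hF u hu) v hv h1'
    have e2 := conj_T hF (T hF v hv) u hu h2'
    rw [T_inv] at e1 e2
    have e3 : φ (T hF u hu) v = (Bb u v) • φ (T hF v hv) u := by
      rw [T_apply, T_apply, hvu, smul_add, smul_smul]
      have : Bb u v * Bb u v ^ 2 = 1 := by rw [← h3]; ring
      rw [this, one_smul, add_comm]
    have e4 : T hF (φ (T hF u hu) v) h1' = T hF (φ (T hF v hv) u) h2' := by
      rw [← T_smul hF h2' h]
      exact T_congr hF _ _ e3
    calc (T hF u hu * T hF v hv) ^ 3 = (T hF u hu * T hF v hv * T hF u hu) * (T hF v hv * T hF u hu * T hF v hv) := by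
          rw [pow_succ, pow_two]
          group
      _ = 1 := by rw [e1, e2, e4, T_sq]

/-- Transitivity on isotropic vectors. -/
theorem exists_move (hn : 3 ≤ n) {u v : Vv} (hu0 : u ≠ 0) (hu : Bb u u = 0) (hv0 : v ≠ 0) (hv : Bb v v = 0) :
    ∃ A : Gg, φ A u = v := by
  have hd : 3 ≤ Module.finrank F Vv := by simpa using hn
  obtain ⟨t, ht, rfl⟩ := orb_iso (hF := hF) (hermB_symm hF n) (hermB_nondeg hF n) hd hu0 hu hv0 hv
  obtain ⟨A, hA⟩ := exists_fromSU hF t (TG_iso (hermB_symm hF n) ht) (TG_det ht)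
  exact ⟨A, by rw [hA]⟩

/-- The main theorem. -/
theorem threeT (hn : 4 ≤ n) :
    Cfsg.IsThreeTranspositionClass {A : Gg | (mat A - 1).rank = 1} := by
  have hd : 2 ≤ Module.finrank F Vv := by
    simp only [Module.finrank_fintype_fun_eq_card, Fintype.card_fin]
    omega
  obtain ⟨u₀, hu₀0, hu₀⟩ := exists_isotropic (hF := hF) (hermB_symm hF n) (hermB_nondeg hF n) hd
  have img : ∀ (A : Gg) {z : Vv}, z ≠ 0 → φ A z ≠ 0 := by
    intro A z hz h0
    exact hz ((LinearEquiv.map_eq_zero_iff _).1 h0)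
  have iso_img : ∀ (A : Gg) (z : Vv), Bb z z = 0 → Bb (φ A z) (φ A z) = 0 := by
    intro A z hz
    rw [fromSU_iso hF, hz]
  refine ⟨⟨?_, ?_⟩, ⟨T hF u₀ hu₀, rank_T hF hu₀0 hu₀, ?_⟩, ?_⟩
  · intro d hd
    obtain ⟨a, ha0, ha, rfl⟩ := exists_T_of_rank hF hd
    apply orderOf_eq_prime
    · rw [pow_two, T_sq]
    · exact T_ne_one hF ha0 ha
  · intro d hd c hc
    obtain ⟨v, -, hv, rfl⟩ := exists_T_of_rank hF hd
    obtain ⟨w, -, hw, rfl⟩ := exists_T_of_rank hF hc
    exact T_pair hF hv hw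
  · ext g
    constructor
    · intro hg
      obtain ⟨v, hv0, hv, rfl⟩ := exists_T_of_rank hF hg
      obtain ⟨A, hA⟩ := exists_move hF (by omega) hu₀0 hu₀ hv0 hv
      refine isConj_iff.2 ⟨A, ?_⟩
      rw [conj_T hF A u₀ hu₀ (iso_img A u₀ hu₀)]
      exact T_congr hF _ _ hA
    · intro hg
      obtain ⟨A, rfl⟩ := isConj_iff.1 hg
      rw [conj_T hF A u₀ hu₀ (iso_img A u₀ hu₀)]
      exact rank_T hF (img A hu₀0) _
  · rw [eq_top_iff, ← SU_closure hF (Or.inl (by omega)), Subgroup.closure_le]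
    rintro A ⟨v, c, hv, hA⟩
    have hA' : mat A = 1 + vecMulVec (c • v) (fun j => v j ^ 2) := by
      change mat A = _ at hA
      rw [hA, Cfsg.unitaryTransvection, smul_vecMulVec]
    have hr : (mat A - 1).rank ≤ 1 := by
      rw [hA', add_sub_cancel_left]
      exact Matrix.rank_vecMulVec_le _ _
    have hcases : (mat A - 1).rank = 0 ∨ (mat A - 1).rank = 1 := by omega
    rcases hcases with h0 | h1
    · have h2 : mat A - 1 = 0 := by
        have h4 : LinearMap.range (mat A - 1).mulVecLin = ⊥ := Submodule.finrank_eq_zero.1 h0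
        have h5 : (mat A - 1).mulVecLin = 0 := LinearMap.range_eq_bot.1 h4
        apply Matrix.toLin'.injective
        apply LinearMap.ext
        intro x
        have h6 := LinearMap.congr_fun h5 x
        rw [Matrix.toLin'_apply, Matrix.sub_mulVec, Matrix.one_mulVec]
        simpa using h6
      have h3 : A = 1 := by
        apply Subtype.ext
        apply Subtype.ext
        exact sub_eq_zero.1 h2
      rw [h3]
      exact one_mem _
    · exact Subgroup.subset_closure h1

end Cfsg.Agent.Lib.ThreeT.UnitTv
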